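import Cfsg.Agent.Lib.H55.FFOff

set_option autoImplicit false
set_option linter.unusedSimpArgs false

/-! Orbits of centers of transvections. -/

namespace H55.FF

open Subgroup

variable {V : Type*} [Group V]
variable (hV : ∀ v : V, v * v = 1) {X F : Subgroup (MulAut V)} (h : FX X F)

include h

/-- the `F`-orbit of a center -/
def Orb (F : Subgroup (MulAut V)) (c v : V) : Prop := ∃ f ∈ F, v = f c

omit h in
theorem Orb.refl {F : Subgroup (MulAut V)} (c : V) : Orb F c c := ⟨1, F.one_mem, rfl⟩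

omit h in
theorem Orb.symm {F : Subgroup (MulAut V)} {c v : V} (h : Orb F c v) : Orb F v c := by
  obtain ⟨f, hf, rfl⟩ := h
  refine ⟨f⁻¹, F.inv_mem hf, ?_⟩
  exact (MulAut.inv_apply_self _ f c).symm

omit h in
theorem Orb.trans {F : Subgroup (MulAut V)} {c v w : V} (h : Orb F c v) (h' : Orb F v w) : Orb F c w := by
  obtain ⟨f, hf, rfl⟩ := h
  obtain ⟨g, hg, rfl⟩ := h'
  exact ⟨g * f, F.mul_mem hg hf, rfl⟩

theorem FX.orb_map {x : MulAut V} (hx : x ∈ X) {c v : V} (hv : Orb F c v) : Orb F (x c) (x v) := by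
  obtain ⟨f, hf, rfl⟩ := hv
  refine ⟨x * f * x⁻¹, h.nor x hx f hf, ?_⟩
  simp only [MulAut.mul_apply]
  rw [MulAut.inv_apply_self]

include hV

theorem FX.orb_cases {t : MulAut V} {c : V} (ht : Tv t c) (htX : t ∈ X) {f : MulAut V} (hf : f ∈ F)
    (hne : f * t * f⁻¹ ≠ t) {v : V} (hv : Orb F c v) : v = c ∨ v = f c ∨ v = c * f c := by
  obtain ⟨g, hg, rfl⟩ := hv
  have P := h.pair hV ht htX hf hne
  by_cases h1 : g * t * g⁻¹ = t
  · left
    have := ht.conj g
    rw [h1] at this
    exact (ht.center_unique this).symm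
  by_cases h2 : g * t * g⁻¹ = f * t * f⁻¹
  · right; left
    have := ht.conj g
    rw [h2] at this
    exact ((ht.conj f).center_unique this).symm
  · right; right
    have h3 := h.third hV ht htX hf hg hne h1 h2
    have h4 := ht.conj g
    rw [h3] at h4
    have h5 := (ht.conj ((f * t * f⁻¹) * t)).center_unique h4
    rw [← h5, MulAut.mul_apply, ht.fix hV, P.2]

theorem FX.orb_third {t : MulAut V} {c : V} (ht : Tv t c) (htX : t ∈ X) {f : MulAut V} (hf : f ∈ F)
    (hne : f * t * f⁻¹ ≠ t) : Orb F c (c * f c) := by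
  refine ⟨(f * t * f⁻¹) * t, h.mem_prod' hV ht htX hf, ?_⟩
  rw [MulAut.mul_apply, ht.fix hV, (h.pair hV ht htX hf hne).2]

theorem FX.orb_ne {t : MulAut V} {c : V} (ht : Tv t c) (htX : t ∈ X) {f : MulAut V} (hf : f ∈ F)
    (hne : f * t * f⁻¹ ≠ t) : f c ≠ c := by
  intro h1
  have P := (h.pair hV ht htX hf hne).1
  rw [h1, ht.fix hV] at P
  exact ht.c1 (mul_eq_left.1 P.symm)

/-- the orbit together with `1` is closed under multiplication -/
theorem FX.orb_mul [Finite V] {t : MulAut V} {c : V} (ht : Tv t c) (htX : t ∈ X) {v w : V}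
    (hv : Orb F c v) (hw : Orb F c w) : v * w = 1 ∨ Orb F c (v * w) := by
  obtain ⟨f, hf, hne⟩ := h.exists_conj ht (ht.sq hV) htX
  have hcm := comm hV
  have a4 : ∀ x y : V, x * (x * y) = y := fun x y => by rw [← mul_assoc, hV, one_mul]
  have o1 : Orb F c c := Orb.refl c
  have o2 : Orb F c (f c) := ⟨f, hf, rfl⟩
  have o3 := h.orb_third hV ht htX hf hne
  rcases h.orb_cases hV ht htX hf hne hv with e1 | e1 | e1 <;>
    rcases h.orb_cases hV ht htX hf hne hw with e2 | e2 | e2 <;> rw [e1, e2]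
  · left; exact hV _
  · right; exact o3
  · right; rw [a4]; exact o2
  · right; rw [hcm]; exact o3
  · left; exact hV _
  · right
    have : f c * (c * f c) = c := by rw [hcm c, a4]
    rw [this]; exact o1
  · right
    have : c * f c * c = f c := by rw [hcm, a4]
    rw [this]; exact o2
  · right
    have : c * f c * f c = c := by rw [mul_assoc, hV, mul_one]
    rw [this]; exact o1
  · left; exact hV _

/-- a transvection maps a center into its orbit -/
theorem FX.orb_tv [Finite V] {b t : MulAut V} {c d : V} (hb : Tv b d) (hbX : b ∈ X) (ht : Tv t c) (htX : t ∈ X) :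
    Orb F c (b c) := by
  by_cases hbc : b c = c
  · rw [hbc]; exact Orb.refl c
  · obtain ⟨f, hf, rfl⟩ := h.noncomm hV hb hbX ht htX hbc
    have hd := (ht.conj f).center_unique hb
    rw [not_fix_iff hV hb hbc, ← hd]
    apply h.orb_third hV ht htX hf
    intro h1
    apply hbc
    rw [h1]; exact ht.fix hV

theorem FX.orb_tv' [Finite V] {b t : MulAut V} {c d v : V} (hb : Tv b d) (hbX : b ∈ X) (ht : Tv t c) (htX : t ∈ X)
    (hv : Orb F c v) : Orb F c (b v) :=
  (h.orb_tv hV hb hbX ht htX).trans (h.orb_map hbX hv)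

/-- centralizing the center implies commuting with the transvection -/
theorem FX.comm_of_fix [Finite V] {x t : MulAut V} {c : V} (hxX : x ∈ X) (ht : Tv t c) (htX : t ∈ X)
    (hx : x c = c) : x * t * x⁻¹ = t := by
  have h1 := ht.conj x
  rw [hx] at h1
  exact h.unique hV h1 (X.mul_mem (X.mul_mem hxX htX) (X.inv_mem hxX)) ht htX

end H55.FF
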