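import Cfsg.Agent.Lib.H55.HallFT
import Cfsg.Agent.Lib.H39.SylowAux
import Cfsg.Agent.Lib.H28.RelHall
import Cfsg.Prelude.Def_HallClasses

/-!
Extension closure of the class `C_π`, given the odd order theorem.
-/

set_option autoImplicit false

open Cfsg Subgroup
open scoped Pointwise

namespace H55.HallExt

open H55.HallFT

universe u

variable {G : Type u} [Group G] [Finite G]

theorem exists_quot {H M : Subgroup G} [H.Normal] [M.Normal] (hHM : H ≤ M)
    (hcop : (H.relIndex M).Coprime M.index) : ∃ K : Subgroup G, K ⊔ M = ⊤ ∧ K ⊓ M = H := by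
  have hker : (QuotientGroup.mk' H).ker = H := QuotientGroup.ker_mk' H
  have hsurj : Function.Surjective (QuotientGroup.mk' H) := QuotientGroup.mk'_surjective H
  have hcard : Nat.card (M.map (QuotientGroup.mk' H)) = H.relIndex M := by
    have := Subgroup.relIndex_ker (QuotientGroup.mk' H) (K := M)
    rw [hker] at this
    rw [this]
  have hNi : (M.map (QuotientGroup.mk' H)).index = M.index := by
    rw [Subgroup.index_map, hker, sup_eq_left.mpr hHM, MonoidHom.range_eq_top.mpr hsurj,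
      Subgroup.index_top, mul_one]
  have : (M.map (QuotientGroup.mk' H)).Normal := Subgroup.Normal.map inferInstance _ hsurj
  obtain ⟨K', hK'⟩ := Subgroup.exists_right_complement'_of_coprime
    (N := M.map (QuotientGroup.mk' H)) (by rw [hcard, hNi]; exact hcop)
  refine ⟨K'.comap (QuotientGroup.mk' H), ?_, ?_⟩
  · have h1 : (K' ⊔ M.map (QuotientGroup.mk' H)).comap (QuotientGroup.mk' H) = ⊤ := by
      rw [sup_comm, hK'.sup_eq_top, Subgroup.comap_top]
    rw [← h1, ← Subgroup.comap_sup_eq _ _ _ hsurj, Subgroup.comap_map_eq, hker,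
      sup_eq_left.mpr hHM]
  · have h2 : (K' ⊓ M.map (QuotientGroup.mk' H)).comap (QuotientGroup.mk' H) = H := by
      rw [inf_comm, disjoint_iff.mp hK'.disjoint]
      exact hker
    rw [Subgroup.comap_inf, Subgroup.comap_map_eq, hker, sup_eq_left.mpr hHM] at h2
    exact h2

theorem exists_quot_rel {H M W : Subgroup G} (hHM : H ≤ M) (hMW : M ≤ W)
    (hWH : W ≤ normalizer (H : Set G)) (hWM : W ≤ normalizer (M : Set G))
    (hcop : (H.relIndex M).Coprime (M.relIndex W)) :
    ∃ K : Subgroup G, K ⊔ M = W ∧ K ⊓ M = H := by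
  have hHW := hHM.trans hMW
  have := (normal_subgroupOf_iff_le_normalizer hHW).mpr hWH
  have := (normal_subgroupOf_iff_le_normalizer hMW).mpr hWM
  obtain ⟨K, hK1, hK2⟩ := exists_quot (H := H.subgroupOf W) (M := M.subgroupOf W)
    (Subgroup.comap_mono hHM) (by
      rw [Subgroup.relIndex_subgroupOf hMW]
      exact hcop)
  refine ⟨K.map W.subtype, ?_, ?_⟩
  · have := congrArg (Subgroup.map W.subtype) hK1
    rwa [Subgroup.map_sup, H28.SubOf.map_subgroupOf hMW, ← MonoidHom.range_eq_map,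
      Subgroup.range_subtype] at this
  · have := congrArg (Subgroup.map W.subtype) hK2
    rwa [Subgroup.map_inf _ _ _ W.subtype_injective, H28.SubOf.map_subgroupOf hMW,
      H28.SubOf.map_subgroupOf hHW] at this

theorem conj_quot_rel {H M W K L : Subgroup G} (hHM : H ≤ M) (hMW : M ≤ W)
    (hWH : W ≤ normalizer (H : Set G)) (hWM : W ≤ normalizer (M : Set G))
    (hK : K ⊔ M = W) (hL : L ⊔ M = W) (hKM : K ⊓ M = H) (hLM : L ⊓ M = H)
    (hcop : (H.relIndex M).Coprime (M.relIndex W)) :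
    ∃ m ∈ M, MulAut.conj m • K = L := by
  have hHW := hHM.trans hMW
  have hKW : K ≤ W := hK ▸ le_sup_left
  have hLW : L ≤ W := hL ▸ le_sup_left
  have := (normal_subgroupOf_iff_le_normalizer hHW).mpr hWH
  have := (normal_subgroupOf_iff_le_normalizer hMW).mpr hWM
  have hsup : ∀ X : Subgroup G, X ≤ W → X ⊔ M = W →
      X.subgroupOf W ⊔ M.subgroupOf W = ⊤ := by
    intro X hX hXM
    rw [← Subgroup.subgroupOf_sup hX hMW, hXM, Subgroup.subgroupOf_self]
  have hinf : ∀ X : Subgroup G, X ⊓ M = H →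
      X.subgroupOf W ⊓ M.subgroupOf W = H.subgroupOf W := by
    intro X hXM
    rw [← hXM]
    rfl
  obtain ⟨m, hm, hmK⟩ := conj_quot (H := H.subgroupOf W) (M := M.subgroupOf W)
    (Subgroup.comap_mono hHM) (hsup K hKW hK) (hsup L hLW hL) (hinf K hKM) (hinf L hLM) (by
      rw [Subgroup.relIndex_subgroupOf hMW]
      exact hcop)
  refine ⟨m, hm, ?_⟩
  rwa [H1.SZ.conj_smul_subgroupOf_eq_iff hKW hLW] at hmK

/-- Hall π-subgroups of a normal subgroup `A` satisfying `C_π`, as subgroups of `G`. -/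
theorem conjA {π : Set ℕ} {A : Subgroup G} (hA : IsCPiGroup π ↥A) {X Y : Subgroup G}
    (hX : X ≤ A) (hY : Y ≤ A) (hXc : ∀ q : ℕ, q.Prime → q ∣ Nat.card X → q ∈ π)
    (hYc : ∀ q : ℕ, q.Prime → q ∣ Nat.card Y → q ∈ π)
    (hXi : ∀ q : ℕ, q.Prime → q ∈ π → ¬ q ∣ X.relIndex A)
    (hYi : ∀ q : ℕ, q.Prime → q ∈ π → ¬ q ∣ Y.relIndex A) : ∃ a ∈ A, MulAut.conj a • X = Y := by
  obtain ⟨a, ha⟩ := hA.2 (X.subgroupOf A) (Y.subgroupOf A)
    ⟨by rw [H1.SZ.card_subgroupOf_of_le hX]; exact hXc, hXi⟩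
    ⟨by rw [H1.SZ.card_subgroupOf_of_le hY]; exact hYc, hYi⟩
  refine ⟨a, a.2, ?_⟩
  rw [← H1.SZ.conj_smul_subgroupOf_eq_iff hX hY]
  exact ha.symm

theorem conj_smul_inf (g : G) (X Y : Subgroup G) :
    MulAut.conj g • (X ⊓ Y) = (MulAut.conj g • X) ⊓ (MulAut.conj g • Y) :=
  Subgroup.smul_inf _ _ _

/-- `C_π` is extension closed. -/
theorem main (π : Set ℕ) (A : Subgroup G) [A.Normal]
    (hA : IsCPiGroup π ↥A) (hQ : IsCPiGroup π (G ⧸ A)) : IsCPiGroup π G := by
  set f := QuotientGroup.mk' A with hf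
  have hfs : Function.Surjective f := QuotientGroup.mk'_surjective A
  have hfk : f.ker = A := QuotientGroup.ker_mk' A
  have hcA : ∀ g : G, MulAut.conj g • A = A := fun g => Subgroup.Normal.conjAct ‹A.Normal› g
  have hkle : ∀ X : Subgroup (G ⧸ A), A ≤ X.comap f := by
    intro X
    have := Subgroup.ker_le_comap f X
    rwa [hfk] at this
  -- Frattini
  have hfrat : ∀ H : Subgroup G, H ≤ A → (∀ q : ℕ, q.Prime → q ∣ Nat.card H → q ∈ π) →
      (∀ q : ℕ, q.Prime → q ∈ π → ¬ q ∣ H.relIndex A) →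
      ∀ y : G ⧸ A, ∃ n ∈ normalizer (H : Set G), f n = y := by
    intro H hHA hHc hHi y
    obtain ⟨g, rfl⟩ := hfs y
    have h1 : MulAut.conj g • H ≤ A := by
      have := Subgroup.pointwise_smul_le_pointwise_smul_iff (a := MulAut.conj g) |>.mpr hHA
      rwa [hcA g] at this
    have h2 : (MulAut.conj g • H).relIndex A = H.relIndex A := by
      have := Subgroup.relIndex_pointwise_smul (MulAut.conj g) H A
      rwa [hcA g] at this
    obtain ⟨a, ha, haH⟩ := conjA hA h1 hHA (by rw [H1.SZ.card_conj_smul]; exact hHc) hHc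
      (by rw [h2]; exact hHi) hHi
    rw [← H1.SZ.conj_mul_smul] at haH
    refine ⟨a * g, H1.SZ.mem_normalizer_of_conj_smul_eq haH, ?_⟩
    rw [map_mul]
    have : f a = 1 := (QuotientGroup.eq_one_iff a).mpr ha
    rw [this, one_mul]
  obtain ⟨⟨H0, hH0⟩, -⟩ := id hA
  obtain ⟨⟨KQ, hKQ⟩, hQc⟩ := id hQ
  refine ⟨?_, ?_⟩
  · -- existence
    set H := H0.map A.subtype with hH
    have hHA : H ≤ A := Subgroup.map_subtype_le _
    have hHc : ∀ q : ℕ, q.Prime → q ∣ Nat.card H → q ∈ π := by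
      rw [hH, Subgroup.card_map_of_injective A.subtype_injective]
      exact hH0.1
    have hHr : H.relIndex A = H0.index := by
      rw [← H28.SubOf.relIndex_eq_index, hH, H28.SubOf.subgroupOf_map]
    have hHi : ∀ q : ℕ, q.Prime → q ∈ π → ¬ q ∣ H.relIndex A := by
      rw [hHr]
      exact hH0.2
    have hfr := hfrat H hHA hHc hHi
    set N := normalizer (H : Set G) with hN
    set W := KQ.comap f ⊓ N with hW
    have hAW : A ⊓ W = A ⊓ N := by
      rw [hW, ← inf_assoc]
      congr 1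
      rw [inf_eq_left]
      exact hkle KQ
    have hmapW : W.map f = KQ := by
      apply le_antisymm
      · rw [Subgroup.map_le_iff_le_comap]
        exact inf_le_left
      · intro y hy
        obtain ⟨n, hn, rfl⟩ := hfr y
        exact ⟨n, ⟨hy, hn⟩, rfl⟩
    have hMW : A ⊓ N ≤ W := by rw [← hAW]; exact inf_le_right
    have hHM : H ≤ A ⊓ N := le_inf hHA Subgroup.le_normalizer
    have hMr : (A ⊓ N).relIndex W = Nat.card KQ := by
      rw [← hAW, Subgroup.inf_relIndex_right, ← hmapW, ← Subgroup.relIndex_ker, hfk]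
    have hHMr : H.relIndex (A ⊓ N) ∣ H.relIndex A :=
      ⟨_, (Subgroup.relIndex_mul_relIndex H (A ⊓ N) A hHM inf_le_left).symm⟩
    obtain ⟨L, hL1, hL2⟩ := exists_quot_rel (H := H) (M := A ⊓ N) (W := W) hHM hMW
      inf_le_right (by
        refine le_trans ?_ Subgroup.inf_normalizer_le_normalizer_inf
        exact le_inf Subgroup.le_normalizer_of_normal (inf_le_right.trans Subgroup.le_normalizer))
      (by
        rw [hMr]
        exact (coprime_pi hKQ.1 (fun q hq hqd hqπ => hHi q hq hqπ (hqd.trans hHMr))).symm)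
    have hHL : H ≤ L := hL2 ▸ inf_le_left
    have hWM : W ≤ normalizer ((A ⊓ N : Subgroup G) : Set G) := by
      refine le_trans ?_ Subgroup.inf_normalizer_le_normalizer_inf
      exact le_inf Subgroup.le_normalizer_of_normal (inf_le_right.trans Subgroup.le_normalizer)
    have hLr : H.relIndex L = Nat.card KQ := by
      have hLW : L ≤ W := hL1 ▸ le_sup_left
      rw [← hMr, ← hL1, H28.RelHall.relIndex_sup_eq (hLW.trans hWM),
        ← hL2, Subgroup.inf_relIndex_left]
    have hLc : Nat.card L = Nat.card KQ * Nat.card H := by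
      rw [← hLr, H28.RelSyl.relIndex_mul_card hHL]
    have hLi : L.index = H.relIndex A * KQ.index := by
      have h1 : Nat.card L * L.index = Nat.card A * Nat.card (G ⧸ A) := by
        rw [Subgroup.card_mul_index, ← Subgroup.index_eq_card, Subgroup.card_mul_index]
      rw [← H28.RelSyl.relIndex_mul_card hHA, ← Subgroup.card_mul_index KQ, hLc] at h1
      have h2 : 0 < Nat.card KQ * Nat.card H := Nat.mul_pos Nat.card_pos Nat.card_pos
      apply Nat.eq_of_mul_eq_mul_left h2
      rw [h1]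
      ring
    refine ⟨L, ⟨?_, ?_⟩⟩
    · intro q hq hqd
      rw [hLc] at hqd
      rcases hq.dvd_mul.mp hqd with h1 | h1
      · exact hKQ.1 q hq h1
      · exact hHc q hq h1
    · intro q hq hqπ hqd
      rw [hLi] at hqd
      rcases hq.dvd_mul.mp hqd with h1 | h1
      · exact hHi q hq hqπ h1
      · exact hKQ.2 q hq hqπ h1
  · -- conjugacy
    intro X Y hX hY
    have hsub : ∀ Z : Subgroup G, IsPiHall π Z →
        (∀ q : ℕ, q.Prime → q ∣ Nat.card (Z ⊓ A : Subgroup G) → q ∈ π) ∧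
        (∀ q : ℕ, q.Prime → q ∈ π → ¬ q ∣ (Z ⊓ A).relIndex A) := by
      intro Z hZ
      refine ⟨fun q hq hqd => hZ.1 q hq (hqd.trans (Subgroup.card_dvd_of_le inf_le_left)), ?_⟩
      intro q hq hqπ hqd
      rw [Subgroup.inf_relIndex_right] at hqd
      exact hZ.2 q hq hqπ (hqd.trans (H39.SylowAux.relIndex_dvd_index_of_normal_right Z A))
    have hmap : ∀ Z : Subgroup G, IsPiHall π Z → IsPiHall π (Z.map f) := by
      intro Z hZ
      refine ⟨map_pi f hZ.1, ?_⟩
      intro q hq hqπ hqd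
      exact hZ.2 q hq hqπ (hqd.trans (Subgroup.index_map_dvd Z hfs))
    obtain ⟨a, ha, haX⟩ := conjA hA (X := X ⊓ A) (Y := Y ⊓ A) inf_le_right inf_le_right
      (hsub X hX).1 (hsub Y hY).1 (hsub X hX).2 (hsub Y hY).2
    set H := Y ⊓ A with hH
    have hHA : H ≤ A := inf_le_right
    have hfr := hfrat H hHA (hsub Y hY).1 (hsub Y hY).2
    set N := normalizer (H : Set G) with hN
    set X1 := MulAut.conj a • X with hX1
    have hX1h : IsPiHall π X1 := isPiHall_conj hX a
    have hX1A : X1 ⊓ A = H := by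
      rw [← haX, conj_smul_inf, hcA a]
    obtain ⟨q, hq⟩ := hQc (X1.map f) (Y.map f) (hmap X1 hX1h) (hmap Y hY)
    obtain ⟨n, hn, rfl⟩ := hfr q
    set X2 := MulAut.conj n • X1 with hX2
    have hX2A : X2 ⊓ A = H := by
      rw [hX2, ← hcA n, ← conj_smul_inf, hX1A]
      exact H1.SZ.conj_smul_eq_of_mem_normalizer hn
    have hX2f : X2.map f = Y.map f := by
      rw [hX2, H1.SZ.conj_smul_map, hq]
      rfl
    have hsupA : X2 ⊔ A = Y ⊔ A := by
      have := congrArg (Subgroup.comap f) hX2f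
      rwa [Subgroup.comap_map_eq, Subgroup.comap_map_eq, hfk] at this
    have hNle : ∀ Z : Subgroup G, Z ⊓ A = H → Z ≤ N := by
      intro Z hZ
      rw [hN, ← hZ]
      exact (le_inf Subgroup.le_normalizer Subgroup.le_normalizer_of_normal).trans
        Subgroup.inf_normalizer_le_normalizer_inf
    have hYN : Y ≤ N := hNle Y rfl
    have hX2N : X2 ≤ N := hNle X2 hX2A
    set W := (Y ⊔ A) ⊓ N with hW
    have hdede : ∀ Z : Subgroup G, Z ≤ N → Z ⊔ (A ⊓ N) = (Z ⊔ A) ⊓ N := by
      intro Z hZ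
      apply le_antisymm
      · exact sup_le (le_inf le_sup_left hZ) (inf_le_inf_right _ le_sup_right)
      · rintro x ⟨hx, hxN⟩
        obtain ⟨z, hz, a, ha, rfl⟩ := Subgroup.mem_sup_of_normal_right.mp hx
        refine mul_mem (mem_sup_left hz) (mem_sup_right ⟨ha, ?_⟩)
        have h1 : a = z⁻¹ * (z * a) := by group
        rw [h1]
        exact N.mul_mem (N.inv_mem (hZ hz)) hxN
    have hKM : ∀ Z : Subgroup G, Z ⊓ A = H → Z ⊓ (A ⊓ N) = H := by
      intro Z hZ
      rw [← inf_assoc, hZ, inf_eq_left]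
      exact Subgroup.le_normalizer
    have hHM : H ≤ A ⊓ N := le_inf hHA Subgroup.le_normalizer
    have hMW : A ⊓ N ≤ W := inf_le_inf_right _ le_sup_right
    have hWM : W ≤ normalizer ((A ⊓ N : Subgroup G) : Set G) := by
      refine le_trans ?_ Subgroup.inf_normalizer_le_normalizer_inf
      exact le_inf Subgroup.le_normalizer_of_normal (inf_le_right.trans Subgroup.le_normalizer)
    have hHMr : H.relIndex (A ⊓ N) ∣ H.relIndex A :=
      ⟨_, (Subgroup.relIndex_mul_relIndex H (A ⊓ N) A hHM inf_le_left).symm⟩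
    have hAW : A ⊓ W = A ⊓ N := by
      rw [hW, ← inf_assoc, inf_eq_left.mpr (le_sup_right : A ≤ Y ⊔ A)]
    have hMr : (A ⊓ N).relIndex W ∣ Nat.card (Y.map f) := by
      rw [← hAW, Subgroup.inf_relIndex_right]
      have h1 : A.relIndex W = Nat.card (W.map f) := by rw [← Subgroup.relIndex_ker, hfk]
      rw [h1]
      apply Subgroup.card_dvd_of_le
      rw [Subgroup.map_le_iff_le_comap, Subgroup.comap_map_eq, hfk]
      exact inf_le_left
    obtain ⟨m, hm, hmX⟩ := conj_quot_rel (H := H) (M := A ⊓ N) (W := W) (K := X2) (L := Y)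
      hHM hMW inf_le_right hWM (by rw [hdede X2 hX2N, hsupA]) (hdede Y hYN)
      (hKM X2 hX2A) (hKM Y rfl) (by
        refine (coprime_pi (π := π) ?_ ?_).symm
        · intro q hq hqd
          exact (hmap Y hY).1 q hq (hqd.trans hMr)
        · intro q hq hqd hqπ
          exact (hsub Y hY).2 q hq hqπ (hqd.trans hHMr))
    refine ⟨m * n * a, ?_⟩
    rw [← hmX, hX2, hX1, ← H1.SZ.conj_mul_smul, ← H1.SZ.conj_mul_smul]
    rfl

end H55.HallExt
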