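import Cfsg.Agent.Lib.H55.ZN9

set_option autoImplicit false
set_option linter.unusedSimpArgs false
set_option linter.unusedSectionVars false

/-! Chains of length one; existence of non-commuting four-groups in a chamber. -/

namespace H55.ZN

open Subgroup

variable {G : Type*} [Group G] [Finite G] {Ch : Subgroup G → Prop}
  {Pr : Subgroup G → Subgroup G → Subgroup G → G → Prop}

variable {C₀ Xm Vm : Subgroup G} {zm d : G} {Xa Va : Subgroup G} {za : G} {Xb Vb : Subgroup G} {zb : G}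

theorem Geo.comm_W (h : Geo Ch Pr) {C : Subgroup G} (hC : Ch C) {q : G} (hq : q ∈ C) {w : G} (hw : w ∈ WW Pr C) :
    q * w * q⁻¹ * w⁻¹ ∈ ZJ C := by
  have hw' := hw
  rw [WW] at hw'
  induction hw' using closure_induction with
  | mem v hv =>
    obtain ⟨V, ⟨X, z, hp⟩, hv⟩ := hv
    have hpz := h.pz hp
    rcases hpz.cv q hq v hv with e | e
    · rw [e, mul_inv_cancel]; exact one_mem _
    · rw [e]
      have : v * z * v⁻¹ = z := by rw [hpz.V2.comm hv hpz.zV]; group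
      rw [this]; exact hpz.zZ
  | one => simp
  | mul a b ha hb iha ihb =>
    have h1 := iha ha
    have h2 := ihb hb
    have haC : a ∈ C := h.WW_le ha
    have h3 := h.zj_comm hC haC h2
    have e : q * (a * b) * q⁻¹ * (a * b)⁻¹ = (q * a * q⁻¹ * a⁻¹) * ((a * (q * b * q⁻¹ * b⁻¹)) * a⁻¹) := by group
    rw [e, h3]
    have e2 : (q * b * q⁻¹ * b⁻¹) * a * a⁻¹ = q * b * q⁻¹ * b⁻¹ := by group
    rw [e2]; exact mul_mem h1 h2
  | inv a ha iha =>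
    have h1 := iha ha
    have haC : a ∈ C := h.WW_le ha
    have h3 := h.zj_comm hC (inv_mem haC) (inv_mem h1)
    have e : q * a⁻¹ * q⁻¹ * a⁻¹⁻¹ = (a⁻¹ * (q * a * q⁻¹ * a⁻¹)⁻¹) * a := by group
    rw [e, h3]
    have e2 : (q * a * q⁻¹ * a⁻¹)⁻¹ * a⁻¹ * a = (q * a * q⁻¹ * a⁻¹)⁻¹ := by group
    rw [e2]; exact inv_mem h1

/-- both alternatives give `zm ∈ C(Xa)` for chains of length one -/
theorem Cfg.fixa (c : Cfg Pr 0 C₀ C₀ Xm Vm zm d Xa Va za Xb Vb zb) (h : Geo Ch Pr) (hm : Min Pr 1) :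
    ∀ x ∈ Xa, x * zm = zm * x := by
  have hpa := h.pz c.pa
  have hpm := h.pz c.pm
  obtain ⟨r, hr, hrz⟩ : ∃ r ∈ Xa, r * za ≠ za * r := by
    obtain ⟨v, hv, hv1, hvz, -⟩ := hpa.three
    obtain ⟨r, hr, e⟩ := hpa.tr v hv hv1
    refine ⟨r, hr, fun e2 => hvz ?_⟩
    rw [← e, e2]; group
  by_cases hcom : ∀ V₁, Vs Pr (cj r C₀) V₁ → Com V₁ Vm
  · obtain ⟨h1, h2, h3⟩ := c.alt_ii h hm hr hrz hcom
    obtain ⟨w, hw, hwC, hmv⟩ := c.mover h hm
    have hp' := h.adjP c.pa hr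
    have hvV : r * za * r⁻¹ ∈ Va := conj_mem_of_norm (hpa.XV hr) hpa.zV
    -- q
    obtain ⟨j, hj, hjj, hjm⟩ := hpm.mv
    have hjC : j ∈ C₀ := JJ_le _ hj
    obtain ⟨v₁, hv₁, hv₁1, hv₁z, -⟩ := hpm.three
    have hwm : w * v₁ = v₁ * w := c.comm_bm h hm w hw v₁ hv₁
    have hza2 : za * za = 1 := hpa.V2 za hpa.zV
    have hq : ∃ q ∈ C₀, (∀ v ∈ Va, q * v = v * q) ∧ q * v₁ * q⁻¹ = v₁ * zm := by
      by_cases hjv : ∀ v ∈ Va, j * v = v * j
      · exact ⟨j, hjC, hjv, hjm v₁ hv₁ hv₁1 hv₁z⟩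
      · push Not at hjv
        obtain ⟨v₀, hv₀, hjne⟩ := hjv
        refine ⟨j * w, mul_mem hjC hwC, ?_, ?_⟩
        · intro v hv
          by_cases e1 : v = 1
          · rw [e1]; group
          by_cases e2 : v = za
          · rw [e2]; exact h.zj_comm (h.ch c.pa) (mul_mem hjC hwC) hpa.zZ
          · have e3 := h.moves c.pa hjC hv₀ hjne hv e1 e2
            have e4 := hmv v hv e1 e2
            have e5 : j * za * j⁻¹ = za := by
              rw [h.zj_comm (h.ch c.pa) hjC hpa.zZ]; group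
            have e6 : (j * w) * v * (j * w)⁻¹ = v := by
              calc (j * w) * v * (j * w)⁻¹ = j * (w * v * w⁻¹) * j⁻¹ := by group
                _ = (j * v * j⁻¹) * (j * za * j⁻¹) := by rw [e4]; group
                _ = v := by rw [e3, e5, mul_assoc, hza2, mul_one]
            exact mul_inv_eq_iff_eq_mul.1 e6
        · calc (j * w) * v₁ * (j * w)⁻¹ = j * (w * v₁ * w⁻¹) * j⁻¹ := by group
            _ = j * v₁ * j⁻¹ := by
              rw [hwm]; group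
            _ = v₁ * zm := hjm v₁ hv₁ hv₁1 hv₁z
    obtain ⟨q, hqC, hqa, hqv⟩ := hq
    have hqC' : q ∈ cj r C₀ := (h.pz hp').st q (hpa.CX hqC) (hqa _ hvV)
    have hv₁W : v₁ ∈ WW Pr (cj r C₀) := by rw [h2]; exact le_WW ⟨Xm, zm, c.pm⟩ hv₁
    have h4 := h.comm_W (h.ch hp') hqC' hv₁W
    rw [hqv] at h4
    have e : v₁ * zm * v₁⁻¹ = zm := by rw [hpm.V2.comm hv₁ hpm.zV]; group
    rw [e] at h4
    exact h.cen_two c.pa hr hrz hpm.zZ h4
  · push Not at hcom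
    obtain ⟨V₁, ⟨X₁, z₁, hp₁⟩, hnc⟩ := hcom
    exact (c.alt_i h hm hr hrz hp₁ hnc).2

theorem Cfg.dne (c : Cfg Pr 0 C₀ C₀ Xm Vm zm d Xa Va za Xb Vb zb) (h : Geo Ch Pr) (hm : Min Pr 1) :
    d * zm ≠ zm * d := by
  intro e
  have h1 := (h.pz c.pm).st d c.dm e
  have h2 : cj d C₀ = C₀ := cj_self h1
  have h3 := c.pb
  rw [h2] at h3
  exact c.nc (hm 0 (by omega) _ _ _ _ rfl ⟨_, _, c.pa⟩ ⟨_, _, h3⟩)

/-- reversing a configuration -/
theorem Cfg.rev (c : Cfg Pr 0 C₀ C₀ Xm Vm zm d Xa Va za Xb Vb zb) (h : Geo Ch Pr) :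
    Cfg Pr 0 (cj d C₀) (cj d C₀) Xm Vm (d * zm * d⁻¹) d⁻¹ Xb Vb zb Xa Va za := by
  refine ⟨rfl, h.adjP c.pm c.dm, Xm.inv_mem c.dm, c.pb, ?_, fun e => c.nc e.symm⟩
  rw [cj_inv_cj]; exact c.pa

theorem Cfg.fixm (c : Cfg Pr 0 C₀ C₀ Xm Vm zm d Xa Va za Xb Vb zb) (h : Geo Ch Pr) (hm : Min Pr 1) :
    ∀ x ∈ Xm, x * za = za * x := by
  apply h.cen_two c.pm c.dm (c.dne h hm) (h.pz c.pa).zZ
  rw [(c.ab h hm).2.2]; exact (h.pz c.pb).zZ

theorem Cfg.Vb_eq (c : Cfg Pr 0 C₀ C₀ Xm Vm zm d Xa Va za Xb Vb zb) (h : Geo Ch Pr) (hm : Min Pr 1) :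
    Vb = cj d Va := by
  have h1 := c.fixa h hm
  have h2 := (c.rev h).fixa h hm
  have h3 := c.fixm h hm
  obtain ⟨-, -, hz⟩ := c.ab h hm
  have hpd := h.prC d c.pa
  have e1 : d * za * d⁻¹ = za := by rw [h3 d c.dm]; group
  have hz1 : d * zm * d⁻¹ ∈ ZJ (cj d C₀) := by rw [ZJ_cj]; exact conj_mem_cj (h.pz c.pm).zZ
  have hz11 : d * zm * d⁻¹ ≠ 1 := fun e => (h.pz c.pm).z1 (conj_eq_one_iff.1 e)
  have h4 : ∀ x ∈ cj d Xa, x * (d * zm * d⁻¹) = (d * zm * d⁻¹) * x := by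
    intro x hx
    rw [mem_cj] at hx
    have h5 := h1 _ hx
    calc x * (d * zm * d⁻¹) = d * ((d⁻¹ * x * d) * zm) * d⁻¹ := by group
      _ = d * (zm * (d⁻¹ * x * d)) * d⁻¹ := by rw [h5]
      _ = (d * zm * d⁻¹) * x := by group
  have h5 := (h.res_cent c.pb hpd hz1 hz11 h2 h4).2.2 zb (h.pz c.pb).zV ?_ (h.pz c.pb).z1
  · exact h5
  · rw [← hz, ← e1]; exact conj_mem_cj (h.pz c.pa).zV

omit [Finite G] in
/-- elements of non-commuting four-groups -/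
theorem nc_elem {C C' X X' V V' : Subgroup G} {z : G} (hp : PZ C X V z) (hp' : PZ C' X' V' z)
    (h1 : V ≤ C') (h2 : V' ≤ C) (hn : ¬ Com V V') (hcz : ∀ c ∈ C, c * z = z * c) (hcz' : ∀ c ∈ C', c * z = z * c)
    {v v' : G} (hv : v ∈ V) (hv1 : v ≠ 1) (hvz : v ≠ z)
    (hv' : v' ∈ V') (hv1' : v' ≠ 1) (hvz' : v' ≠ z) : v * v' * v⁻¹ = v' * z := by
  unfold Com at hn
  push Not at hn
  obtain ⟨v₀, hv₀, v₀', hv₀', hne⟩ := hn
  have e1 := hp.moves (h2 hv₀') hv₀ (fun e => hne e.symm) (hcz _ (h2 hv₀')) hv hv1 hvz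
  have e2 : v * v₀' ≠ v₀' * v := by
    intro e
    rw [← e] at e1
    have : v * v₀' * v₀'⁻¹ = v := by group
    rw [this] at e1
    exact hp.z1 (mul_eq_left.1 e1.symm)
  exact hp'.moves (h1 hv) hv₀' e2 (hcz' _ (h1 hv)) hv' hv1' hvz'

/-- the third conjugate -/
theorem Cfg.third (c : Cfg Pr 0 C₀ C₀ Xm Vm zm d Xa Va za Xb Vb zb) (h : Geo Ch Pr) (hm : Min Pr 1) {w : G}
    (hw : w ∈ C₀) {vm : G} (hvm : vm ∈ Vm) (hne : w * vm ≠ vm * w) {b : G} (hb : b ∈ Vb) (hb1 : b ≠ 1)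
    (hbz : b ≠ za) : (w * b * w⁻¹) * b * (w * b * w⁻¹)⁻¹ = b * za ∧ (w * b * w⁻¹) * b * ((w * b * w⁻¹) * b) = za := by
  have hpm := h.pz c.pm
  have hpa := h.pz c.pa
  have hpb := h.pz c.pb
  have hVb := c.Vb_eq h hm
  have hfm := c.fixm h hm
  obtain ⟨-, hbC, hz⟩ := c.ab h hm
  have hdne := c.dne h hm
  have hwX : w ∈ Xm := hpm.CX hw
  have hdV : d * zm * d⁻¹ ∈ Vm := conj_mem_of_norm (hpm.XV c.dm) hpm.zV
  have hd1 : d * zm * d⁻¹ ≠ 1 := fun e => hpm.z1 (conj_eq_one_iff.1 e)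
  have hdz : d * zm * d⁻¹ ≠ zm := fun e => hdne (mul_inv_eq_iff_eq_mul.1 e)
  have hw1 := h.moves c.pm hw hvm hne hdV hd1 hdz
  -- y = d w d⁻¹
  set y := d * w * d⁻¹ with hy
  have hyC : y ∈ cj d C₀ := conj_mem_cj hw
  have hyX : y ∈ Xm := Xm.mul_mem (Xm.mul_mem c.dm hwX) (Xm.inv_mem c.dm)
  have hpm' := h.adjP c.pm c.dm
  have hy1 : y * zm * y⁻¹ = zm * (d * zm * d⁻¹) := by
    apply h.moves hpm' hyC (v₀ := d * vm * d⁻¹) (conj_mem_of_norm (hpm.XV c.dm) hvm) ?_ hpm.zV hpm.z1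
      (fun e => hdz e.symm)
    intro e
    apply hne
    have e2 : d⁻¹ * (y * (d * vm * d⁻¹)) * d = d⁻¹ * (d * vm * d⁻¹ * y) * d := by rw [e]
    have e3 : d⁻¹ * (y * (d * vm * d⁻¹)) * d = w * vm := by rw [hy]; group
    have e4 : d⁻¹ * (d * vm * d⁻¹ * y) * d = vm * w := by rw [hy]; group
    rw [e3, e4] at e2; exact e2
  -- (w d)⁻¹ y ∈ C₀
  have h1 : (w * d)⁻¹ * y ∈ C₀ := by
    apply hpm.st _ (Xm.mul_mem (Xm.inv_mem (Xm.mul_mem hwX c.dm)) hyX)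
    have e1 : y * zm * y⁻¹ = (w * d) * zm * (w * d)⁻¹ := by
      rw [hy1, hpm.V2.comm hpm.zV hdV, ← hw1]; group
    calc (w * d)⁻¹ * y * zm = (w * d)⁻¹ * (y * zm * y⁻¹) * y := by group
      _ = zm * ((w * d)⁻¹ * y) := by rw [e1]; group
  have h2 : cj y Va = cj w Vb := by
    have e1 := hpa.XV (hpa.CX h1)
    rw [← cj_eq_iff, cj_mul] at e1
    have e2 := congrArg (cj (w * d)) e1
    rw [cj_cj_inv] at e2
    rw [e2, hVb, cj_mul]
  have h3 : cj y Vb = Vb := cj_eq_iff.2 (hpb.XV (hpb.CX hyC))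
  have h4 : ¬ Com Vb (cj w Vb) := by
    intro e
    apply c.nc
    rw [← h2] at e
    nth_rewrite 1 [← h3] at e
    intro v hv v' hv'
    have e1 := e _ (conj_mem_cj hv') _ (conj_mem_cj hv)
    have e2 : y⁻¹ * (y * v' * y⁻¹ * (y * v * y⁻¹)) * y = y⁻¹ * (y * v * y⁻¹ * (y * v' * y⁻¹)) * y := by rw [e1]
    have e3 : y⁻¹ * (y * v' * y⁻¹ * (y * v * y⁻¹)) * y = v' * v := by group
    have e4 : y⁻¹ * (y * v * y⁻¹ * (y * v' * y⁻¹)) * y = v * v' := by group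
    rw [e3, e4] at e2
    exact e2.symm
  -- the configuration (Vb, cj w Vb)
  have hpw := h.prC w c.pb
  have hzw : w * zb * w⁻¹ = za := by
    rw [← hz, hfm w hwX]; group
  rw [hzw] at hpw
  have hdist : Dist Pr 1 (cj d C₀) (cj w (cj d C₀)) := ⟨_, rfl, Xm, Vm, _, hpm', w, hwX, rfl⟩
  have h5 : Vb ≤ cj w (cj d C₀) := h.L2 hm hdist ⟨Xb, zb, c.pb⟩
  have h6 : cj w Vb ≤ cj d C₀ := h.L2 hm (h.dist_symm hdist) ⟨_, _, hpw⟩
  have hpb' := h.pz c.pb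
  rw [← hz] at hpb'
  have hww : w * b * w⁻¹ ∈ cj w Vb := conj_mem_cj hb
  have hw11 : w * b * w⁻¹ ≠ 1 := fun e => hb1 (conj_eq_one_iff.1 e)
  have hwzz : w * b * w⁻¹ ≠ za := by
    intro e
    apply hbz
    have e1 : b = w⁻¹ * (w * b * w⁻¹) * w := by group
    rw [e1, e, mul_assoc, ← hfm w hwX]; group
  have h7 := nc_elem (h.pz hpw) hpb' h6 h5 (fun e => h4 e.symm)
    (fun x hx => h.zj_comm (h.ch hpw) hx (h.pz hpw).zZ) (fun x hx => h.zj_comm (h.ch c.pb) hx hpb'.zZ)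
    hww hw11 hwzz hb hb1 hbz
  refine ⟨h7, ?_⟩
  have hb2 : b * b = 1 := hpb.V2 b hb
  have hwb2 : (w * b * w⁻¹)⁻¹ = w * b * w⁻¹ := by
    rw [inv_eq_iff_mul_eq_one]
    calc w * b * w⁻¹ * (w * b * w⁻¹) = w * (b * b) * w⁻¹ := by group
      _ = 1 := by rw [hb2]; group
  rw [hwb2] at h7
  calc (w * b * w⁻¹) * b * ((w * b * w⁻¹) * b) = ((w * b * w⁻¹) * b * (w * b * w⁻¹)) * b := by group
    _ = b * za * b := by rw [h7]
    _ = za := by
      rw [hpb'.V2.comm hb hpb'.zV, mul_assoc, hb2, mul_one]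

/-- case (i) is impossible for chains of length one -/
theorem Cfg.no_i (c : Cfg Pr 0 C₀ C₀ Xm Vm zm d Xa Va za Xb Vb zb) (h : Geo Ch Pr) (hm : Min Pr 1) {r : G}
    (hr : r ∈ Xa) (hrz : r * za ≠ za * r) {X₁ V₁ : Subgroup G} {z₁ : G} (hp : Pr (cj r C₀) X₁ V₁ z₁)
    (hnc : ¬ Com V₁ Vm) : False := by
  have c2 : Cfg Pr 0 C₀ C₀ Xa Va za r Xm Vm zm X₁ V₁ z₁ := ⟨rfl, c.pa, hr, c.pm, hp, fun e => hnc e.symm⟩
  obtain ⟨b, hb, hbC, hbm⟩ := c.mover h hm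
  obtain ⟨w, hw, hwC, hwm⟩ := c2.mover h hm
  have hpa := h.pz c.pa
  have hpm := h.pz c.pm
  obtain ⟨-, -, hz⟩ := c.ab h hm
  obtain ⟨-, -, hz2⟩ := c2.ab h hm
  obtain ⟨va, hva, hva1, hvaz, -⟩ := hpa.three
  obtain ⟨vm, hvm, hvm1, hvmz, -⟩ := hpm.three
  have hb1 : b ≠ 1 := by
    intro e
    have := move_ne (hbm va hva hva1 hvaz) hpa.z1
    rw [e] at this; apply this; group
  have hbz : b ≠ za := by
    intro e
    have := move_ne (hbm va hva hva1 hvaz) hpa.z1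
    rw [e] at this; exact this (hpa.V2.comm hpa.zV hva)
  have hw1 : w ≠ 1 := by
    intro e
    have := move_ne (hwm vm hvm hvm1 hvmz) hpm.z1
    rw [e] at this; apply this; group
  have hwz : w ≠ zm := by
    intro e
    have := move_ne (hwm vm hvm hvm1 hvmz) hpm.z1
    rw [e] at this; exact this (hpm.V2.comm hpm.zV hvm)
  have e1 := (c.third h hm hwC hvm (move_ne (hwm vm hvm hvm1 hvmz) hpm.z1) hb hb1 hbz).2
  have e2 := (c2.third h hm hbC hva (move_ne (hbm va hva hva1 hvaz) hpa.z1) hw hw1 hwz).2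
  have hbi : b⁻¹ = b := inv_eq_of_mul_eq_one_left ((h.pz c.pb).V2 b hb)
  have hwi : w⁻¹ = w := inv_eq_of_mul_eq_one_left ((h.pz hp).V2 w hw)
  rw [hwi] at e1
  rw [hbi] at e2
  have e3 : za * zm = 1 := by
    have hbb : b * b = 1 := (h.pz c.pb).V2 b hb
    have hww : w * w = 1 := (h.pz hp).V2 w hw
    rw [← e1, ← e2]
    calc w * b * w * b * (w * b * w * b) * (b * w * b * w * (b * w * b * w))
        = w * b * w * b * (w * b * w * (b * b) * w * b * w) * (b * w * b * w) := by group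
      _ = w * b * w * b * (w * b * (w * w) * b * w) * (b * w * b * w) := by rw [hbb]; group
      _ = w * b * w * b * (w * (b * b) * w) * (b * w * b * w) := by rw [hww]; group
      _ = w * b * w * b * (w * w) * (b * w * b * w) := by rw [hbb]; group
      _ = w * b * w * (b * b) * w * b * w := by rw [hww]; group
      _ = w * b * (w * w) * b * w := by rw [hbb]; group
      _ = w * (b * b) * w := by rw [hww]; group
      _ = 1 := by rw [hbb, mul_one, hww]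
  have e4 : zm = za := by
    have hza2 := hpa.V2 za hpa.zV
    have : za * zm = za * za := by rw [e3, hza2]
    exact mul_left_cancel this
  apply hrz
  have := c.fixa h hm r hr
  rwa [e4] at this

end H55.ZN
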