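import Cfsg.Agent.Lib.H55.ZN10

set_option autoImplicit false
set_option linter.unusedSimpArgs false
set_option linter.unusedSectionVars false

/-! Chains of length one, second alternative; conclusion (C). -/

namespace H55.ZN

open Subgroup

variable {G : Type*} [Group G] [Finite G] {Ch : Subgroup G → Prop}
  {Pr : Subgroup G → Subgroup G → Subgroup G → G → Prop}

variable {C₀ Xm Vm : Subgroup G} {zm d : G} {Xa Va : Subgroup G} {za : G} {Xb Vb : Subgroup G} {zb : G}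

omit [Finite G] in
theorem cyc3 {g z z' : G} (gz : g * z * g⁻¹ = z') (gz' : g * z' * g⁻¹ = z * z') (hz : z * z = 1) (hz' : z' * z' = 1)
    (hc : z' * z = z * z') (n : ℕ) : (n % 3 = 0 → g ^ n * z * (g ^ n)⁻¹ = z) ∧
      (n % 3 = 1 → g ^ n * z * (g ^ n)⁻¹ = z') ∧ (n % 3 = 2 → g ^ n * z * (g ^ n)⁻¹ = z * z') := by
  have gzz : g * (z * z') * g⁻¹ = z := by
    calc g * (z * z') * g⁻¹ = (g * z * g⁻¹) * (g * z' * g⁻¹) := by group
      _ = z := by rw [gz, gz', ← mul_assoc, hc, mul_assoc, hz', mul_one]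
  induction n with
  | zero => refine ⟨fun _ => by simp, fun h => by omega, fun h => by omega⟩
  | succ n ih =>
    obtain ⟨i0, i1, i2⟩ := ih
    have e : g ^ (n + 1) * z * (g ^ (n + 1))⁻¹ = g * (g ^ n * z * (g ^ n)⁻¹) * g⁻¹ := by
      rw [pow_succ']; group
    refine ⟨fun h => ?_, fun h => ?_, fun h => ?_⟩
    · rw [e, i2 (by omega), gzz]
    · rw [e, i0 (by omega), gz]
    · rw [e, i1 (by omega), gz']

theorem two_pow_mod (k : ℕ) : (2 ^ k) % 3 = 1 ∨ (2 ^ k) % 3 = 2 := by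
  induction k with
  | zero => left; rfl
  | succ k ih => rw [pow_succ]; omega

omit [Finite G] in
theorem comm_Na {X V : Subgroup G} (hXV : X ≤ normalizer (V : Set G)) {b : G} (hb : b ∈ X) {T : G → Prop}
    (hT : ∀ x ∈ X, ∀ y, T y → T (x * y * x⁻¹)) (hbT : ∀ y, T y → b * y * b⁻¹ * y⁻¹ ∈ V) {n : G}
    (hn : n ∈ closure {y | ∃ x ∈ X, y = x * b * x⁻¹}) : n ∈ X ∧ ∀ y, T y → n * y * n⁻¹ * y⁻¹ ∈ V := by
  induction hn using closure_induction with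
  | mem n hn =>
    obtain ⟨x, hx, rfl⟩ := hn
    refine ⟨X.mul_mem (X.mul_mem hx hb) (X.inv_mem hx), fun y hy => ?_⟩
    have h1 := hT x⁻¹ (X.inv_mem hx) y hy
    have h2 := conj_mem_of_norm (hXV hx) (hbT _ h1)
    have e : x * (b * (x⁻¹ * y * x⁻¹⁻¹) * b⁻¹ * (x⁻¹ * y * x⁻¹⁻¹)⁻¹) * x⁻¹ = x * b * x⁻¹ * y * (x * b * x⁻¹)⁻¹ * y⁻¹ := by
      group
    rwa [e] at h2
  | one => exact ⟨one_mem _, fun y _ => by simp [one_mem]⟩
  | mul p q _ _ hp hq =>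
    refine ⟨X.mul_mem hp.1 hq.1, fun y hy => ?_⟩
    have e : p * q * y * (p * q)⁻¹ * y⁻¹ = (p * (q * y * q⁻¹ * y⁻¹) * p⁻¹) * (p * y * p⁻¹ * y⁻¹) := by group
    rw [e]
    exact mul_mem (conj_mem_of_norm (hXV hp.1) (hq.2 y hy)) (hp.2 y hy)
  | inv p _ hp =>
    refine ⟨X.inv_mem hp.1, fun y hy => ?_⟩
    have e : p⁻¹ * y * p⁻¹⁻¹ * y⁻¹ = p⁻¹ * (p * y * p⁻¹ * y⁻¹)⁻¹ * p⁻¹⁻¹ := by group
    rw [e]
    exact conj_mem_of_norm (hXV (X.inv_mem hp.1)) (inv_mem (hp.2 y hy))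

omit [Finite G] in
theorem phi3 {e f δ ν : G} (e1 : e * f * e⁻¹ = δ * f) (e2 : e * δ * e⁻¹ = ν * δ) (hδν : δ * ν = ν * δ)
    (hνν : ν * ν = 1) (he3 : e ^ 3 = 1) : (e * ν * e⁻¹) * δ ^ 3 = 1 := by
  have c3 : ∀ x : G, x ^ 3 = x * x * x := fun x => by rw [pow_succ, pow_two]
  have h4 : e ^ 3 * f * (e ^ 3)⁻¹ = f := by rw [he3]; group
  have h5 : e ^ 3 * f * (e ^ 3)⁻¹ = (e * ν * e⁻¹) * δ ^ 3 * f := by
    rw [c3, c3]
    calc (e * e * e) * f * (e * e * e)⁻¹ = e * (e * (e * f * e⁻¹) * e⁻¹) * e⁻¹ := by group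
      _ = e * (e * (δ * f) * e⁻¹) * e⁻¹ := by rw [e1]
      _ = e * ((e * δ * e⁻¹) * (e * f * e⁻¹)) * e⁻¹ := by group
      _ = e * (ν * δ * (δ * f)) * e⁻¹ := by rw [e2, e1]
      _ = (e * ν * e⁻¹) * (e * δ * e⁻¹) * (e * δ * e⁻¹) * (e * f * e⁻¹) := by group
      _ = (e * ν * e⁻¹) * (ν * δ) * (ν * δ) * (δ * f) := by rw [e2, e1]
      _ = (e * ν * e⁻¹) * (ν * (δ * ν) * δ) * (δ * f) := by simp only [mul_assoc]
      _ = (e * ν * e⁻¹) * ((ν * ν) * (δ * δ)) * (δ * f) := by rw [hδν]; simp only [mul_assoc]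
      _ = (e * ν * e⁻¹) * (δ * δ * δ) * f := by rw [hνν, one_mul]; simp only [mul_assoc]
  rw [h5] at h4
  exact mul_eq_right.1 h4

/-- case (ii) is impossible for chains of length one -/
theorem Cfg.no_ii (c : Cfg Pr 0 C₀ C₀ Xm Vm zm d Xa Va za Xb Vb zb) (h : Geo Ch Pr) (hm : Min Pr 1) {r : G}
    (hr : r ∈ Xa) (hrz : r * za ≠ za * r) (hcom : ∀ V₁, Vs Pr (cj r C₀) V₁ → Com V₁ Vm) : False := by
  obtain ⟨hN, hWW, hWb⟩ := c.alt_ii h hm hr hrz hcom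
  have hpa := h.pz c.pa
  have hpm := h.pz c.pm
  have hpb := h.pz c.pb
  have hp' := h.adjP c.pa hr
  have hpm' := h.adjP c.pm c.dm
  obtain ⟨-, hbC, hz⟩ := c.ab h hm
  obtain ⟨b, hb, hbC0, hbm⟩ := c.mover h hm
  obtain ⟨j, hj, -, hjm⟩ := hpm.mv
  have hjC : j ∈ C₀ := JJ_le _ hj
  obtain ⟨va, hva, hva1, hvaz, -⟩ := hpa.three
  obtain ⟨vm, hvm, hvm1, hvmz, -⟩ := hpm.three
  have hb1 : b ≠ 1 := by
    intro e
    have := move_ne (hbm va hva hva1 hvaz) hpa.z1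
    rw [e] at this; apply this; group
  have hbz : b ≠ za := by
    intro e
    have := move_ne (hbm va hva hva1 hvaz) hpa.z1
    rw [e] at this; exact this (hpa.V2.comm hpa.zV hva)
  have hbX : b ∈ Xa := hpa.CX hbC0
  have hza2 : za * za = 1 := hpa.V2 za hpa.zV
  have hff := (c.third h hm hjC hvm (move_ne (hjm vm hvm hvm1 hvmz) hpm.z1) hb hb1 hbz).2
  set b' := j * b * j⁻¹ with hb'
  have hb'C : b' ∈ C₀ := mul_mem (mul_mem hjC hbC0) (inv_mem hjC)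
  set f := b' * b with hf
  have hfC : f ∈ C₀ := mul_mem hb'C hbC0
  have hcz : ∀ x ∈ C₀, x * za = za * x := fun x hx => h.zj_comm (h.ch c.pa) hx hpa.zZ
  have hfV : ∀ v ∈ Va, f * v = v * f := by
    intro v hv
    by_cases e1 : v = 1
    · rw [e1]; group
    by_cases e2 : v = za
    · rw [e2]; exact hcz f hfC
    · have h1 := hbm v hv e1 e2
      have h2 : b' * v * b'⁻¹ = v * za := by
        have hjv : j⁻¹ * v * j ∈ Va := by
          have := conj_mem_of_norm (hpa.XV (hpa.CX (inv_mem hjC))) hv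
          rwa [inv_inv] at this
        have h3 := hbm _ hjv (by
          intro e; apply e1
          have : v = j * (j⁻¹ * v * j) * j⁻¹ := by group
          rw [this, e]; group) (by
          intro e; apply e2
          have : v = j * (j⁻¹ * v * j) * j⁻¹ := by group
          rw [this, e, hcz j hjC]; group)
        calc b' * v * b'⁻¹ = j * (b * (j⁻¹ * v * j) * b⁻¹) * j⁻¹ := by rw [hb']; group
          _ = v * (j * za * j⁻¹) := by rw [h3]; group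
          _ = v * za := by rw [hcz j hjC]; group
      have h3 : f * v * f⁻¹ = v := by
        calc f * v * f⁻¹ = b' * (b * v * b⁻¹) * b'⁻¹ := by rw [hf]; group
          _ = (b' * v * b'⁻¹) * (b' * za * b'⁻¹) := by rw [h1]; group
          _ = v * za * za := by rw [h2, hcz b' hb'C]; group
          _ = v := by rw [mul_assoc, hza2, mul_one]
      exact mul_inv_eq_iff_eq_mul.1 h3
  -- the element v = r za r⁻¹
  set v := r * za * r⁻¹ with hv
  have hvV : v ∈ Va := conj_mem_of_norm (hpa.XV hr) hpa.zV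
  have hv1 : v ≠ 1 := fun e => hpa.z1 (conj_eq_one_iff.1 e)
  have hvz : v ≠ za := fun e => hrz (mul_inv_eq_iff_eq_mul.1 e)
  have hfC' : f ∈ cj r C₀ := (h.pz hp').st f (hpa.CX hfC) (hfV v hvV)
  -- W facts
  have hVaW : Va ≤ WW Pr C₀ := le_WW ⟨_, _, c.pa⟩
  have hVmW : Vm ≤ WW Pr C₀ := le_WW ⟨_, _, c.pm⟩
  set T₁ : G → Prop := fun y => y ∈ WW Pr C₀ with hT₁
  set T₂ : G → Prop := fun y => y ∈ Xa ∧ ∀ w ∈ WW Pr C₀, y * w = w * y with hT₂
  have hT₁c : ∀ x ∈ Xa, ∀ y, T₁ y → T₁ (x * y * x⁻¹) := fun x hx y hy => conj_mem_of_norm (hN hx) hy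
  have hT₂c : ∀ x ∈ Xa, ∀ y, T₂ y → T₂ (x * y * x⁻¹) := by
    rintro x hx y ⟨hy, hyw⟩
    refine ⟨Xa.mul_mem (Xa.mul_mem hx hy) (Xa.inv_mem hx), fun w hw => ?_⟩
    rw [comm_cj_iff]
    apply hyw
    have := conj_mem_of_norm (hN (Xa.inv_mem hx)) hw
    rwa [inv_inv] at this
  have hT₂C : ∀ y, T₂ y → y ∈ C₀ := fun y hy => hpa.st y hy.1 (hy.2 za (hVaW hpa.zV))
  have hbT₁ : ∀ y, T₁ y → b * y * b⁻¹ * y⁻¹ ∈ Va := fun y hy => hWb y hy b hb
  have hbT₂ : ∀ y, T₂ y → b * y * b⁻¹ * y⁻¹ ∈ Va := by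
    intro y hy
    have hyC := hT₂C y hy
    have hyC' : y ∈ cj d C₀ := by
      apply (h.pz hpm').st y (hpm.CX hyC)
      apply hy.2
      apply hVmW
      exact conj_mem_of_norm (hpm.XV c.dm) hpm.zV
    have hb2 := hpb.V2 b hb
    have hbi : b⁻¹ = b := inv_eq_of_mul_eq_one_left hb2
    rcases hpb.cv y hyC' b hb with e | e
    · have e1 : y * b = b * y := mul_inv_eq_iff_eq_mul.1 e
      have : b * y * b⁻¹ * y⁻¹ = 1 := by rw [← e1]; group
      rw [this]; exact one_mem _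
    · have e1 : y * b = b * zb * y := mul_inv_eq_iff_eq_mul.1 e
      have : b * y * b⁻¹ * y⁻¹ = za := by
        rw [hbi, mul_assoc b y b, e1, hz]
        calc b * (b * zb * y) * y⁻¹ = (b * b) * zb := by group
          _ = zb := by rw [hb2, one_mul]
      rw [this]; exact hpa.zV
  -- the element e
  set g := b * (r * b * r⁻¹) with hg
  have hrb : r * b * r⁻¹ ∈ Xa := Xa.mul_mem (Xa.mul_mem hr hbX) (Xa.inv_mem hr)
  have hgX : g ∈ Xa := Xa.mul_mem hbX hrb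
  have hgN : g ∈ closure {y | ∃ x ∈ Xa, y = x * b * x⁻¹} := by
    apply mul_mem
    · exact Subgroup.subset_closure ⟨1, one_mem _, by group⟩
    · exact Subgroup.subset_closure ⟨r, hr, rfl⟩
  have hcomm : v * za = za * v := hpa.V2.comm hvV hpa.zV
  have yz : (r * b * r⁻¹) * za * (r * b * r⁻¹)⁻¹ = za * v := by
    have hrr : r⁻¹ * za * r ∈ Va := by
      have := conj_mem_of_norm (hpa.XV (Xa.inv_mem hr)) hpa.zV
      rwa [inv_inv] at this
    have h3 := hbm _ hrr (by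
      intro e; apply hpa.z1
      have : za = r * (r⁻¹ * za * r) * r⁻¹ := by group
      rw [this, e]; group) (by
      intro e; apply hrz
      calc r * za = r * (r⁻¹ * za * r) := by rw [e]
        _ = za * r := by group)
    calc (r * b * r⁻¹) * za * (r * b * r⁻¹)⁻¹ = r * (b * (r⁻¹ * za * r) * b⁻¹) * r⁻¹ := by group
      _ = za * v := by rw [h3, hv]; group
  have yv : (r * b * r⁻¹) * v * (r * b * r⁻¹)⁻¹ = v := by
    calc (r * b * r⁻¹) * v * (r * b * r⁻¹)⁻¹ = r * (b * za) * b⁻¹ * r⁻¹ := by rw [hv]; group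
      _ = v := by rw [hcz b hbC0, hv]; group
  have hbv := hbm v hvV hv1 hvz
  have bz : b * za * b⁻¹ = za := by rw [hcz b hbC0]; group
  have gz : g * za * g⁻¹ = v := by
    calc g * za * g⁻¹ = b * ((r * b * r⁻¹) * za * (r * b * r⁻¹)⁻¹) * b⁻¹ := by rw [hg]; group
      _ = (b * za * b⁻¹) * (b * v * b⁻¹) := by rw [yz]; group
      _ = v := by rw [bz, hbv, hcomm, ← mul_assoc, hza2, one_mul]
  have gz' : g * v * g⁻¹ = za * v := by
    calc g * v * g⁻¹ = b * ((r * b * r⁻¹) * v * (r * b * r⁻¹)⁻¹) * b⁻¹ := by rw [hg]; group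
      _ = za * v := by rw [yv, hbv, hcomm]
  have hv2 : v * v = 1 := hpa.V2 v hvV
  have gpow := cyc3 gz gz' hza2 hv2 hcomm
  set e := g ^ (2 ^ Nat.card G) with he
  have heX : e ∈ Xa := Xa.pow_mem hgX _
  have heN : e ∈ closure {y | ∃ x ∈ Xa, y = x * b * x⁻¹} := pow_mem hgN _
  have hez : e * za ≠ za * e := by
    intro e1
    have e2 : e * za * e⁻¹ = za := by rw [e1]; group
    rcases two_pow_mod (Nat.card G) with h3 | h3
    · have := (gpow (2 ^ Nat.card G)).2.1 h3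
      rw [← he, e2] at this
      exact hvz this.symm
    · have := (gpow (2 ^ Nat.card G)).2.2 h3
      rw [← he, e2] at this
      exact hv1 (mul_eq_left.1 this.symm)
  have he3 : e ^ 3 = 1 := by
    have h1 : e ^ 3 ∈ C₀ := by
      apply hpa.st _ (Xa.pow_mem heX 3)
      have := (gpow (2 ^ Nat.card G * 3)).1 (by omega)
      rw [pow_mul, ← he] at this
      exact mul_inv_eq_iff_eq_mul.1 this
    have h2 := pow_big (h.ch2 (h.ch c.pa)) h1
    have h3 : orderOf (e ^ 3) ∣ 2 ^ Nat.card G := orderOf_dvd_of_pow_eq_one h2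
    have h4 : orderOf (e ^ 3) ∣ orderOf e := orderOf_pow_dvd 3
    have h5 : Nat.Coprime (2 ^ Nat.card G) (orderOf e) :=
      Nat.Coprime.pow_left _ (Nat.coprime_two_left.2 (odd_pow_big g))
    have h6 : orderOf (e ^ 3) = 1 := Nat.eq_one_of_dvd_coprimes h5 h3 h4
    exact orderOf_eq_one_iff.1 h6
  -- δ
  set δ := e * f * e⁻¹ * f⁻¹ with hδ
  have hfX : f ∈ Xa := hpa.CX hfC
  have hδX : δ ∈ Xa := Xa.mul_mem (Xa.mul_mem (Xa.mul_mem heX hfX) (Xa.inv_mem heX)) (Xa.inv_mem hfX)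
  have hkey : ∀ w ∈ WW Pr C₀, (e * f) * w * (e * f)⁻¹ = (f * e) * w * (f * e)⁻¹ := by
    intro w hw
    have h1 := (comm_Na hpa.XV hbX hT₁c hbT₁ heN).2 w hw
    have h2 := h.comm_W (h.ch c.pa) hfC hw
    have h3 := h.comm_W (h.ch hp') hfC' (w := w) (by rw [hWW]; exact hw)
    have h4 := h.cen_two c.pa hr hrz h2 h3
    obtain ⟨ν, hν⟩ : ∃ ν, ν = e * w * e⁻¹ * w⁻¹ := ⟨_, rfl⟩
    obtain ⟨ζ, hζ⟩ : ∃ ζ, ζ = f * w * f⁻¹ * w⁻¹ := ⟨_, rfl⟩
    rw [← hν] at h1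
    rw [← hζ] at h4
    have e1 : e * w * e⁻¹ = ν * w := by rw [hν]; group
    have e2 : f * w * f⁻¹ = ζ * w := by rw [hζ]; group
    have hνX : ν ∈ Xa := hpa.CX (hpa.VC h1)
    calc (e * f) * w * (e * f)⁻¹ = e * (f * w * f⁻¹) * e⁻¹ := by group
      _ = (e * ζ) * w * e⁻¹ := by rw [e2]; group
      _ = ζ * (e * w * e⁻¹) := by rw [h4 e heX]; group
      _ = (ν * ζ) * w := by rw [e1, ← mul_assoc, h4 ν hνX]
      _ = ν * (f * w * f⁻¹) := by rw [e2]; group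
      _ = (ν * f) * w * f⁻¹ := by group
      _ = (f * ν) * w * f⁻¹ := by rw [hfV ν h1]
      _ = f * (e * w * e⁻¹) * f⁻¹ := by rw [e1]; group
      _ = (f * e) * w * (f * e)⁻¹ := by group
  have hδT : T₂ δ := by
    refine ⟨hδX, fun w hw => ?_⟩
    have hfe : f * e ∈ Xa := Xa.mul_mem hfX heX
    have hw' : (f * e)⁻¹ * w * (f * e) ∈ WW Pr C₀ := by
      have := conj_mem_of_norm (hN (Xa.inv_mem hfe)) hw
      rwa [inv_inv] at this
    have h1 := hkey _ hw'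
    have h2 : δ * w * δ⁻¹ = w := by
      calc δ * w * δ⁻¹ = (e * f) * ((f * e)⁻¹ * w * (f * e)) * (e * f)⁻¹ := by rw [hδ]; group
        _ = (f * e) * ((f * e)⁻¹ * w * (f * e)) * (f * e)⁻¹ := h1
        _ = w := by group
    exact mul_inv_eq_iff_eq_mul.1 h2
  have hν := (comm_Na hpa.XV hbX hT₂c hbT₂ heN).2 δ hδT
  obtain ⟨ν, hνe⟩ : ∃ ν, ν = e * δ * e⁻¹ * δ⁻¹ := ⟨_, rfl⟩
  rw [← hνe] at hν
  have e1 : e * f * e⁻¹ = δ * f := by rw [hδ]; group
  have e2 : e * δ * e⁻¹ = ν * δ := by rw [hνe]; group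
  have hδν : δ * ν = ν * δ := hδT.2 ν (hVaW hν)
  have hνν : ν * ν = 1 := hpa.V2 ν hν
  have hν3 : e * ν * e⁻¹ ∈ Va := conj_mem_of_norm (hpa.XV heX) hν
  have h3 : (e * ν * e⁻¹) * δ ^ 3 = 1 := phi3 e1 e2 hδν hνν he3
  have hδ3 : δ ^ 3 ∈ Va := by
    rw [mul_eq_one_iff_inv_eq] at h3
    rw [← h3]; exact inv_mem hν3
  have hδV : δ ∈ Va := by
    have hδC := hT₂C δ hδT
    have h4 : orderOf δ ∣ 2 ^ Nat.card G := orderOf_dvd_of_pow_eq_one (pow_big (h.ch2 (h.ch c.pa)) hδC)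
    have h5 : Nat.Coprime 3 (orderOf δ) := by
      have : Nat.Coprime 3 (2 ^ Nat.card G) := Nat.Coprime.pow_right _ (by norm_num)
      exact Nat.Coprime.coprime_dvd_right h4 this
    obtain ⟨k, hk⟩ := exists_pow_eq_self_of_coprime h5
    rw [← hk]; exact pow_mem hδ3 k
  apply hez
  have h6 : e * (f * f) * e⁻¹ = f * f := by
    calc e * (f * f) * e⁻¹ = (e * f * e⁻¹) * (e * f * e⁻¹) := by group
      _ = δ * (f * δ) * f := by rw [e1]; group
      _ = (δ * δ) * (f * f) := by rw [hfV δ hδV]; group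
      _ = f * f := by rw [hpa.V2 δ hδV, one_mul]
  have hff' : f * f = za := hff
  rw [hff'] at h6
  exact mul_inv_eq_iff_eq_mul.1 h6

/-- conclusion (C) -/
theorem Geo.conclC (h : Geo Ch Pr) {C : Subgroup G} (hC : Ch C)
    (hA : (∀ {C X V : Subgroup G} {z : G} {U : Subgroup G}, Pr C X V z → U ≠ ⊥ →
      IsPGroup 2 U → normalizer (C : Set G) ≤ normalizer (U : Set G) → ¬ X ≤ normalizer (U : Set G)) ∨
      (∀ {C C' : Subgroup G} {c : G}, Ch C → Ch C' → Nat.card (ZJ C) ≤ 4 →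
        c ∈ ZJ C → c ∈ ZJ C' → c ≠ 1 → C' = C ∨ Adj Pr C C')) :
    ∃ C X V z X' V' z', Pr C X V z ∧ Pr C X' V' z' ∧ ¬ Com V V' := by
  classical
  by_contra hcon
  push Not at hcon
  have hex : ∃ n, ∃ C C' V V', Dist Pr n C C' ∧ Vs Pr C V ∧ Vs Pr C' V' ∧ ¬ Com V V' := h.exists_bad hC
  have hsp := Nat.find_spec hex
  have hm : Min Pr (Nat.find hex) := by
    intro n hn C C' V V' hd hV hV'
    by_contra hne
    exact Nat.find_min hex hn ⟨C, C', V, V', hd, hV, hV', hne⟩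
  generalize Nat.find hex = m at hsp hm
  obtain ⟨C₁, C₂, V₁, V₂, hd, ⟨X₁, z₁, hp₁⟩, ⟨X₂, z₂, hp₂⟩, hne⟩ := hsp
  match m, hm, hd with
  | 0, hm, hd =>
    have hd' : C₁ = C₂ := hd
    subst hd'
    exact hne (hcon _ _ _ _ _ _ _ hp₁ hp₂)
  | 1, hm, ⟨C', hd', X, V, z, hp, x, hx, hC₂⟩ =>
    have hd'' : C₁ = C' := hd'
    subst hd''
    subst hC₂
    have c : Cfg Pr 0 C₁ C₁ X V z x X₁ V₁ z₁ X₂ V₂ z₂ := ⟨rfl, hp, hx, hp₁, hp₂, hne⟩
    have hpa := h.pz hp₁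
    obtain ⟨r, hr, hrz⟩ : ∃ r ∈ X₁, r * z₁ ≠ z₁ * r := by
      obtain ⟨v, hv, hv1, hvz, -⟩ := hpa.three
      obtain ⟨r, hr, e⟩ := hpa.tr v hv hv1
      refine ⟨r, hr, fun e2 => hvz ?_⟩
      rw [← e, e2]; group
    by_cases hcom : ∀ V₁, Vs Pr (cj r C₁) V₁ → Com V₁ V
    · exact c.no_ii h hm hr hrz hcom
    · push Not at hcom
      obtain ⟨V₃, ⟨X₃, z₃, hp₃⟩, hnc⟩ := hcom
      exact c.no_i h hm hr hrz hp₃ hnc
  | k + 2, hm, ⟨C', hd', X, V, z, hp, x, hx, hC₂⟩ =>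
    subst hC₂
    have c : Cfg Pr (k + 1) C₁ C' X V z x X₁ V₁ z₁ X₂ V₂ z₂ := ⟨hd', hp, hx, hp₁, hp₂, hne⟩
    rcases hA with hA | hA
    · exact h.no_long1 hA hm c
    · exact h.no_long2 hA hm c

end H55.ZN
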