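import Cfsg.Agent.Lib.H55.ZN11

set_option autoImplicit false
set_option linter.unusedSimpArgs false
set_option linter.unusedSectionVars false

/-! Structure of a chamber with two non-commuting four-groups. -/

namespace H55.ZN

open Subgroup

variable {G : Type*} [Group G] [Finite G]

/-- the element of order three -/
theorem exists_e {C X V : Subgroup G} {z w : G} (hpz : PZ C X V z) (hC2 : IsPGroup 2 C) (hcz : ∀ c ∈ C, c * z = z * c)
    (hw : w ∈ C) (hww : w * w = 1) (hwm : ∀ v ∈ V, v ≠ 1 → v ≠ z → w * v * w⁻¹ = v * z) :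
    ∃ e ∈ closure {y | ∃ x ∈ X, y = x * w * x⁻¹}, e ∈ X ∧ e ^ 3 = 1 ∧ e * z ≠ z * e ∧ w * e * w⁻¹ = e⁻¹ := by
  obtain ⟨v₀, hv₀, hv₀1, hv₀z, -⟩ := hpz.three
  obtain ⟨r, hr, hrv⟩ := hpz.tr v₀ hv₀ hv₀1
  have hrz : r * z ≠ z * r := by
    intro e; apply hv₀z; rw [← hrv, e]; group
  have hwX : w ∈ X := hpz.CX hw
  have hz2 : z * z = 1 := hpz.V2 z hpz.zV
  obtain ⟨v, hv⟩ : ∃ v, v = r * z * r⁻¹ := ⟨_, rfl⟩
  have hvV : v ∈ V := hv ▸ conj_mem_of_norm (hpz.XV hr) hpz.zV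
  have hv1 : v ≠ 1 := fun e => hpz.z1 (conj_eq_one_iff.1 (hv ▸ e))
  have hvz : v ≠ z := fun e => hrz (mul_inv_eq_iff_eq_mul.1 (hv ▸ e))
  have hv2 : v * v = 1 := hpz.V2 v hvV
  obtain ⟨g, hg⟩ : ∃ g, g = w * (r * w * r⁻¹) := ⟨_, rfl⟩
  have hrb : r * w * r⁻¹ ∈ X := X.mul_mem (X.mul_mem hr hwX) (X.inv_mem hr)
  have hgX : g ∈ X := hg ▸ X.mul_mem hwX hrb
  have hgN : g ∈ closure {y | ∃ x ∈ X, y = x * w * x⁻¹} := by
    rw [hg]
    apply mul_mem
    · exact Subgroup.subset_closure ⟨1, one_mem _, by group⟩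
    · exact Subgroup.subset_closure ⟨r, hr, rfl⟩
  have hcomm : v * z = z * v := hpz.V2.comm hvV hpz.zV
  have yz : (r * w * r⁻¹) * z * (r * w * r⁻¹)⁻¹ = z * v := by
    have hrr : r⁻¹ * z * r ∈ V := by
      have := conj_mem_of_norm (hpz.XV (X.inv_mem hr)) hpz.zV
      rwa [inv_inv] at this
    have h3 := hwm _ hrr (by
      intro e; apply hpz.z1
      have : z = r * (r⁻¹ * z * r) * r⁻¹ := by group
      rw [this, e]; group) (by
      intro e; apply hrz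
      calc r * z = r * (r⁻¹ * z * r) := by rw [e]
        _ = z * r := by group)
    calc (r * w * r⁻¹) * z * (r * w * r⁻¹)⁻¹ = r * (w * (r⁻¹ * z * r) * w⁻¹) * r⁻¹ := by group
      _ = z * v := by rw [h3, hv]; group
  have yv : (r * w * r⁻¹) * v * (r * w * r⁻¹)⁻¹ = v := by
    calc (r * w * r⁻¹) * v * (r * w * r⁻¹)⁻¹ = r * (w * z) * w⁻¹ * r⁻¹ := by rw [hv]; group
      _ = v := by rw [hcz w hw, hv]; group
  have hbv := hwm v hvV hv1 hvz
  have bz : w * z * w⁻¹ = z := by rw [hcz w hw]; group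
  have gz : g * z * g⁻¹ = v := by
    calc g * z * g⁻¹ = w * ((r * w * r⁻¹) * z * (r * w * r⁻¹)⁻¹) * w⁻¹ := by rw [hg]; group
      _ = (w * z * w⁻¹) * (w * v * w⁻¹) := by rw [yz]; group
      _ = v := by rw [bz, hbv, hcomm, ← mul_assoc, hz2, one_mul]
  have gz' : g * v * g⁻¹ = z * v := by
    calc g * v * g⁻¹ = w * ((r * w * r⁻¹) * v * (r * w * r⁻¹)⁻¹) * w⁻¹ := by rw [hg]; group
      _ = z * v := by rw [yv, hbv, hcomm]
  have gpow := cyc3 gz gz' hz2 hv2 hcomm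
  have wg : w * g * w⁻¹ = g⁻¹ := by
    have i1 : w⁻¹ = w := inv_eq_of_mul_eq_one_left hww
    have i2 : (r * w * r⁻¹)⁻¹ = r * w * r⁻¹ := by
      rw [inv_eq_iff_mul_eq_one]
      calc r * w * r⁻¹ * (r * w * r⁻¹) = r * (w * w) * r⁻¹ := by group
        _ = 1 := by rw [hww]; group
    rw [hg, mul_inv_rev, i2, i1, ← mul_assoc, hww, one_mul]
  refine ⟨g ^ (2 ^ Nat.card G), pow_mem hgN _, X.pow_mem hgX _, ?_, ?_, ?_⟩
  · have h1 : (g ^ (2 ^ Nat.card G)) ^ 3 ∈ C := by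
      apply hpz.st _ (X.pow_mem (X.pow_mem hgX _) 3)
      have := (gpow (2 ^ Nat.card G * 3)).1 (by omega)
      rw [pow_mul] at this
      exact mul_inv_eq_iff_eq_mul.1 this
    have h2 := pow_big hC2 h1
    have h3 : orderOf ((g ^ (2 ^ Nat.card G)) ^ 3) ∣ 2 ^ Nat.card G := orderOf_dvd_of_pow_eq_one h2
    have h4 : orderOf ((g ^ (2 ^ Nat.card G)) ^ 3) ∣ orderOf (g ^ (2 ^ Nat.card G)) := orderOf_pow_dvd 3
    have h5 : Nat.Coprime (2 ^ Nat.card G) (orderOf (g ^ (2 ^ Nat.card G))) :=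
      Nat.Coprime.pow_left _ (Nat.coprime_two_left.2 (odd_pow_big g))
    have h6 : orderOf ((g ^ (2 ^ Nat.card G)) ^ 3) = 1 := Nat.eq_one_of_dvd_coprimes h5 h3 h4
    exact orderOf_eq_one_iff.1 h6
  · intro e1
    have e2 : (g ^ (2 ^ Nat.card G)) * z * (g ^ (2 ^ Nat.card G))⁻¹ = z := by rw [e1]; group
    rcases two_pow_mod (Nat.card G) with h3 | h3
    · have := (gpow (2 ^ Nat.card G)).2.1 h3
      rw [e2] at this
      exact hvz this.symm
    · have := (gpow (2 ^ Nat.card G)).2.2 h3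
      rw [e2] at this
      exact hv1 (mul_eq_left.1 this.symm)
  · rw [← conj_pow, wg, inv_pow]

structure Side (C X V V' : Subgroup G) (z e w : G) : Prop where
  pz : PZ C X V z
  C2 : IsPGroup 2 C
  eX : e ∈ X
  e3 : e ^ 3 = 1
  ez : e * z ≠ z * e
  wV : w ∈ V'
  wC : w ∈ C
  we : w * e * w⁻¹ = e⁻¹
  wm : ∀ v ∈ V, v ≠ 1 → v ≠ z → w * v * w⁻¹ = v * z
  Qe : ∀ q ∈ C, (∀ v ∈ V, q * v = v * q) → e * q * e⁻¹ * q⁻¹ ∈ V
  ww : w * w = 1
  wy : ∀ y ∈ C, y * w * y⁻¹ = w ∨ y * w * y⁻¹ = w * z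
  cz : ∀ c ∈ C, c * z = z * c

theorem Geo.side {Ch : Subgroup G → Prop} {Pr : Subgroup G → Subgroup G → Subgroup G → G → Prop} (h : Geo Ch Pr)
    {C X V X' V' : Subgroup G} {z : G} (hp : Pr C X V z) (hp' : Pr C X' V' z) (hn : ¬ Com V V') :
    ∃ e w, Side C X V V' z e w := by
  have hpz := h.pz hp
  have hpz' := h.pz hp'
  have hn' := hn
  unfold Com at hn'
  push Not at hn'
  obtain ⟨v₀, hv₀, w, hw, hne⟩ := hn'
  have hwC : w ∈ C := hpz'.VC hw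
  have hww : w * w = 1 := hpz'.V2 w hw
  have hwm : ∀ v ∈ V, v ≠ 1 → v ≠ z → w * v * w⁻¹ = v * z := fun v hv hv1 hvz =>
    h.moves hp hwC hv₀ (fun e => hne e.symm) hv hv1 hvz
  have hcz : ∀ c ∈ C, c * z = z * c := fun c hc => h.zj_comm (h.ch hp) hc hpz.zZ
  obtain ⟨e, heN, heX, he3, hez, hwe⟩ := exists_e hpz (h.ch2 (h.ch hp)) hcz hwC hww hwm
  refine ⟨e, w, hpz, h.ch2 (h.ch hp), heX, he3, hez, hw, hwC, hwe, hwm, ?_, hww, fun y hy => hpz'.cv y hy w hw, hcz⟩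
  intro q hq hqV
  refine (comm_Na hpz.XV (hpz.CX hwC) (T := fun y => y ∈ X ∧ ∀ v ∈ V, y * v = v * y) ?_ ?_ heN).2 q ⟨hpz.CX hq, hqV⟩
  · rintro x hx y ⟨hy, hyV⟩
    refine ⟨X.mul_mem (X.mul_mem hx hy) (X.inv_mem hx), fun v hv => ?_⟩
    rw [comm_cj_iff]
    apply hyV
    have := conj_mem_of_norm (hpz.XV (X.inv_mem hx)) hv
    rwa [inv_inv] at this
  · rintro y ⟨hy, hyV⟩
    have hyC : y ∈ C := hpz.st y hy (hyV z hpz.zV)
    have hwi : w⁻¹ = w := inv_eq_of_mul_eq_one_left hww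
    rcases hpz'.cv y hyC w hw with e' | e'
    · have e1 : y * w = w * y := mul_inv_eq_iff_eq_mul.1 e'
      have : w * y * w⁻¹ * y⁻¹ = 1 := by rw [← e1]; group
      rw [this]; exact one_mem _
    · have e1 : y * w = w * z * y := mul_inv_eq_iff_eq_mul.1 e'
      have : w * y * w⁻¹ * y⁻¹ = z := by
        rw [hwi, mul_assoc w y w, e1]
        calc w * (w * z * y) * y⁻¹ = (w * w) * z := by group
          _ = z := by rw [hww, one_mul]
      rw [this]; exact hpz.zV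

section side

variable {C X V V' : Subgroup G} {z e w : G}

theorem Side.act (s : Side C X V V' z e w) :
    e * (e * z * e⁻¹) * e⁻¹ = z * (e * z * e⁻¹) ∧ e * (z * (e * z * e⁻¹)) * e⁻¹ = z ∧ e * z * e⁻¹ ≠ 1 ∧
      e * z * e⁻¹ ≠ z := by
  have hpz := s.pz
  have h1 : e * z * e⁻¹ ≠ 1 := fun h => hpz.z1 (conj_eq_one_iff.1 h)
  have h2 : e * z * e⁻¹ ≠ z := fun h => s.ez (mul_inv_eq_iff_eq_mul.1 h)
  have hu : e * z * e⁻¹ ∈ V := conj_mem_of_norm (hpz.XV s.eX) hpz.zV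
  have hu2 : e * (e * z * e⁻¹) * e⁻¹ ∈ V := conj_mem_of_norm (hpz.XV s.eX) hu
  have h3 : e * (e * z * e⁻¹) * e⁻¹ = z * (e * z * e⁻¹) := by
    rcases hpz.cases hu h1 h2 hu2 with h | h | h | h
    · exact absurd (conj_eq_one_iff.1 h) h1
    · exfalso
      apply s.ez
      have h4 : e ^ 3 * z * (e ^ 3)⁻¹ = z := by rw [s.e3]; group
      have h5 : e ^ 3 * z * (e ^ 3)⁻¹ = e * (e * (e * z * e⁻¹) * e⁻¹) * e⁻¹ := by
        rw [pow_succ, pow_two]; group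
      rw [h5, h] at h4
      exact mul_inv_eq_iff_eq_mul.1 h4
    · exfalso
      apply h2
      have h4 : e⁻¹ * (e * (e * z * e⁻¹) * e⁻¹) * e = e⁻¹ * (e * z * e⁻¹) * e := by rw [h]
      have h5 : e⁻¹ * (e * (e * z * e⁻¹) * e⁻¹) * e = e * z * e⁻¹ := by group
      have h6 : e⁻¹ * (e * z * e⁻¹) * e = z := by group
      rw [h5, h6] at h4; exact h4
    · exact h
  refine ⟨h3, ?_, h1, h2⟩
  have hu2' : (e * z * e⁻¹) * (e * z * e⁻¹) = 1 := hpz.V2 _ hu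
  calc e * (z * (e * z * e⁻¹)) * e⁻¹ = (e * z * e⁻¹) * (e * (e * z * e⁻¹) * e⁻¹) := by group
    _ = (e * z * e⁻¹) * z * (e * z * e⁻¹) := by rw [h3]; group
    _ = z := by
      rw [hpz.V2.comm hu hpz.zV, mul_assoc, hu2', mul_one]

/-- `e` has no fixed points on `V` -/
theorem Side.fpf (s : Side C X V V' z e w) {v : G} (hv : v ∈ V) (hev : e * v = v * e) : v = 1 := by
  obtain ⟨h1, h2, h3, h4⟩ := s.act
  have hpz := s.pz
  have hu : e * z * e⁻¹ ∈ V := conj_mem_of_norm (hpz.XV s.eX) hpz.zV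
  rcases hpz.cases hu h3 h4 hv with h | h | h | h
  · exact h
  · exfalso; rw [h] at hev; exact s.ez hev
  · exfalso
    have h5 : e * v * e⁻¹ = v := by rw [hev]; group
    rw [h, h1] at h5
    exact hpz.z1 (mul_eq_right.1 h5)
  · exfalso
    have h5 : e * v * e⁻¹ = v := by rw [hev]; group
    rw [h, h2] at h5
    exact h3 (mul_eq_left.1 h5.symm)

theorem Side.prod (s : Side C X V V' z e w) {v : G} (hv : v ∈ V) : (e * (e * v * e⁻¹) * e⁻¹) * v = e * v * e⁻¹ := by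
  have hpz := s.pz
  have hv1 : e * v * e⁻¹ ∈ V := conj_mem_of_norm (hpz.XV s.eX) hv
  have hv2 : e * (e * v * e⁻¹) * e⁻¹ ∈ V := conj_mem_of_norm (hpz.XV s.eX) hv1
  -- p = product of the three
  have hp : (e * (e * v * e⁻¹) * e⁻¹) * v * (e * v * e⁻¹) = 1 := by
    apply s.fpf (mul_mem (mul_mem hv2 hv) hv1)
    have h3 : e * (e * (e * v * e⁻¹) * e⁻¹) * e⁻¹ = v := by
      have : e ^ 3 * v * (e ^ 3)⁻¹ = v := by rw [s.e3]; group
      rw [pow_succ, pow_two] at this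
      calc e * (e * (e * v * e⁻¹) * e⁻¹) * e⁻¹ = (e * e * e) * v * (e * e * e)⁻¹ := by group
        _ = v := this
    have h4 : e * ((e * (e * v * e⁻¹) * e⁻¹) * v * (e * v * e⁻¹)) * e⁻¹ =
        (e * (e * v * e⁻¹) * e⁻¹) * v * (e * v * e⁻¹) := by
      calc e * ((e * (e * v * e⁻¹) * e⁻¹) * v * (e * v * e⁻¹)) * e⁻¹
          = (e * (e * (e * v * e⁻¹) * e⁻¹) * e⁻¹) * (e * v * e⁻¹) * (e * (e * v * e⁻¹) * e⁻¹) := by group
        _ = v * (e * v * e⁻¹) * (e * (e * v * e⁻¹) * e⁻¹) := by rw [h3]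
        _ = (e * (e * v * e⁻¹) * e⁻¹) * (v * (e * v * e⁻¹)) := hpz.V2.comm (mul_mem hv hv1) hv2
        _ = (e * (e * v * e⁻¹) * e⁻¹) * v * (e * v * e⁻¹) := by group
    exact mul_inv_eq_iff_eq_mul.1 h4
  rw [mul_eq_one_iff_eq_inv] at hp
  rw [hp]
  exact inv_eq_of_mul_eq_one_left (hpz.V2 _ hv1)

def Xi (C V : Subgroup G) (e : G) : Subgroup G := C ⊓ centralizer (V : Set G) ⊓ centralizer ({e} : Set G)

theorem mem_Xi {x : G} : x ∈ Xi C V e ↔ x ∈ C ∧ (∀ v ∈ V, x * v = v * x) ∧ x * e = e * x := by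
  rw [Xi, mem_inf, mem_inf, mem_centralizer_iff, mem_centralizer_iff]
  constructor
  · rintro ⟨⟨h1, h2⟩, h3⟩
    exact ⟨h1, fun v hv => (h2 v hv).symm, (h3 e rfl).symm⟩
  · rintro ⟨h1, h2, h3⟩
    exact ⟨⟨h1, fun v hv => (h2 v hv).symm⟩, by rintro _ rfl; exact h3.symm⟩

theorem Side.dec (s : Side C X V V' z e w) {q : G} (hq : q ∈ C) (hqV : ∀ v ∈ V, q * v = v * q) :
    ∃ v ∈ V, v * q ∈ Xi C V e := by
  have hpz := s.pz
  have hν := s.Qe q hq hqV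
  obtain ⟨ν, hνe⟩ : ∃ ν, ν = e * q * e⁻¹ * q⁻¹ := ⟨_, rfl⟩
  rw [← hνe] at hν
  have hv : e * ν * e⁻¹ ∈ V := conj_mem_of_norm (hpz.XV s.eX) hν
  have h1 := s.prod hν
  refine ⟨e * ν * e⁻¹, hv, mem_Xi.2 ⟨mul_mem (hpz.VC hv) hq, fun v' hv' => ?_, ?_⟩⟩
  · rw [mul_assoc, hqV v' hv', ← mul_assoc, hpz.V2.comm hv hv', mul_assoc]
  · have h2 : e * q * e⁻¹ = ν * q := by rw [hνe]; group
    have h3 : e * ((e * ν * e⁻¹) * q) * e⁻¹ = (e * ν * e⁻¹) * q := by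
      calc e * ((e * ν * e⁻¹) * q) * e⁻¹ = (e * (e * ν * e⁻¹) * e⁻¹) * (e * q * e⁻¹) := by group
        _ = (e * (e * ν * e⁻¹) * e⁻¹) * ν * q := by rw [h2]; group
        _ = (e * ν * e⁻¹) * q := by rw [h1]
    exact (mul_inv_eq_iff_eq_mul.1 h3).symm

theorem Side.xi_w (s : Side C X V V' z e w) {ξ : G} (hξ : ξ ∈ Xi C V e) : w * ξ = ξ * w := by
  obtain ⟨h1, h2, h3⟩ := mem_Xi.1 hξ
  have hpz := s.pz
  rcases s.wy ξ h1 with h | h
  · exact (mul_inv_eq_iff_eq_mul.1 h).symm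
  · exfalso
    -- ξ w = w z ξ, so w ξ w⁻¹ = z ξ (up to order)
    have e1 : ξ * w = w * z * ξ := mul_inv_eq_iff_eq_mul.1 h
    have hwi : w⁻¹ = w := inv_eq_of_mul_eq_one_left s.ww
    have e2 : w * ξ * w⁻¹ = z * ξ := by
      calc w * ξ * w⁻¹ = w * (ξ * w) := by rw [hwi]; group
        _ = (w * w) * z * ξ := by rw [e1]; group
        _ = z * ξ := by rw [s.ww, one_mul]
    -- w ξ w⁻¹ commutes with w e w⁻¹ = e⁻¹
    have e3 : (w * ξ * w⁻¹) * (w * e * w⁻¹) = (w * e * w⁻¹) * (w * ξ * w⁻¹) := cj_comm h3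
    rw [e2, s.we] at e3
    have c1 : Commute (z * ξ) e⁻¹ := e3
    have c2 : Commute (z * ξ) e := by simpa using c1.inv_right
    have c3 : Commute ξ e := h3
    have c4 : Commute (z * ξ * ξ⁻¹) e := c2.mul_left c3.inv_left
    rw [mul_inv_cancel_right] at c4
    exact s.ez c4.symm

theorem Side.two (s : Side C X V V' z e w) {c : G} (hc : c ∈ C) :
    (∀ v ∈ V, c * v = v * c) ∨ (∀ v ∈ V, (c * w) * v = v * (c * w)) := by
  have hpz := s.pz
  by_cases h : ∀ v ∈ V, c * v = v * c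
  · left; exact h
  · right
    push Not at h
    obtain ⟨v₀, hv₀, hne⟩ := h
    intro v hv
    by_cases e1 : v = 1
    · rw [e1]; group
    by_cases e2 : v = z
    · rw [e2]; exact s.cz _ (mul_mem hc s.wC)
    · have e3 := hpz.moves hc hv₀ hne (s.cz c hc) hv e1 e2
      have e4 := s.wm v hv e1 e2
      have hz2 : z * z = 1 := hpz.V2 z hpz.zV
      have e5 : c * z * c⁻¹ = z := by rw [s.cz c hc]; group
      have e6 : (c * w) * v * (c * w)⁻¹ = v := by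
        calc (c * w) * v * (c * w)⁻¹ = c * (w * v * w⁻¹) * c⁻¹ := by group
          _ = (c * v * c⁻¹) * (c * z * c⁻¹) := by rw [e4]; group
          _ = v := by rw [e3, e5, mul_assoc, hz2, mul_one]
      exact mul_inv_eq_iff_eq_mul.1 e6

theorem Side.norm_xi (s : Side C X V V' z e w) : C ≤ normalizer ((Xi C V e : Subgroup G) : Set G) := by
  have hpz := s.pz
  have hq : ∀ q ∈ C, (∀ v ∈ V, q * v = v * q) → q ∈ normalizer ((Xi C V e : Subgroup G) : Set G) := by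
    intro q hq hqV
    obtain ⟨v, hv, hξ⟩ := s.dec hq hqV
    have h1 : v ∈ normalizer ((Xi C V e : Subgroup G) : Set G) := by
      apply mem_normalizer_of_le
      intro ξ hξ
      have := (mem_Xi.1 hξ).2.1 v hv
      rw [← this]
      have e : ξ * v * v⁻¹ = ξ := by group
      rw [e]; exact hξ
    have h2 := mul_mem (inv_mem h1) (le_normalizer hξ)
    rwa [inv_mul_cancel_left] at h2
  have hw : w ∈ normalizer ((Xi C V e : Subgroup G) : Set G) := by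
    apply mem_normalizer_of_le
    intro ξ hξ
    rw [s.xi_w hξ]
    have e : ξ * w * w⁻¹ = ξ := by group
    rw [e]; exact hξ
  intro c hc
  rcases s.two hc with h | h
  · exact hq c hc h
  · have h1 := mul_mem (hq _ (mul_mem hc s.wC) h) (inv_mem hw)
    rwa [mul_inv_cancel_right] at h1

theorem Side.z_not (s : Side C X V V' z e w) : z ∉ Xi C V e := fun h => s.ez (mem_Xi.1 h).2.2.symm

end side

end H55.ZN
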