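import Cfsg.Agent.Lib.H55.ZN12

set_option autoImplicit false
set_option linter.unusedSimpArgs false
set_option linter.unusedSectionVars false

/-! The structure `C = D × Ξ` and the normalizers of `V₁`, `V₂`. -/

namespace H55.ZN

open Subgroup

variable {G : Type*} [Group G] [Finite G]

structure Duo (C X₁ V₁ X₂ V₂ : Subgroup G) (z e₁ w₁ e₂ w₂ : G) : Prop where
  s₁ : Side C X₁ V₁ V₂ z e₁ w₁
  s₂ : Side C X₂ V₂ V₁ z e₂ w₂
  xx : ∀ ξ, ξ ∈ Xi C V₁ e₁ → ξ ∈ Xi C V₂ e₂ → ξ = 1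

variable {C X₁ V₁ X₂ V₂ : Subgroup G} {z e₁ w₁ e₂ w₂ : G}

theorem Duo.symm (d : Duo C X₁ V₁ X₂ V₂ z e₁ w₁ e₂ w₂) : Duo C X₂ V₂ X₁ V₁ z e₂ w₂ e₁ w₁ :=
  ⟨d.s₂, d.s₁, fun ξ h1 h2 => d.xx ξ h2 h1⟩

theorem Side.w1 {C X V V' : Subgroup G} {z e w : G} (s : Side C X V V' z e w) : w ≠ 1 ∧ w ≠ z := by
  obtain ⟨v, hv, hv1, hvz, -⟩ := s.pz.three
  have h1 := move_ne (s.wm v hv hv1 hvz) s.pz.z1
  constructor
  · rintro rfl; apply h1; group
  · rintro rfl; exact h1 (s.pz.V2.comm s.pz.zV hv)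

/-- `V₂ = {1, z, w₁, z w₁}` -/
theorem Duo.V₂_cases (d : Duo C X₁ V₁ X₂ V₂ z e₁ w₁ e₂ w₂) {v : G} (hv : v ∈ V₂) :
    v = 1 ∨ v = z ∨ v = w₁ ∨ v = z * w₁ :=
  d.s₂.pz.cases d.s₁.wV d.s₁.w1.1 d.s₁.w1.2 hv

theorem Duo.comm_V₂ (d : Duo C X₁ V₁ X₂ V₂ z e₁ w₁ e₂ w₂) {x : G} (hxC : x ∈ C) (hx : x * w₁ = w₁ * x) {v : G}
    (hv : v ∈ V₂) : x * v = v * x := by
  have hz := d.s₁.cz x hxC
  rcases d.V₂_cases hv with e | e | e | e
  · rw [e]; group
  · rw [e]; exact hz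
  · rw [e]; exact hx
  · rw [e, ← mul_assoc, hz, mul_assoc, hx, mul_assoc]

/-- an element of `V₂` commuting with `V₁` is `1` or `z` -/
theorem Duo.V₂_comm (d : Duo C X₁ V₁ X₂ V₂ z e₁ w₁ e₂ w₂) {v : G} (hv : v ∈ V₂)
    (hc : ∀ u ∈ V₁, v * u = u * v) : v = 1 ∨ v = z := by
  obtain ⟨u, hu, hu1, huz, -⟩ := d.s₁.pz.three
  have h1 := move_ne (d.s₁.wm u hu hu1 huz) d.s₁.pz.z1
  have h2 := hc u hu
  rcases d.V₂_cases hv with e | e | e | e
  · left; exact e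
  · right; exact e
  · exfalso; rw [e] at h2; exact h1 h2
  · exfalso
    apply h1
    rw [e] at h2
    have hz := d.s₁.pz.V2.comm d.s₁.pz.zV hu
    have h3 : z * (w₁ * u) = z * (u * w₁) := by
      rw [← mul_assoc, h2, ← mul_assoc, ← mul_assoc, hz]
    exact mul_left_cancel h3

theorem Duo.xi_or (d : Duo C X₁ V₁ X₂ V₂ z e₁ w₁ e₂ w₂) {ξ : G} (hξ : ξ ∈ Xi C V₁ e₁) :
    ξ ∈ Xi C V₂ e₂ ∨ z * ξ ∈ Xi C V₂ e₂ := by
  obtain ⟨hC, hV, -⟩ := mem_Xi.1 hξ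
  have h1 : ∀ v ∈ V₂, ξ * v = v * ξ := fun v hv => d.comm_V₂ hC (d.s₁.xi_w hξ).symm hv
  obtain ⟨v, hv, hη⟩ := d.s₂.dec hC h1
  have h2 : ∀ u ∈ V₁, (v * ξ) * u = u * (v * ξ) := fun u hu =>
    d.symm.comm_V₂ (mem_Xi.1 hη).1 (d.s₂.xi_w hη).symm hu
  have h3 : ∀ u ∈ V₁, v * u = u * v := by
    intro u hu
    have e1 := h2 u hu
    rw [mul_assoc, hV u hu, ← mul_assoc, ← mul_assoc] at e1
    exact mul_right_cancel e1
  rcases d.V₂_comm hv h3 with e | e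
  · left; rwa [e, one_mul] at hη
  · right; rwa [e] at hη

theorem Duo.xi_small (d : Duo C X₁ V₁ X₂ V₂ z e₁ w₁ e₂ w₂) {ξ ξ' : G} (hξ : ξ ∈ Xi C V₁ e₁)
    (hξ' : ξ' ∈ Xi C V₁ e₁) (h1 : ξ ≠ 1) (h1' : ξ' ≠ 1) : ξ = ξ' := by
  have a1 := (d.xi_or hξ).resolve_left (fun h => h1 (d.xx ξ hξ h))
  have a2 := (d.xi_or hξ').resolve_left (fun h => h1' (d.xx ξ' hξ' h))
  have a3 : (z * ξ)⁻¹ * (z * ξ') ∈ Xi C V₂ e₂ := mul_mem (inv_mem a1) a2
  have e : (z * ξ)⁻¹ * (z * ξ') = ξ⁻¹ * ξ' := by group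
  rw [e] at a3
  have a4 := d.xx _ (mul_mem (inv_mem hξ) hξ') a3
  exact inv_mul_eq_one.1 a4

theorem Duo.xi_sq (d : Duo C X₁ V₁ X₂ V₂ z e₁ w₁ e₂ w₂) {ξ : G} (hξ : ξ ∈ Xi C V₁ e₁) : ξ * ξ = 1 := by
  by_cases h1 : ξ = 1
  · rw [h1, mul_one]
  · have := d.xi_small hξ (inv_mem hξ) h1 (fun h => h1 (inv_eq_one.1 h))
    nth_rewrite 2 [this]
    exact mul_inv_cancel ξ

/-- decomposition of elements of `C` -/
theorem Duo.C_dec (d : Duo C X₁ V₁ X₂ V₂ z e₁ w₁ e₂ w₂) {c : G} (hc : c ∈ C) :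
    ∃ a ∈ V₁, ∃ ξ ∈ Xi C V₁ e₁, c = a * ξ ∨ c = a * ξ * w₁ := by
  have hwi : w₁⁻¹ = w₁ := inv_eq_of_mul_eq_one_left d.s₁.ww
  rcases d.s₁.two hc with h | h
  · obtain ⟨v, hv, hξ⟩ := d.s₁.dec hc h
    exact ⟨v⁻¹, inv_mem hv, _, hξ, Or.inl (by group)⟩
  · obtain ⟨v, hv, hξ⟩ := d.s₁.dec (mul_mem hc d.s₁.wC) h
    refine ⟨v⁻¹, inv_mem hv, _, hξ, Or.inr ?_⟩
    calc c = c * (w₁ * w₁) := by rw [d.s₁.ww, mul_one]
      _ = v⁻¹ * (v * (c * w₁)) * w₁ := by group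

theorem Duo.xi_cen (d : Duo C X₁ V₁ X₂ V₂ z e₁ w₁ e₂ w₂) {ξ : G} (hξ : ξ ∈ Xi C V₁ e₁) {c : G} (hc : c ∈ C) :
    c * ξ = ξ * c := by
  have hVξ := (mem_Xi.1 hξ).2.1
  have hξξ : ∀ ξ' ∈ Xi C V₁ e₁, ξ' * ξ = ξ * ξ' := by
    intro ξ' hξ'
    by_cases h1 : ξ = 1
    · rw [h1]; group
    by_cases h2 : ξ' = 1
    · rw [h2]; group
    · rw [d.xi_small hξ hξ' h1 h2]
  have hw := d.s₁.xi_w hξ
  obtain ⟨a, ha, ξ', hξ', e | e⟩ := d.C_dec hc
  · rw [e, mul_assoc, hξξ ξ' hξ', ← mul_assoc, ← hVξ a ha, mul_assoc]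
  · rw [e, mul_assoc, hw, ← mul_assoc, mul_assoc a ξ' ξ, hξξ ξ' hξ', ← mul_assoc a, ← hVξ a ha]
    simp only [mul_assoc]

theorem Duo.xi_ZJ (d : Duo C X₁ V₁ X₂ V₂ z e₁ w₁ e₂ w₂) {ξ : G} (hξ : ξ ∈ Xi C V₁ e₁) : ξ ∈ ZJ C :=
  mem_ZJ (mem_Xi.1 hξ).1 (d.xi_sq hξ) (fun j hj => (d.xi_cen hξ (JJ_le C hj)).symm)

theorem Duo.xi_X (d : Duo C X₁ V₁ X₂ V₂ z e₁ w₁ e₂ w₂) {ξ : G} (hξ : ξ ∈ Xi C V₁ e₁) : ∀ x ∈ X₁, x * ξ = ξ * x :=
  d.s₁.pz.cen_gen (fun c hc => d.xi_cen hξ hc) d.s₁.eX d.s₁.ez (mem_Xi.1 hξ).2.2.symm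

theorem Duo.ZJ_dec (d : Duo C X₁ V₁ X₂ V₂ z e₁ w₁ e₂ w₂) (hB : BB C = C) {u : G} (hu : u ∈ ZJ C) :
    ∃ ξ ∈ Xi C V₁ e₁, u = ξ ∨ u = z * ξ := by
  have huC : u ∈ C := (ZJ_le_JJ C).trans (JJ_le C) hu
  have hcom : ∀ c ∈ C, c * u = u * c := by
    intro c hc
    rw [← hB] at hc
    exact ((mem_BB.1 hc).2 u hu).symm
  obtain ⟨v, hv, hξ⟩ := d.s₁.dec huC (fun v hv => (hcom v (d.s₁.pz.VC hv)).symm)
  have h1 := d.s₁.xi_w hξ
  have h2 := hcom w₁ d.s₁.wC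
  have h3 : w₁ * v = v * w₁ := by
    rw [← mul_assoc, mul_assoc v u w₁, ← h2, ← mul_assoc] at h1
    exact mul_right_cancel h1
  have h4 : v = 1 ∨ v = z := by
    by_contra hcon
    push Not at hcon
    exact move_ne (d.s₁.wm v hv hcon.1 hcon.2) d.s₁.pz.z1 h3
  rcases h4 with e | e
  · exact ⟨_, hξ, Or.inl (by rw [e, one_mul])⟩
  · refine ⟨_, hξ, Or.inr ?_⟩
    rw [e, ← mul_assoc, d.s₁.pz.V2 z d.s₁.pz.zV, one_mul]

/-- half -/
theorem Duo.half (d : Duo C X₁ V₁ X₂ V₂ z e₁ w₁ e₂ w₂) {q q' : G} (hq : q ∈ C) (hqV : ∀ v ∈ V₁, q * v = v * q)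
    (hq' : q' ∈ C) (hqV' : ∀ v ∈ V₁, q' * v = v * q') (h1 : q ∉ V₁) (h2 : q' ∉ V₁) : q * q'⁻¹ ∈ V₁ := by
  obtain ⟨v, hv, hξ⟩ := d.s₁.dec hq hqV
  obtain ⟨v', hv', hξ'⟩ := d.s₁.dec hq' hqV'
  have n1 : v * q ≠ 1 := by
    intro e
    apply h1
    have : q = v⁻¹ := (inv_eq_of_mul_eq_one_right e).symm
    rw [this]; exact inv_mem hv
  have n2 : v' * q' ≠ 1 := by
    intro e
    apply h2
    have : q' = v'⁻¹ := (inv_eq_of_mul_eq_one_right e).symm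
    rw [this]; exact inv_mem hv'
  have e := d.xi_small hξ hξ' n1 n2
  have : q * q'⁻¹ = v⁻¹ * v' := by
    have e1 : q = v⁻¹ * (v' * q') := by rw [← e]; group
    rw [e1]; group
  rw [this]; exact mul_mem (inv_mem hv) hv'

omit [Finite G] in
theorem oddchain {x a b : G} {N : ℕ} (hx : Odd (orderOf x)) (hb : x * b * x⁻¹ = a * b) (hxa : x * a = a * x)
    (ha : a ^ (2 ^ N) = 1) : x * b = b * x := by
  have h1 : ∀ k : ℕ, x ^ k * b * (x ^ k)⁻¹ = a ^ k * b := by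
    intro k
    induction k with
    | zero => simp
    | succ k ih =>
      have hxk : x * a ^ k = a ^ k * x := (show Commute x a from hxa).pow_right k
      calc x ^ (k + 1) * b * (x ^ (k + 1))⁻¹ = x * (x ^ k * b * (x ^ k)⁻¹) * x⁻¹ := by rw [pow_succ']; group
        _ = (x * a ^ k) * b * x⁻¹ := by rw [ih]; group
        _ = a ^ k * (x * b * x⁻¹) := by rw [hxk]; group
        _ = a ^ (k + 1) * b := by rw [hb, pow_succ, mul_assoc]
  have h2 := h1 (orderOf x)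
  rw [pow_orderOf_eq_one] at h2
  have h3 : a ^ orderOf x = 1 := by
    have : 1 * b = a ^ orderOf x * b := by rw [← h2]; group
    exact (mul_right_cancel this).symm
  have h4 : orderOf a ∣ 2 ^ N := orderOf_dvd_of_pow_eq_one ha
  have h5 : orderOf a ∣ orderOf x := orderOf_dvd_of_pow_eq_one h3
  have h6 : orderOf a = 1 := Nat.eq_one_of_dvd_coprimes (Nat.Coprime.pow_left N (Nat.coprime_two_left.2 hx)) h4 h5
  rw [orderOf_eq_one_iff.1 h6, one_mul] at hb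
  exact mul_inv_eq_iff_eq_mul.1 hb

/-- fixed points of a 2-group on a 2-group -/
theorem exists_fix {P V : Subgroup G} (hP : IsPGroup 2 P) (hV : IsPGroup 2 V) (hV1 : V ≠ ⊥)
    (hn : P ≤ normalizer (V : Set G)) : ∃ v ∈ V, v ≠ 1 ∧ ∀ p ∈ P, p * v = v * p := by
  haveI : Fact (Nat.Prime 2) := ⟨Nat.prime_two⟩
  let act : MulAction P V :=
    { smul := fun p v => ⟨p.1 * v.1 * p.1⁻¹, conj_mem_of_norm (hn p.2) v.2⟩
      one_smul := fun v => Subtype.ext (by change (1 : G) * v.1 * (1 : G)⁻¹ = v.1; group)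
      mul_smul := fun p q v => Subtype.ext (by
        change (p.1 * q.1) * v.1 * (p.1 * q.1)⁻¹ = p.1 * (q.1 * v.1 * q.1⁻¹) * p.1⁻¹
        group) }
  have hdvd : 2 ∣ Nat.card V := by
    obtain ⟨n, hn⟩ := IsPGroup.iff_card.1 hV
    rw [hn]
    have hn0 : n ≠ 0 := by
      rintro rfl
      rw [pow_zero] at hn
      exact hV1 (Subgroup.card_eq_one.1 hn)
    exact dvd_pow_self 2 hn0
  have h1 : (⟨1, one_mem _⟩ : V) ∈ MulAction.fixedPoints P V := by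
    intro p
    apply Subtype.ext
    change p.1 * 1 * p.1⁻¹ = 1
    group
  obtain ⟨v, hv, hne⟩ := hP.exists_fixed_point_of_prime_dvd_card_of_fixed_point V hdvd h1
  refine ⟨v.1, v.2, fun e => hne (Subtype.ext e.symm), fun p hp => ?_⟩
  have h2 : p * v.1 * p⁻¹ = v.1 := congrArg Subtype.val (hv ⟨p, hp⟩)
  exact mul_inv_eq_iff_eq_mul.1 h2

/-- `N_G(V₁) ∩ C_G(z) = C` -/
theorem Duo.stab (d : Duo C X₁ V₁ X₂ V₂ z e₁ w₁ e₂ w₂) {Ch : Subgroup G → Prop}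
    {Pr : Subgroup G → Subgroup G → Subgroup G → G → Prop} (h : Geo Ch Pr) (p₁ : Pr C X₁ V₁ z) (p₂ : Pr C X₂ V₂ z)
    {Q S : Subgroup G} (hCS : C ≤ S) (hL : Loc (normalizer (V₁ : Set G)) Q S) (hBB : BB S = C) {x : G}
    (hxN : x ∈ normalizer (V₁ : Set G)) (hxz : x * z = z * x) : x ∈ C := by
  have hpz := d.s₁.pz
  have hB := h.chB (h.ch p₁)
  have hZZ : ZJ C = ZJ S := by rw [← hBB, ZJ_BB]
  have hV1ne : V₁ ≠ ⊥ := by
    intro e
    have := hpz.zV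
    rw [e, mem_bot] at this
    exact hpz.z1 this
  -- S fixes z
  have hSz : ∀ s ∈ S, s * z = z * s := by
    obtain ⟨v, hv, hv1, hfix⟩ := exists_fix hL.syl.2.1 hpz.V2.isPGroup hV1ne hL.syl.1
    have hvz : v = z := by
      by_contra hne
      exact move_ne (d.s₁.wm v hv hv1 hne) hpz.z1 (hfix w₁ (hCS d.s₁.wC))
    rw [← hvz]; exact hfix
  -- S = C
  have hSC : S ≤ C := by
    intro s hs
    rw [← hBB]
    have hsC : s ∈ normalizer (C : Set G) := by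
      rw [← hBB]; exact norm_BB (le_normalizer hs)
    have hsZ : s ∈ normalizer (ZJ C : Set G) := norm_ZJ hsC
    have hsV : s ∈ normalizer (V₁ : Set G) := hL.syl.1 hs
    have hz' : s * z * s⁻¹ = z := by rw [hSz s hs]; group
    have key : ∀ ξ ∈ Xi C V₁ e₁, s * ξ = ξ * s := by
      intro ξ hξ
      by_cases h1 : ξ = 1
      · rw [h1]; group
      have h2 := conj_mem_of_norm hsZ (d.xi_ZJ hξ)
      obtain ⟨ξ', hξ', e⟩ := d.ZJ_dec hB h2
      have h3 : ξ' ≠ 1 := by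
        rintro rfl
        rcases e with e | e
        · exact h1 (conj_eq_one_iff.1 e)
        · rw [mul_one] at e
          have : ξ = z := by
            have e2 : s⁻¹ * (s * ξ * s⁻¹) * s = s⁻¹ * z * s := by rw [e]
            have e3 : s⁻¹ * (s * ξ * s⁻¹) * s = ξ := by group
            have e4 : s⁻¹ * z * s = z := by rw [mul_assoc, ← hSz s hs]; group
            rw [e3, e4] at e2; exact e2
          rw [this] at hξ
          exact d.s₁.z_not hξ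
      have h4 := d.xi_small hξ' hξ h3 h1
      rw [h4] at e
      rcases e with e | e
      · exact mul_inv_eq_iff_eq_mul.1 e
      · exfalso
        have hzξ : z * ξ ∈ Xi C V₂ e₂ := (d.xi_or hξ).resolve_left (fun h5 => h1 (d.xx ξ hξ h5))
        have q1 := d.symm.xi_X hzξ
        have pr' := h.prC s p₁
        rw [cj_eq_iff.2 hsC, cj_eq_iff.2 hsV, hz'] at pr'
        have q2 : ∀ x ∈ cj s X₁, x * (z * ξ) = (z * ξ) * x := by
          intro x hx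
          rw [mem_cj] at hx
          have q3 := d.xi_X hξ _ hx
          rw [← e]
          calc x * (s * ξ * s⁻¹) = s * ((s⁻¹ * x * s) * ξ) * s⁻¹ := by group
            _ = s * (ξ * (s⁻¹ * x * s)) * s⁻¹ := by rw [q3]
            _ = (s * ξ * s⁻¹) * x := by group
        have q4 := (h.res_cent p₂ pr' (d.symm.xi_ZJ hzξ) (fun e5 => by
          apply h1
          have : z * ξ = 1 := e5
          have h6 : ξ = z := by
            have h7 : z * ξ = z * z := by rw [this, hpz.V2 z hpz.zV]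
            exact mul_left_cancel h7
          rw [h6] at hξ
          exact absurd hξ d.s₁.z_not) q1 q2).2.2 z d.s₂.pz.zV hpz.zV hpz.z1
        -- V₂ = V₁ contradiction
        obtain ⟨u, hu, hu1, huz, -⟩ := hpz.three
        apply move_ne (d.s₁.wm u hu hu1 huz) hpz.z1
        have hw : w₁ ∈ V₁ := by rw [← q4]; exact d.s₁.wV
        exact hpz.V2.comm hw hu
    refine mem_BB.2 ⟨hs, fun u hu => ?_⟩
    rw [← hZZ] at hu
    obtain ⟨ξ, hξ, e | e⟩ := d.ZJ_dec hB hu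
    · rw [e]; exact (key ξ hξ).symm
    · rw [e, mul_assoc, ← key ξ hξ, ← mul_assoc, ← hSz s hs, mul_assoc]
  have hSC' : S = C := le_antisymm hSC hCS
  -- odd elements are trivial
  have hodd : ∀ y : G, y ∈ normalizer (V₁ : Set G) → y * z = z * y → Odd (orderOf y) → y = 1 := by
    intro y hyN hyz hyo
    have hpow : ∀ a ∈ C, a ^ (2 ^ Nat.card G) = 1 := fun a ha => pow_big (h.ch2 (h.ch p₁)) ha
    -- V₁
    have y1 : ∀ v ∈ V₁, y * v = v * y := by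
      intro v hv
      by_cases h1 : v = 1
      · rw [h1]; group
      by_cases h2 : v = z
      · rw [h2]; exact hyz
      have h3 := conj_mem_of_norm hyN hv
      rcases hpz.cases hv h1 h2 h3 with e | e | e | e
      · exact absurd (conj_eq_one_iff.1 e) h1
      · exfalso
        apply h2
        have e2 : y⁻¹ * (y * v * y⁻¹) * y = y⁻¹ * z * y := by rw [e]
        have e3 : y⁻¹ * (y * v * y⁻¹) * y = v := by group
        have e4 : y⁻¹ * z * y = z := by rw [mul_assoc, ← hyz]; group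
        rw [e3, e4] at e2; exact e2
      · exact mul_inv_eq_iff_eq_mul.1 e
      · exact oddchain hyo e hyz (hpow z (hpz.VC hpz.zV))
    -- VV
    have hV₁VV : V₁ ≤ VV (normalizer (V₁ : Set G)) S := by
      apply hL.PZ_le (X := X₁) (z := z) _ hpz.XV
      rw [hBB]; exact hpz
    have hVVC : VV (normalizer (V₁ : Set G)) S ≤ C := (hL.VQ.trans hL.QS).trans hSC
    have y2 : ∀ u ∈ VV (normalizer (V₁ : Set G)) S, y * u = u * y := by
      intro u hu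
      by_cases h1 : u ∈ V₁
      · exact y1 u h1
      have h2 := conj_mem_of_norm (VV_norm (S := S) hyN) hu
      have h3 : y * u * y⁻¹ ∉ V₁ := by
        intro h4
        apply h1
        have := conj_mem_of_norm (inv_mem hyN) h4
        have e : y⁻¹ * (y * u * y⁻¹) * y⁻¹⁻¹ = u := by group
        rwa [e] at this
      have h4 := d.half (hVVC h2) (fun v hv => hL.V2.comm h2 (hV₁VV hv)) (hVVC hu)
        (fun v hv => hL.V2.comm hu (hV₁VV hv)) h3 h1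
      exact oddchain hyo (a := y * u * y⁻¹ * u⁻¹) (by group) (y1 _ h4) (hpow _ (hpz.VC h4))
    have y3 : y ∈ normalizer (C : Set G) := by
      rw [← hSC']
      exact hL.zz y hyN (fun v hv => y2 v (om_le_VV hv))
    have y4 : ∀ q ∈ C, (∀ v ∈ V₁, q * v = v * q) → y * q = q * y := by
      intro q hq hqV
      by_cases h1 : q ∈ V₁
      · exact y1 q h1
      have h2 := conj_mem_of_norm y3 hq
      have h2V : ∀ v ∈ V₁, (y * q * y⁻¹) * v = v * (y * q * y⁻¹) := by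
        intro v hv
        rw [comm_cj_iff]
        apply hqV
        have := conj_mem_of_norm (inv_mem hyN) hv
        rwa [inv_inv] at this
      have h3 : y * q * y⁻¹ ∉ V₁ := by
        intro h4
        apply h1
        have := conj_mem_of_norm (inv_mem hyN) h4
        have e : y⁻¹ * (y * q * y⁻¹) * y⁻¹⁻¹ = q := by group
        rwa [e] at this
      have h4 := d.half h2 h2V hq hqV h3 h1
      exact oddchain hyo (a := y * q * y⁻¹ * q⁻¹) (by group) (y1 _ h4) (hpow _ (hpz.VC h4))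
    have y5 : ∀ c ∈ C, y * c = c * y := by
      intro c hc
      by_cases h1 : ∀ v ∈ V₁, c * v = v * c
      · exact y4 c hc h1
      have h2 := conj_mem_of_norm y3 hc
      have h3 : ¬ ∀ v ∈ V₁, (y * c * y⁻¹) * v = v * (y * c * y⁻¹) := by
        intro h4
        apply h1
        intro v hv
        have h5 := h4 _ (conj_mem_of_norm hyN hv)
        have e1 : y⁻¹ * (y * c * y⁻¹ * (y * v * y⁻¹)) * y = y⁻¹ * (y * v * y⁻¹ * (y * c * y⁻¹)) * y := by rw [h5]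
        have e2 : y⁻¹ * (y * c * y⁻¹ * (y * v * y⁻¹)) * y = c * v := by group
        have e3 : y⁻¹ * (y * v * y⁻¹ * (y * c * y⁻¹)) * y = v * c := by group
        rw [e2, e3] at e1; exact e1
      have h4 := (d.s₁.two hc).resolve_left h1
      have h5 := (d.s₁.two h2).resolve_left h3
      have h6 : ∀ v ∈ V₁, (y * c * y⁻¹ * c⁻¹) * v = v * (y * c * y⁻¹ * c⁻¹) := by
        intro v hv
        have e : y * c * y⁻¹ * c⁻¹ = ((y * c * y⁻¹) * w₁) * (c * w₁)⁻¹ := by group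
        rw [e]
        have c1 : Commute ((y * c * y⁻¹) * w₁) v := h5 v hv
        have c2 : Commute (c * w₁) v := h4 v hv
        exact c1.mul_left c2.inv_left
      have h7 : y * c * y⁻¹ * c⁻¹ ∈ C := mul_mem h2 (inv_mem hc)
      exact oddchain hyo (a := y * c * y⁻¹ * c⁻¹) (by group) (y4 _ h7 h6) (hpow _ h7)
    have hyQ : y ∈ Q := hL.cen y hyN (fun q hq => y5 q (hSC (hL.QS hq)))
    have h1 := pow_big hL.Q2 hyQ
    have h2 : orderOf y ∣ 2 ^ Nat.card G := orderOf_dvd_of_pow_eq_one h1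
    have h3 : orderOf y = 1 :=
      Nat.eq_one_of_dvd_coprimes (Nat.Coprime.pow_left _ (Nat.coprime_two_left.2 hyo)) h2 dvd_rfl
    exact orderOf_eq_one_iff.1 h3
  set Lz := normalizer (V₁ : Set G) ⊓ centralizer ({z} : Set G) with hLz
  have hmem : ∀ y, y ∈ Lz ↔ y ∈ normalizer (V₁ : Set G) ∧ y * z = z * y := by
    intro y
    rw [hLz, mem_inf, mem_centralizer_iff]
    constructor
    · rintro ⟨h1, h2⟩; exact ⟨h1, (h2 z rfl).symm⟩
    · rintro ⟨h1, h2⟩; exact ⟨h1, by rintro _ rfl; exact h2.symm⟩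
  have hLz2 : IsPGroup 2 Lz := by
    intro y
    refine ⟨Nat.card G, ?_⟩
    apply Subtype.ext
    have h1 : (y.1) ^ (2 ^ Nat.card G) ∈ Lz := pow_mem y.2 _
    obtain ⟨h2, h3⟩ := (hmem _).1 h1
    exact hodd _ h2 h3 (odd_pow_big _)
  have hCLz : S ≤ Lz := by
    intro s hs
    exact (hmem s).2 ⟨hL.syl.1 hs, hSz s hs⟩
  have := hL.syl.2.2 Lz hLz2 hCLz inf_le_left
  exact hSC (this ((hmem x).2 ⟨hxN, hxz⟩))

end H55.ZN
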