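import Cfsg.Agent.Lib.H55.ZN13
import Cfsg.Agent.Lib.H38.CycTransfer

set_option autoImplicit false
set_option linter.unusedSimpArgs false
set_option linter.unusedSectionVars false

/-! The central involution `c` is not in `O²(G)`. -/

namespace H55.ZN

open Subgroup

variable {G : Type*} [Group G] [Finite G]

theorem Geo.duo {Ch : Subgroup G → Prop} {Pr : Subgroup G → Subgroup G → Subgroup G → G → Prop} (h : Geo Ch Pr)
    {C X₁ V₁ X₂ V₂ : Subgroup G} {z₁ z₂ : G} (p₁ : Pr C X₁ V₁ z₁) (p₂ : Pr C X₂ V₂ z₂) (hn : ¬ Com V₁ V₂) :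
    z₁ = z₂ ∧ ∃ e₁ w₁ e₂ w₂, Duo C X₁ V₁ X₂ V₂ z₁ e₁ w₁ e₂ w₂ := by
  have hz := h.L2z p₁ p₂ (h.pz p₁).VC (h.pz p₂).VC hn
  refine ⟨hz, ?_⟩
  subst hz
  obtain ⟨e₁, w₁, s₁⟩ := h.side p₁ p₂ hn
  obtain ⟨e₂, w₂, s₂⟩ := h.side p₂ p₁ (fun e => hn e.symm)
  refine ⟨e₁, w₁, e₂, w₂, s₁, s₂, ?_⟩
  intro ξ h1 h2
  by_contra hne
  have hU : Xi C V₁ e₁ ⊓ Xi C V₂ e₂ ≠ ⊥ := by
    intro e
    have : ξ ∈ Xi C V₁ e₁ ⊓ Xi C V₂ e₂ := mem_inf.2 ⟨h1, h2⟩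
    rw [e, mem_bot] at this
    exact hne this
  have hCN : C ≤ normalizer ((Xi C V₁ e₁ ⊓ Xi C V₂ e₂ : Subgroup G) : Set G) := by
    intro c hc
    apply mem_normalizer_of_le
    intro y hy
    obtain ⟨hy1, hy2⟩ := mem_inf.1 hy
    exact mem_inf.2 ⟨conj_mem_of_norm (s₁.norm_xi hc) hy1, conj_mem_of_norm (s₂.norm_xi hc) hy2⟩
  have hX₁ : X₁ ≤ normalizer ((Xi C V₁ e₁ ⊓ Xi C V₂ e₂ : Subgroup G) : Set G) := by
    apply s₁.pz.gen hCN (y := e₁) ?_ s₁.eX s₁.ez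
    apply mem_normalizer_of_le
    intro y hy
    have := (mem_Xi.1 (mem_inf.1 hy).1).2.2
    rw [← this]
    have e : y * e₁ * e₁⁻¹ = y := by group
    rw [e]; exact hy
  have hX₂ : X₂ ≤ normalizer ((Xi C V₁ e₁ ⊓ Xi C V₂ e₂ : Subgroup G) : Set G) := by
    apply s₂.pz.gen hCN (y := e₂) ?_ s₂.eX s₂.ez
    apply mem_normalizer_of_le
    intro y hy
    have := (mem_Xi.1 (mem_inf.1 hy).2).2.2
    rw [← this]
    have e : y * e₂ * e₂⁻¹ = y := by group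
    rw [e]; exact hy
  have hle : (Xi C V₁ e₁ ⊓ Xi C V₂ e₂ : Subgroup G) ≤ C := fun y hy => (mem_Xi.1 (mem_inf.1 hy).1).1
  exact hn (h.res p₁ p₂ hU (s₁.C2.to_le hle) hX₁ hX₂).2.1

variable {C X₁ V₁ X₂ V₂ : Subgroup G} {z e₁ w₁ e₂ w₂ : G}

/-- membership in `D` -/
theorem Duo.D_mem (d : Duo C X₁ V₁ X₂ V₂ z e₁ w₁ e₂ w₂) {x : G} (hx : x ∈ V₁ ⊔ V₂) :
    ∃ a ∈ V₁, ∃ b ∈ V₂, x = a * b :=
  mem_sup_norm ((d.s₁.pz.VC.trans d.s₂.pz.CX).trans d.s₂.pz.XV) hx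

theorem Duo.D_le (d : Duo C X₁ V₁ X₂ V₂ z e₁ w₁ e₂ w₂) : V₁ ⊔ V₂ ≤ C := sup_le d.s₁.pz.VC d.s₂.pz.VC

/-- non-central elements of `V₁`, `V₂` -/
theorem Duo.nc (d : Duo C X₁ V₁ X₂ V₂ z e₁ w₁ e₂ w₂) {a b : G} (ha : a ∈ V₁) (ha1 : a ≠ 1) (haz : a ≠ z)
    (hb : b ∈ V₂) (hb1 : b ≠ 1) (hbz : b ≠ z) : b * a * b⁻¹ = a * z := by
  have hz := d.s₁.pz.V2.comm d.s₁.pz.zV ha
  have h1 := d.s₁.wm a ha ha1 haz
  rcases d.V₂_cases hb with e | e | e | e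
  · exact absurd e hb1
  · exact absurd e hbz
  · rw [e]; exact h1
  · rw [e]
    calc z * w₁ * a * (z * w₁)⁻¹ = z * (w₁ * a * w₁⁻¹) * z⁻¹ := by group
      _ = a * z := by rw [h1, ← mul_assoc, hz]; group

theorem Duo.D_inv (d : Duo C X₁ V₁ X₂ V₂ z e₁ w₁ e₂ w₂) {x : G} (hx : x ∈ V₁ ⊔ V₂) (hxx : x * x = 1) :
    x ∈ V₁ ∨ x ∈ V₂ := by
  obtain ⟨a, ha, b, hb, rfl⟩ := d.D_mem hx
  by_cases ha1 : a = 1
  · right; rw [ha1, one_mul]; exact hb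
  by_cases haz : a = z
  · right; rw [haz]; exact mul_mem d.s₂.pz.zV hb
  by_cases hb1 : b = 1
  · left; rw [hb1, mul_one]; exact ha
  by_cases hbz : b = z
  · left; rw [hbz]; exact mul_mem ha d.s₁.pz.zV
  exfalso
  have h1 := d.nc ha ha1 haz hb hb1 hbz
  have hbb := d.s₂.pz.V2 b hb
  have haa := d.s₁.pz.V2 a ha
  have hbi : b⁻¹ = b := inv_eq_of_mul_eq_one_left hbb
  rw [hbi] at h1
  have : a * b * (a * b) = z := by
    calc a * b * (a * b) = a * (b * a * b) := by group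
      _ = z := by rw [h1, ← mul_assoc, haa, one_mul]
  rw [this] at hxx
  exact d.s₁.pz.z1 hxx

theorem Duo.z_conj (d : Duo C X₁ V₁ X₂ V₂ z e₁ w₁ e₂ w₂) {x : G} (hx : x ∈ V₁ ⊔ V₂) (hxx : x * x = 1) (hx1 : x ≠ 1) :
    ∃ g : G, g * z * g⁻¹ = x := by
  rcases d.D_inv hx hxx with h1 | h1
  · obtain ⟨g, -, e⟩ := d.s₁.pz.tr x h1 hx1
    exact ⟨g, e⟩
  · obtain ⟨g, -, e⟩ := d.s₂.pz.tr x h1 hx1
    exact ⟨g, e⟩

/-- commutators in `C` -/
theorem Duo.comm_C (d : Duo C X₁ V₁ X₂ V₂ z e₁ w₁ e₂ w₂) {c x : G} (hc : c ∈ C) (hx : x ∈ C) :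
    c * x * c⁻¹ = x ∨ c * x * c⁻¹ = x * z := by
  obtain ⟨a, ha, ξ, hξ, e⟩ := d.C_dec hx
  have hcξ : c * ξ * c⁻¹ = ξ := by rw [d.xi_cen hξ hc]; group
  have hzz : z * z = 1 := d.s₁.pz.V2 z d.s₁.pz.zV
  have hξz : ξ * z = z * ξ := d.s₁.cz ξ (mem_Xi.1 hξ).1
  have hwz : w₁ * z = z * w₁ := d.s₁.cz w₁ d.s₁.wC
  have e0 : c * (a * ξ) * c⁻¹ = (c * a * c⁻¹) * (c * ξ * c⁻¹) := by group
  have e0' : c * (a * ξ * w₁) * c⁻¹ = (c * a * c⁻¹) * (c * ξ * c⁻¹) * (c * w₁ * c⁻¹) := by group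
  rcases e with e | e
  · rw [e, e0, hcξ]
    rcases d.s₁.pz.cv c hc a ha with h1 | h1
    · left; rw [h1]
    · right; rw [h1, mul_assoc, mul_assoc, hξz]
  · rw [e, e0', hcξ]
    rcases d.s₁.pz.cv c hc a ha with h1 | h1 <;> rcases d.s₁.wy c hc with h2 | h2
    · left; rw [h1, h2]
    · right; rw [h1, h2]; simp only [mul_assoc]
    · right; rw [h1, h2]
      calc a * z * ξ * w₁ = a * (z * ξ) * w₁ := by group
        _ = a * ξ * (z * w₁) := by rw [← hξz]; group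
        _ = a * ξ * w₁ * z := by rw [← hwz]; group
    · left; rw [h1, h2]
      calc a * z * ξ * (w₁ * z) = a * (z * ξ) * (w₁ * z) := by group
        _ = a * ξ * (z * w₁) * z := by rw [← hξz]; group
        _ = a * ξ * w₁ * (z * z) := by rw [← hwz]; group
        _ = a * ξ * w₁ := by rw [hzz, mul_one]

theorem Duo.norm_z (d : Duo C X₁ V₁ X₂ V₂ z e₁ w₁ e₂ w₂) {n : G} (hn : n ∈ normalizer (C : Set G)) :
    n * z * n⁻¹ = z := by
  obtain ⟨v, hv, hv1, hvz, -⟩ := d.s₁.pz.three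
  have h1 := d.s₁.wm v hv hv1 hvz
  have h2 : n * z * n⁻¹ = (n * v * n⁻¹)⁻¹ * ((n * w₁ * n⁻¹) * (n * v * n⁻¹) * (n * w₁ * n⁻¹)⁻¹) := by
    calc n * z * n⁻¹ = n * (v⁻¹ * (v * z)) * n⁻¹ := by group
      _ = n * (v⁻¹ * (w₁ * v * w₁⁻¹)) * n⁻¹ := by rw [h1]
      _ = _ := by group
  rcases d.comm_C (conj_mem_of_norm hn d.s₁.wC) (conj_mem_of_norm hn (d.s₁.pz.VC hv)) with e | e
  · exfalso
    rw [e, inv_mul_cancel] at h2
    exact d.s₁.pz.z1 (conj_eq_one_iff.1 h2)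
  · rw [e, inv_mul_cancel_left] at h2
    exact h2

section caseB

variable {Ch : Subgroup G → Prop} {Pr : Subgroup G → Subgroup G → Subgroup G → G → Prop} {c : G}

structure CB (Ch : Subgroup G → Prop) (Pr : Subgroup G → Subgroup G → Subgroup G → G → Prop)
    (C X₁ V₁ X₂ V₂ : Subgroup G) (z e₁ w₁ e₂ w₂ c : G) : Prop where
  h : Geo Ch Pr
  d : Duo C X₁ V₁ X₂ V₂ z e₁ w₁ e₂ w₂
  p₁ : Pr C X₁ V₁ z
  p₂ : Pr C X₂ V₂ z
  st : ∀ x, x ∈ normalizer (V₁ : Set G) → x * z = z * x → x ∈ C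
  cξ : c ∈ Xi C V₁ e₁
  c1 : c ≠ 1

variable (b : CB Ch Pr C X₁ V₁ X₂ V₂ z e₁ w₁ e₂ w₂ c)

include b

theorem CB.cz : c ≠ z := fun e => b.d.s₁.z_not (e ▸ b.cξ)

theorem CB.zc : z * c ∈ Xi C V₂ e₂ := (b.d.xi_or b.cξ).resolve_left (fun h => b.c1 (b.d.xx c b.cξ h))

theorem CB.cc : c * c = 1 := b.d.xi_sq b.cξ

theorem CB.ZJ_cases {u : G} (hu : u ∈ ZJ C) : u = 1 ∨ u = z ∨ u = c ∨ u = z * c := by
  obtain ⟨ξ, hξ, e⟩ := b.d.ZJ_dec (b.h.chB (b.h.ch b.p₁)) hu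
  have h1 : ξ = 1 ∨ ξ = c := by
    by_cases h1 : ξ = 1
    · left; exact h1
    · right; exact b.d.xi_small hξ b.cξ h1 b.c1
  rcases h1 with rfl | rfl <;> rcases e with e | e
  · left; exact e
  · right; left; rw [e, mul_one]
  · right; right; left; exact e
  · right; right; right; exact e

theorem CB.norm_c {n : G} (hn : n ∈ normalizer (C : Set G)) : n * c * n⁻¹ = c ∨ n * c * n⁻¹ = z * c := by
  have hnz := b.d.norm_z hn
  have h1 := conj_mem_of_norm (norm_ZJ hn) (b.d.xi_ZJ b.cξ)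
  rcases b.ZJ_cases h1 with e | e | e | e
  · exact absurd (conj_eq_one_iff.1 e) b.c1
  · exfalso
    apply b.cz
    have : n * c * n⁻¹ = n * z * n⁻¹ := by rw [e, hnz]
    exact (MulAut.conj n).injective this
  · left; exact e
  · right; exact e

/-- elements of `N_G(C)` commuting with `c` are in `C` -/
theorem CB.N1 {n : G} (hn : n ∈ normalizer (C : Set G)) (hc : n * c = c * n) : n ∈ C := by
  have hnz := b.d.norm_z hn
  have pr := b.h.prC n b.p₁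
  rw [cj_eq_iff.2 hn, hnz] at pr
  have h1 : ∀ x ∈ cj n X₁, x * c = c * x := by
    intro x hx
    rw [mem_cj] at hx
    have h2 := b.d.xi_X b.cξ _ hx
    have h3 : n * c * n⁻¹ = c := by rw [hc]; group
    rw [← h3]
    calc x * (n * c * n⁻¹) = n * ((n⁻¹ * x * n) * c) * n⁻¹ := by group
      _ = n * (c * (n⁻¹ * x * n)) * n⁻¹ := by rw [h2]
      _ = (n * c * n⁻¹) * x := by group
  have h2 := (b.h.res_cent b.p₁ pr (b.d.xi_ZJ b.cξ) b.c1 (b.d.xi_X b.cξ) h1).2.2 z b.d.s₁.pz.zV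
    (b.h.pz pr).zV b.d.s₁.pz.z1
  apply b.st n (cj_eq_iff.1 h2.symm)
  exact mul_inv_eq_iff_eq_mul.1 hnz

theorem CB.N2 {n : G} (hn : n ∈ normalizer (C : Set G)) (hnC : n ∉ C) : n * c * n⁻¹ = z * c :=
  (b.norm_c hn).resolve_left (fun e => hnC (b.N1 hn (mul_inv_eq_iff_eq_mul.1 e)))

theorem CB.zc1 : z * c ≠ 1 := by
  intro e
  apply b.cz
  have : z * c = z * z := by rw [e, b.d.s₁.pz.V2 z b.d.s₁.pz.zV]
  exact mul_left_cancel this

theorem CB.N3 {n : G} (hn : n ∈ normalizer (C : Set G)) (hnC : n ∉ C) : cj n V₁ = V₂ := by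
  have hnz := b.d.norm_z hn
  have pr := b.h.prC n b.p₁
  rw [cj_eq_iff.2 hn, hnz] at pr
  have h1 : ∀ x ∈ cj n X₁, x * (z * c) = (z * c) * x := by
    intro x hx
    rw [mem_cj] at hx
    have h2 := b.d.xi_X b.cξ _ hx
    rw [← b.N2 hn hnC]
    calc x * (n * c * n⁻¹) = n * ((n⁻¹ * x * n) * c) * n⁻¹ := by group
      _ = n * (c * (n⁻¹ * x * n)) * n⁻¹ := by rw [h2]
      _ = (n * c * n⁻¹) * x := by group
  exact ((b.h.res_cent b.p₂ pr (b.d.symm.xi_ZJ b.zc) b.zc1 (b.d.symm.xi_X b.zc) h1).2.2 z b.d.s₂.pz.zV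
    (b.h.pz pr).zV b.d.s₁.pz.z1).symm

theorem CB.N4 {n n' : G} (hn : n ∈ normalizer (C : Set G)) (hnC : n ∉ C) (hn' : n' ∈ normalizer (C : Set G))
    (hnC' : n' ∉ C) : n * n' ∈ C := by
  apply b.N1 (mul_mem hn hn')
  have h1 := b.N2 hn hnC
  have h2 := b.N2 hn' hnC'
  have h3 := b.d.norm_z hn
  have hzz : z * z = 1 := b.d.s₁.pz.V2 z b.d.s₁.pz.zV
  have : (n * n') * c * (n * n')⁻¹ = c := by
    calc (n * n') * c * (n * n')⁻¹ = n * (n' * c * n'⁻¹) * n⁻¹ := by group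
      _ = (n * z * n⁻¹) * (n * c * n⁻¹) := by rw [h2]; group
      _ = c := by rw [h1, h3, ← mul_assoc, hzz, one_mul]
  exact mul_inv_eq_iff_eq_mul.1 this

/-- `N_G(C)` is a 2-group -/
theorem CB.N2grp : IsPGroup 2 (normalizer (C : Set G)) := by
  intro n
  have hC2 := b.h.ch2 (b.h.ch b.p₁)
  have h1 : n.1 * n.1 ∈ C := by
    by_cases h : n.1 ∈ C
    · exact mul_mem h h
    · exact b.N4 n.2 h n.2 h
  obtain ⟨k, hk⟩ := hC2 ⟨_, h1⟩
  refine ⟨k + 1, Subtype.ext ?_⟩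
  have h2 : (n.1 * n.1) ^ 2 ^ k = 1 := congrArg Subtype.val hk
  change n.1 ^ 2 ^ (k + 1) = 1
  rw [pow_succ', pow_mul, pow_two]; exact h2

/-- `C = D ∪ Dc` -/
theorem CB.CD {x : G} (hx : x ∈ C) : x ∈ V₁ ⊔ V₂ ∨ x * c ∈ V₁ ⊔ V₂ := by
  obtain ⟨a, ha, ξ, hξ, e⟩ := b.d.C_dec hx
  have hw : w₁ ∈ V₁ ⊔ V₂ := mem_sup_right b.d.s₁.wV
  have ha' : a ∈ V₁ ⊔ V₂ := mem_sup_left ha
  by_cases h1 : ξ = 1
  · left
    rw [h1] at e
    rcases e with e | e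
    · rw [e, mul_one]; exact ha'
    · rw [e, mul_one]; exact mul_mem ha' hw
  · right
    have h2 := b.d.xi_small hξ b.cξ h1 b.c1
    rw [h2] at e
    rcases e with e | e
    · rw [e, mul_assoc, b.cc, mul_one]; exact ha'
    · have h3 := b.d.s₁.xi_w b.cξ
      have : x * c = a * w₁ := by
        rw [e, mul_assoc, h3, ← mul_assoc, mul_assoc a c c, b.cc, mul_one]
      rw [this]; exact mul_mem ha' hw

theorem CB.c_notD : c ∉ V₁ ⊔ V₂ := by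
  intro hc
  rcases b.d.D_inv hc b.cc with h1 | h1
  · rcases (by
      by_contra hcon
      push Not at hcon
      exact move_ne (b.d.s₁.wm c h1 hcon.1 hcon.2) b.d.s₁.pz.z1 (b.d.s₁.xi_w b.cξ) : c = 1 ∨ c = z) with e | e
    · exact b.c1 e
    · exact b.cz e
  · rcases b.d.V₂_comm h1 (mem_Xi.1 b.cξ).2.1 with e | e
    · exact b.c1 e
    · exact b.cz e

/-- Sylow: a 2-group containing `N_G(C)` equals it, given `T`-invariance -/
theorem CB.not_conj (hS : Syl ⊤ (normalizer (C : Set G))) : ∀ g : G, g * z * g⁻¹ ≠ c := by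
  intro g hg
  set S₁ := normalizer (C : Set G) with hS₁
  have hzS : ∀ s ∈ S₁, s * z = z * s := fun s hs => mul_inv_eq_iff_eq_mul.1 (b.d.norm_z hs)
  set K := centralizer ({c} : Set G) with hK
  have hKm : ∀ y, y ∈ K ↔ y * c = c * y := by
    intro y
    rw [hK, mem_centralizer_iff]
    constructor
    · intro h; exact (h c rfl).symm
    · rintro h _ rfl; exact h.symm
  have h1 : cj g S₁ ≤ K := by
    intro y hy
    rw [mem_cj] at hy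
    rw [hKm, ← hg]
    have := hzS _ hy
    calc y * (g * z * g⁻¹) = g * ((g⁻¹ * y * g) * z) * g⁻¹ := by group
      _ = g * (z * (g⁻¹ * y * g)) * g⁻¹ := by rw [this]
      _ = (g * z * g⁻¹) * y := by group
  have h2 : Syl K (cj g S₁) := by
    refine ⟨h1, cj_isPGroup hS.2.1, fun R hR hle _ => ?_⟩
    have := hS.2.2 (cj g⁻¹ R) (cj_isPGroup hR) (by rw [← cj_inv_cj g S₁]; exact cj_mono hle) le_top
    rw [← cj_cj_inv g R]; exact cj_mono this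
  have hCK : C ≤ K := fun x hx => (hKm x).2 (b.d.xi_cen b.cξ hx)
  have hC2 := b.h.ch2 (b.h.ch b.p₁)
  obtain ⟨y, hy, hle⟩ := h2.conj hC2 hCK
  have hP2 : IsPGroup 2 (cj y (cj g S₁) : Subgroup G) := cj_isPGroup (cj_isPGroup hS.2.1)
  have hPK : cj y (cj g S₁) ≤ K := by
    rw [← cj_self hy]; exact cj_mono h1
  have hPC : cj y (cj g S₁) ≤ C := by
    by_contra hne
    obtain ⟨x, hx, hxC, hxN⟩ := exists_normalizing hP2 hle hne
    exact hxC (b.N1 hxN ((hKm x).1 (hPK hx)))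
  have hcard : Nat.card S₁ ≤ Nat.card C := by
    have := Subgroup.card_le_of_le hPC
    rwa [card_cj, card_cj] at this
  have hSC : C = S₁ := Subgroup.eq_of_le_of_card_ge le_normalizer hcard
  have h3 : cj (y * g) C = C := by
    rw [cj_mul]
    apply Subgroup.eq_of_le_of_card_ge
    · conv_lhs => rw [hSC]
      exact hPC
    · rw [card_cj, card_cj]
  have h4 : y * g ∈ C := by
    rw [hSC, hS₁]; exact cj_eq_iff.1 h3
  have h5 : (y * g) * z * (y * g)⁻¹ = z := by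
    rw [b.d.s₁.cz _ h4]; group
  have h6 : (y * g) * z * (y * g)⁻¹ = c := by
    calc (y * g) * z * (y * g)⁻¹ = y * (g * z * g⁻¹) * y⁻¹ := by group
      _ = c := by rw [hg, (hKm y).1 hy]; group
  exact b.cz (by rw [← h6, h5])

omit b in
theorem relIndex_two {T S : Subgroup G} {c : G} (hcS : c ∈ S) (hcT : c ∉ T) (h2 : ∀ s ∈ S, s ∈ T ∨ s * c ∈ T) :
    T.relIndex S = 2 := by
  rw [Subgroup.relIndex, Subgroup.index_eq_two_iff]
  refine ⟨⟨c, hcS⟩, ?_⟩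
  intro s
  have key : ¬ (s.1 ∈ T ∧ s.1 * c ∈ T) := by
    rintro ⟨h3, h4⟩
    have := mul_mem (inv_mem h3) h4
    rw [inv_mul_cancel_left] at this
    exact hcT this
  rcases h2 s.1 s.2 with h3 | h3
  · right
    exact ⟨h3, fun h4 => key ⟨h3, h4⟩⟩
  · left
    exact ⟨h3, fun h4 => key ⟨h4, h3⟩⟩

theorem CB.transfer (hS : Syl ⊤ (normalizer (C : Set G))) {T : Subgroup G} (hTS : T ≤ normalizer (C : Set G))
    (hcT : c ∉ T) (h2 : ∀ s ∈ normalizer (C : Set G), s ∈ T ∨ s * c ∈ T)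
    (hinv : ∀ t ∈ T, t * t = 1 → t ∈ V₁ ⊔ V₂) : c ∉ closure {g : G | Odd (orderOf g)} := by
  haveI : Fact (Nat.Prime 2) := ⟨Nat.prime_two⟩
  have hcS : c ∈ normalizer (C : Set G) := le_normalizer (mem_Xi.1 b.cξ).1
  have h3 := relIndex_two hcS hcT h2
  obtain ⟨P, hP⟩ := (b.N2grp).exists_le_sylow
  have hPe : (P : Subgroup G) = normalizer (C : Set G) := le_antisymm (hS.2.2 P P.isPGroup' hP le_top) hP
  have hodd : ¬ 2 ∣ (normalizer (C : Set G)).index := by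
    rw [← hPe]; exact P.not_dvd_index
  have h4 := Subgroup.relIndex_mul_index hTS
  rw [h3] at h4
  have hm : Odd (normalizer (C : Set G)).index := by
    rw [← Nat.not_even_iff_odd, even_iff_two_dvd]; exact hodd
  have h5 := H38.CycTransfer.sgn_eq T c 0 _ (by rw [zero_add, pow_one, pow_two]; exact b.cc) (by
    intro g hg
    rw [pow_zero, pow_one] at hg
    have h6 : (g * c * g⁻¹) * (g * c * g⁻¹) = 1 := by
      calc (g * c * g⁻¹) * (g * c * g⁻¹) = g * (c * c) * g⁻¹ := by group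
        _ = 1 := by rw [b.cc]; group
    obtain ⟨k, hk⟩ := b.d.z_conj (hinv _ hg h6) h6 (fun e => b.c1 (conj_eq_one_iff.1 e))
    apply b.not_conj hS (g⁻¹ * k)
    calc g⁻¹ * k * z * (g⁻¹ * k)⁻¹ = g⁻¹ * (k * z * k⁻¹) * g := by group
      _ = c := by rw [hk]; group) hm (by rw [zero_add, pow_one]; exact h4.symm)
  intro hc
  have h6 : closure {g : G | Odd (orderOf g)} ≤ (H38.CycTransfer.sgn T).ker := by
    rw [closure_le]
    intro x hx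
    exact H38.CycTransfer.odd_order_mem_ker _ (Nat.coprime_two_right.2 hx)
  have h7 := h6 hc
  rw [MonoidHom.mem_ker, h5] at h7
  exact absurd h7 (by decide)

end caseB

end H55.ZN
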