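import Cfsg.Agent.Lib.H55.ZN14

set_option autoImplicit false
set_option linter.unusedSimpArgs false
set_option linter.unusedSectionVars false

/-! `c ∉ O²(G)`. -/

namespace H55.ZN

open Subgroup

variable {G : Type*} [Group G] [Finite G]

theorem PZ.card {C X V : Subgroup G} {z : G} (h : PZ C X V z) : Nat.card V = 4 := by
  classical
  obtain ⟨v, hv, hv1, hvz, hc⟩ := h.three
  have hset : (V : Set G) = {1, z, v, z * v} := by
    ext w
    simp only [SetLike.mem_coe, Set.mem_insert_iff, Set.mem_singleton_iff]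
    constructor
    · exact hc w
    · rintro (rfl | rfl | rfl | rfl)
      · exact one_mem _
      · exact h.zV
      · exact hv
      · exact mul_mem h.zV hv
  have h1 : Nat.card V = (V : Set G).ncard := (Nat.card_coe_set_eq _)
  rw [h1, hset]
  have hzz := h.V2 z h.zV
  have hvv := h.V2 v hv
  rw [Set.ncard_insert_of_notMem, Set.ncard_insert_of_notMem, Set.ncard_pair]
  · intro e; exact h.z1 (mul_eq_right.1 e.symm)
  · simp only [Set.mem_insert_iff, Set.mem_singleton_iff]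
    rintro (e | e)
    · exact hvz e.symm
    · exact hv1 (mul_eq_left.1 e.symm)
  · simp only [Set.mem_insert_iff, Set.mem_singleton_iff]
    rintro (e | e | e)
    · exact h.z1 e.symm
    · exact hv1 e.symm
    · apply hvz
      have : z * v = z * z := by rw [← e, hzz]
      exact mul_left_cancel this

section caseB

variable {C X₁ V₁ X₂ V₂ : Subgroup G} {z e₁ w₁ e₂ w₂ : G}
variable {Ch : Subgroup G → Prop} {Pr : Subgroup G → Subgroup G → Subgroup G → G → Prop} {c : G}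
variable (b : CB Ch Pr C X₁ V₁ X₂ V₂ z e₁ w₁ e₂ w₂ c)

include b

theorem CB.inter {u : G} (h1 : u ∈ V₁) (h2 : u ∈ V₂) : u = 1 ∨ u = z :=
  b.d.V₂_comm h2 (fun _ hv => b.d.s₁.pz.V2.comm h1 hv)

theorem CB.N3' {n : G} (hn : n ∈ normalizer (C : Set G)) (hnC : n ∉ C) : cj n V₂ = V₁ := by
  have h1 := b.N3 (inv_mem hn) (fun h => hnC (by simpa using inv_mem h))
  rw [← h1, cj_cj_inv]

/-- involutions of `C` commuting with `y ∈ N(C) \ C` -/
theorem CB.fixinv {y : G} (hy : y ∈ normalizer (C : Set G)) (hyC : y ∉ C) {u : G} (hu : u ∈ C) (huu : u * u = 1)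
    (hyu : y * u = u * y) : u = 1 ∨ u = z := by
  have hyu' : y * u * y⁻¹ = u := by rw [hyu]; group
  have hD : ∀ t, t ∈ V₁ ⊔ V₂ → t * t = 1 → (y * t * y⁻¹ = t ∨ y * t * y⁻¹ = t * z) → t = 1 ∨ t = z := by
    intro t ht htt e
    rcases b.d.D_inv ht htt with h1 | h1
    · have h2 : y * t * y⁻¹ ∈ V₂ := by
        rw [← b.N3 hy hyC]; exact conj_mem_cj h1
      have h3 : t ∈ V₂ := by
        rcases e with e | e
        · rwa [e] at h2
        · rw [e] at h2
          have := mul_mem h2 (inv_mem b.d.s₂.pz.zV)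
          rwa [mul_inv_cancel_right] at this
      exact b.inter h1 h3
    · have h2 : y * t * y⁻¹ ∈ V₁ := by
        rw [← b.N3' hy hyC]; exact conj_mem_cj h1
      have h3 : t ∈ V₁ := by
        rcases e with e | e
        · rwa [e] at h2
        · rw [e] at h2
          have := mul_mem h2 (inv_mem b.d.s₁.pz.zV)
          rwa [mul_inv_cancel_right] at this
      exact b.inter h3 h1
  rcases b.CD hu with h1 | h1
  · exact hD u h1 huu (Or.inl hyu')
  · exfalso
    have hcu : u * c = c * u := b.d.xi_cen b.cξ hu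
    have h2 : (u * c) * (u * c) = 1 := by
      calc (u * c) * (u * c) = u * (c * u) * c := by group
        _ = (u * u) * (c * c) := by rw [← hcu]; group
        _ = 1 := by rw [huu, b.cc, mul_one]
    have h3 : y * (u * c) * y⁻¹ = (u * c) * z := by
      calc y * (u * c) * y⁻¹ = (y * u * y⁻¹) * (y * c * y⁻¹) := by group
        _ = u * (z * c) := by rw [hyu', b.N2 hy hyC]
        _ = (u * c) * z := by
          have := b.d.s₁.cz c (mem_Xi.1 b.cξ).1
          rw [← this, ← mul_assoc]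
    have h4 := hD _ h1 h2 (Or.inr h3)
    have hc2 := b.N2 hy hyC
    rcases h4 with e | e
    · -- u = c⁻¹ = c
      have h5 : u = c := by
        have : u * c = c * c := by rw [e, b.cc]
        exact mul_right_cancel this
      rw [h5, hc2] at hyu'
      exact b.d.s₁.pz.z1 (mul_eq_right.1 hyu')
    · have h5 : u = z * c := by
        have : u * c = (z * c) * c := by rw [e, mul_assoc, b.cc, mul_one]
        exact mul_right_cancel this
      have h6 : y * z * y⁻¹ = z := b.d.norm_z hy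
      rw [h5] at hyu'
      have h7 : y * (z * c) * y⁻¹ = c := by
        calc y * (z * c) * y⁻¹ = (y * z * y⁻¹) * (y * c * y⁻¹) := by group
          _ = c := by rw [h6, hc2, ← mul_assoc, b.d.s₁.pz.V2 z b.d.s₁.pz.zV, one_mul]
      rw [h7] at hyu'
      exact b.d.s₁.pz.z1 (mul_eq_right.1 hyu'.symm)

/-- elementary abelian subgroups of `N(C)` of order at least five lie in `C` -/
theorem CB.ex2_le {E : Subgroup G} (hE : E ≤ normalizer (C : Set G)) (hE2 : Ex2 E) (hc : 4 < Nat.card E) : E ≤ C := by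
  classical
  by_contra hne
  obtain ⟨y, hy, hyC⟩ := Set.not_subset.1 hne
  have hyN := hE hy
  have hsub : (E : Set G) ⊆ {1, z, y, z * y} := by
    intro t ht
    simp only [Set.mem_insert_iff, Set.mem_singleton_iff]
    by_cases htC : t ∈ C
    · rcases b.fixinv hyN hyC htC (hE2 t ht) (hE2.comm hy ht) with e | e
      · left; exact e
      · right; left; exact e
    · have h1 := b.N4 (hE ht) htC hyN hyC
      have h2 := b.fixinv hyN hyC h1 (hE2 _ (mul_mem ht hy)) (hE2.comm hy (mul_mem ht hy))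
      have hyy := hE2 y hy
      have h3 : t = (t * y) * y := by rw [mul_assoc, hyy, mul_one]
      rcases h2 with e | e
      · right; right; left
        rw [h3, e, one_mul]
      · right; right; right
        rw [h3, e]
  have h1 : Nat.card E ≤ 4 := by
    have h2 : Nat.card E = (E : Set G).ncard := Nat.card_coe_set_eq _
    rw [h2]
    refine (Set.ncard_le_ncard hsub (Set.toFinite _)).trans ?_
    refine (Set.ncard_insert_le _ _).trans ?_
    have h3 : ({z, y, z * y} : Set G).ncard ≤ 3 := by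
      refine (Set.ncard_insert_le _ _).trans ?_
      have h4 : ({y, z * y} : Set G).ncard ≤ 2 := by
        refine (Set.ncard_insert_le _ _).trans ?_
        rw [Set.ncard_singleton]
      omega
    omega
  omega

theorem CB.cardA {V : Subgroup G} (hV : Nat.card V = 4) (hcV : c ∉ V) : 4 < Nat.card (V ⊔ zpowers c : Subgroup G) := by
  have h1 : V ≤ V ⊔ zpowers c := le_sup_left
  have h2 : Nat.card V ≤ Nat.card (V ⊔ zpowers c : Subgroup G) := Subgroup.card_le_of_le h1
  rw [hV] at h2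
  rcases h2.lt_or_eq with h3 | h3
  · exact h3
  · exfalso
    have h4 : V = V ⊔ zpowers c := Subgroup.eq_of_le_of_card_ge h1 (by rw [hV, ← h3])
    apply hcV
    rw [h4]
    exact mem_sup_right (mem_zpowers c)

theorem CB.syl : Syl ⊤ (normalizer (C : Set G)) := by
  refine ⟨le_top, b.N2grp, ?_⟩
  intro R hR hle _
  by_contra hne
  obtain ⟨y, hyR, hyN, hyn⟩ := exists_normalizing hR hle hne
  apply hyN
  have hcC := (mem_Xi.1 b.cξ).1
  have hcV₁ : c ∉ V₁ := fun h => b.c_notD (mem_sup_left h)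
  have hcV₂ : c ∉ V₂ := fun h => b.c_notD (mem_sup_right h)
  have key : ∀ V : Subgroup G, V ≤ C → Ex2 V → Nat.card V = 4 → c ∉ V → ∀ t ∈ V ⊔ zpowers c, y * t * y⁻¹ ∈ C := by
    intro V hVC hV2 hV4 hcV t ht
    have h1 : Ex2 (V ⊔ zpowers c) := by
      apply ex2_sup hV2 (ex2_zpowers b.cc)
      intro a ha k hk
      obtain ⟨k, rfl⟩ := mem_zpowers_iff.1 hk
      have : Commute a c := b.d.xi_cen b.cξ (hVC ha)
      exact this.zpow_right k
    have h2 : V ⊔ zpowers c ≤ C := sup_le hVC (by rw [zpowers_le]; exact hcC)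
    have h3 : cj y (V ⊔ zpowers c) ≤ normalizer (C : Set G) := by
      have := cj_mono (g := y) (h2.trans (le_normalizer (H := C)))
      rwa [cj_eq_iff.2 hyn] at this
    have h4 := b.ex2_le h3 (h1.cj y) (by rw [card_cj]; exact b.cardA hV4 hcV)
    exact h4 (conj_mem_cj ht)
  have k1 := key V₁ b.d.s₁.pz.VC b.d.s₁.pz.V2 b.d.s₁.pz.card hcV₁
  have k2 := key V₂ b.d.s₂.pz.VC b.d.s₂.pz.V2 b.d.s₂.pz.card hcV₂
  apply mem_normalizer_of_le
  intro t ht
  have hDC : ∀ t, t ∈ V₁ ⊔ V₂ → y * t * y⁻¹ ∈ C := by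
    intro t ht
    obtain ⟨a, ha, a', ha', rfl⟩ := b.d.D_mem ht
    have e : y * (a * a') * y⁻¹ = (y * a * y⁻¹) * (y * a' * y⁻¹) := by group
    rw [e]
    exact mul_mem (k1 a (mem_sup_left ha)) (k2 a' (mem_sup_left ha'))
  rcases b.CD ht with h1 | h1
  · exact hDC t h1
  · have h2 := hDC _ h1
    have h3 := k1 c (mem_sup_right (mem_zpowers c))
    have e : y * t * y⁻¹ = (y * (t * c) * y⁻¹) * (y * c * y⁻¹)⁻¹ := by group
    rw [e]
    exact mul_mem h2 (inv_mem h3)

/-- existence of a good element outside `C` -/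
theorem CB.exists_y {x : G} (hx : x ∈ normalizer (C : Set G)) (hxC : x ∉ C) : ∃ y ∈ normalizer (C : Set G), y ∉ C ∧
    ∃ v₁ ∈ V₁, v₁ ≠ 1 ∧ v₁ ≠ z ∧ ∃ v₂ ∈ V₂, v₂ ≠ 1 ∧ v₂ ≠ z ∧ y * v₁ * y⁻¹ = v₂ ∧ y * v₂ * y⁻¹ = v₁ * z ∧
      y * y = v₁ * v₂ := by
  obtain ⟨v₁, hv₁, hv₁1, hv₁z, -⟩ := b.d.s₁.pz.three
  have hzz : z * z = 1 := b.d.s₁.pz.V2 z b.d.s₁.pz.zV
  have hv₁C := b.d.s₁.pz.VC hv₁
  -- first: x with x v₂ x⁻¹ = v₁ z
  have step : ∃ x ∈ normalizer (C : Set G), x ∉ C ∧ x * (x * v₁ * x⁻¹) * x⁻¹ = v₁ * z := by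
    have hv₂ : x * v₁ * x⁻¹ ∈ V₂ := by rw [← b.N3 hx hxC]; exact conj_mem_cj hv₁
    have hv₂' : x * (x * v₁ * x⁻¹) * x⁻¹ ∈ V₁ := by
      have := conj_mem_cj (g := x) hv₂
      rwa [b.N3' hx hxC] at this
    have hxz : x * z * x⁻¹ = z := b.d.norm_z hx
    have hxz' : x⁻¹ * z * x = z := by
      have := b.d.norm_z (inv_mem hx); rwa [inv_inv] at this
    rcases b.d.s₁.pz.cases hv₁ hv₁1 hv₁z hv₂' with e | e | e | e
    · exact absurd (conj_eq_one_iff.1 (conj_eq_one_iff.1 e)) hv₁1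
    · exfalso
      apply hv₁z
      have : v₁ = x⁻¹ * (x⁻¹ * (x * (x * v₁ * x⁻¹) * x⁻¹) * x) * x := by group
      rw [this, e, hxz', hxz']
    · -- replace x by x v₁
      have hv₂1 : x * v₁ * x⁻¹ ≠ 1 := fun h => hv₁1 (conj_eq_one_iff.1 h)
      have hv₂z : x * v₁ * x⁻¹ ≠ z := by
        intro h
        apply hv₁z
        have : v₁ = x⁻¹ * (x * v₁ * x⁻¹) * x := by group
        rw [this, h, hxz']
      refine ⟨x * v₁, mul_mem hx (le_normalizer hv₁C), ?_, ?_⟩
      · intro h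
        apply hxC
        have := mul_mem h (inv_mem hv₁C)
        rwa [mul_inv_cancel_right] at this
      · have hvv := b.d.s₁.pz.V2 v₁ hv₁
        have hvi : v₁⁻¹ = v₁ := inv_eq_of_mul_eq_one_left hvv
        have h1 := b.d.symm.nc hv₂ hv₂1 hv₂z hv₁ hv₁1 hv₁z
        calc (x * v₁) * ((x * v₁) * v₁ * (x * v₁)⁻¹) * (x * v₁)⁻¹ = x * (v₁ * (x * v₁ * x⁻¹) * v₁⁻¹) * x⁻¹ := by group
          _ = (x * (x * v₁ * x⁻¹) * x⁻¹) * (x * z * x⁻¹) := by rw [h1]; group
          _ = v₁ * z := by rw [e, hxz]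
    · refine ⟨x, hx, hxC, ?_⟩
      rw [e, b.d.s₁.pz.V2.comm b.d.s₁.pz.zV hv₁]
  obtain ⟨x, hx, hxC, hxx⟩ := step
  have hxz : x * z * x⁻¹ = z := b.d.norm_z hx
  have hxz' : x⁻¹ * z * x = z := by
    have := b.d.norm_z (inv_mem hx); rwa [inv_inv] at this
  have hzx : z * x = x * z := (mul_inv_eq_iff_eq_mul.1 hxz).symm
  obtain ⟨v₂, hv₂e⟩ : ∃ v₂, v₂ = x * v₁ * x⁻¹ := ⟨_, rfl⟩
  rw [← hv₂e] at hxx
  have hv₂ : v₂ ∈ V₂ := by rw [hv₂e, ← b.N3 hx hxC]; exact conj_mem_cj hv₁
  have hv₂1 : v₂ ≠ 1 := fun h => hv₁1 (conj_eq_one_iff.1 (hv₂e ▸ h))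
  have hv₂z : v₂ ≠ z := by
    intro h
    apply hv₁z
    have : v₁ = x⁻¹ * (x * v₁ * x⁻¹) * x := by group
    rw [this, ← hv₂e, h, hxz']
  have hnc := b.d.nc hv₁ hv₁1 hv₁z hv₂ hv₂1 hv₂z
  have hvv₁ := b.d.s₁.pz.V2 v₁ hv₁
  have hvv₂ := b.d.s₂.pz.V2 v₂ hv₂
  have hz₁ : z * v₁ = v₁ * z := b.d.s₁.pz.V2.comm b.d.s₁.pz.zV hv₁
  have hz₂ : z * v₂ = v₂ * z := b.d.s₂.pz.V2.comm b.d.s₂.pz.zV hv₂
  have h21 : v₂ * v₁ = v₁ * v₂ * z := by
    have : v₂ * v₁ = v₁ * z * v₂ := mul_inv_eq_iff_eq_mul.1 hnc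
    rw [this, mul_assoc, hz₂, mul_assoc]
  -- x² 
  have hsC : x * x ∈ C := b.N4 hx hxC hx hxC
  have hs1 : (x * x) * v₁ * (x * x)⁻¹ = v₁ * z := by
    calc (x * x) * v₁ * (x * x)⁻¹ = x * (x * v₁ * x⁻¹) * x⁻¹ := by group
      _ = v₁ * z := by rw [← hv₂e, hxx]
  have hs2 : (x * x) * v₂ * (x * x)⁻¹ = v₂ * z := by
    calc (x * x) * v₂ * (x * x)⁻¹ = x * (x * v₂ * x⁻¹) * x⁻¹ := by group
      _ = (x * v₁ * x⁻¹) * (x * z * x⁻¹) := by rw [hxx]; group
      _ = v₂ * z := by rw [← hv₂e, hxz]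
  have hDf : ∀ t, t ∈ V₁ ⊔ V₂ → t * v₁ * t⁻¹ = v₁ * z → t * v₂ * t⁻¹ = v₂ * z → t = v₁ * v₂ ∨ t = v₁ * v₂ * z := by
    intro t ht ht1 ht2
    obtain ⟨p, hp, q, hq, rfl⟩ := b.d.D_mem ht
    have hzq : z * q = q * z := b.d.s₂.pz.V2.comm b.d.s₂.pz.zV hq
    have hzp : z * p = p * z := b.d.s₁.pz.V2.comm b.d.s₁.pz.zV hp
    have hq' : q = v₂ ∨ q = z * v₂ := by
      rcases b.d.s₂.pz.cases hv₂ hv₂1 hv₂z hq with e | e | e | e
      · exfalso
        have hpv := b.d.s₁.pz.V2.comm hp hv₁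
        rw [e, mul_one] at ht1
        apply b.d.s₁.pz.z1
        have : p * v₁ * p⁻¹ = v₁ := by rw [hpv]; group
        rw [this] at ht1
        exact mul_eq_left.1 ht1.symm
      · exfalso
        have hpv := b.d.s₁.pz.V2.comm (mul_mem hp b.d.s₁.pz.zV) hv₁
        rw [e] at ht1
        apply b.d.s₁.pz.z1
        have : (p * z) * v₁ * (p * z)⁻¹ = v₁ := by rw [hpv]; group
        rw [this] at ht1
        exact mul_eq_left.1 ht1.symm
      · left; exact e
      · right; exact e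
    have hp' : p = v₁ ∨ p = z * v₁ := by
      rcases b.d.s₁.pz.cases hv₁ hv₁1 hv₁z hp with e | e | e | e
      · exfalso
        have hqv := b.d.s₂.pz.V2.comm hq hv₂
        rw [e, one_mul] at ht2
        apply b.d.s₁.pz.z1
        have : q * v₂ * q⁻¹ = v₂ := by rw [hqv]; group
        rw [this] at ht2
        exact mul_eq_left.1 ht2.symm
      · exfalso
        have hqv := b.d.s₂.pz.V2.comm (mul_mem b.d.s₂.pz.zV hq) hv₂
        rw [e] at ht2
        apply b.d.s₁.pz.z1
        have : (z * q) * v₂ * (z * q)⁻¹ = v₂ := by rw [hqv]; group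
        rw [this] at ht2
        exact mul_eq_left.1 ht2.symm
      · left; exact e
      · right; exact e
    rcases hp' with rfl | rfl <;> rcases hq' with rfl | rfl
    · left; rfl
    · right; rw [hz₂, ← mul_assoc]
    · right; rw [hz₁, mul_assoc, hz₂, mul_assoc]
    · left
      calc z * v₁ * (z * v₂) = (z * v₁) * z * v₂ := by group
        _ = v₁ * (z * z) * v₂ := by rw [hz₁]; group
        _ = v₁ * v₂ := by rw [hzz, mul_one]
  have hcv₁ : v₁ * c = c * v₁ := b.d.xi_cen b.cξ hv₁C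
  have hcv₂ : v₂ * c = c * v₂ := b.d.xi_cen b.cξ (b.d.s₂.pz.VC hv₂)
  have hxc := b.N2 hx hxC
  have hci : c⁻¹ = c := inv_eq_of_mul_eq_one_left b.cc
  have hzc : c * z = z * c := b.d.s₁.cz c (mem_Xi.1 b.cξ).1
  have hs : x * x = v₁ * v₂ ∨ x * x = v₁ * v₂ * z := by
    rcases b.CD hsC with h1 | h1
    · exact hDf _ h1 hs1 hs2
    · exfalso
      have e1 : (x * x * c) * v₁ * (x * x * c)⁻¹ = v₁ * z := by
        calc (x * x * c) * v₁ * (x * x * c)⁻¹ = (x * x) * (c * v₁) * c⁻¹ * (x * x)⁻¹ := by group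
          _ = (x * x) * v₁ * (x * x)⁻¹ := by rw [← hcv₁]; group
          _ = v₁ * z := hs1
      have e2 : (x * x * c) * v₂ * (x * x * c)⁻¹ = v₂ * z := by
        calc (x * x * c) * v₂ * (x * x * c)⁻¹ = (x * x) * (c * v₂) * c⁻¹ * (x * x)⁻¹ := by group
          _ = (x * x) * v₂ * (x * x)⁻¹ := by rw [← hcv₂]; group
          _ = v₂ * z := hs2
      -- x (x x c) x⁻¹ = x x (z c)
      have e3 : x * (x * x * c) * x⁻¹ = (x * x * c) * z := by
        calc x * (x * x * c) * x⁻¹ = (x * x) * (x * c * x⁻¹) := by group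
          _ = (x * x * c) * z := by rw [hxc, ← hzc, ← mul_assoc]
      have e4 : x * (v₁ * v₂) * x⁻¹ = v₁ * v₂ := by
        calc x * (v₁ * v₂) * x⁻¹ = (x * v₁ * x⁻¹) * (x * v₂ * x⁻¹) := by group
          _ = v₂ * (v₁ * z) := by rw [← hv₂e, hxx]
          _ = v₁ * v₂ := by rw [← mul_assoc, h21, mul_assoc, hzz, mul_one]
      have e5 : x * (v₁ * v₂ * z) * x⁻¹ = v₁ * v₂ * z := by
        calc x * (v₁ * v₂ * z) * x⁻¹ = (x * (v₁ * v₂) * x⁻¹) * (x * z * x⁻¹) := by group
          _ = v₁ * v₂ * z := by rw [e4, hxz]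
      apply b.d.s₁.pz.z1
      rcases hDf _ h1 e1 e2 with e | e
      · rw [e, e4] at e3; exact mul_eq_left.1 e3.symm
      · rw [e, e5] at e3; exact mul_eq_left.1 e3.symm
  rcases hs with hs | hs
  · exact ⟨x, hx, hxC, v₁, hv₁, hv₁1, hv₁z, v₂, hv₂, hv₂1, hv₂z, hv₂e.symm, hxx, hs⟩
  · refine ⟨x * c, mul_mem hx (le_normalizer (mem_Xi.1 b.cξ).1), ?_, v₁, hv₁, hv₁1, hv₁z, v₂, hv₂, hv₂1, hv₂z, ?_, ?_, ?_⟩
    · intro h
      apply hxC
      have := mul_mem h (inv_mem (mem_Xi.1 b.cξ).1)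
      rwa [mul_inv_cancel_right] at this
    · calc (x * c) * v₁ * (x * c)⁻¹ = x * (c * v₁) * c⁻¹ * x⁻¹ := by group
        _ = v₂ := by rw [← hcv₁, hv₂e]; group
    · calc (x * c) * v₂ * (x * c)⁻¹ = x * (c * v₂) * c⁻¹ * x⁻¹ := by group
        _ = x * v₂ * x⁻¹ := by rw [← hcv₂]; group
        _ = v₁ * z := hxx
    · have e1 : x * c = z * c * x := mul_inv_eq_iff_eq_mul.1 hxc
      calc (x * c) * (x * c) = x * (c * (x * c)) := by group
        _ = x * (c * (z * c * x)) := by rw [← e1]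
        _ = x * ((c * z) * c * x) := by group
        _ = x * z * (c * c) * x := by rw [hzc]; group
        _ = x * (z * x) := by rw [b.cc]; group
        _ = (x * x) * z := by rw [hzx]; group
        _ = v₁ * v₂ := by rw [hs, mul_assoc, hzz, mul_one]

theorem CB.c_notH : c ∉ closure {g : G | Odd (orderOf g)} := by
  by_cases hN : ∃ x ∈ normalizer (C : Set G), x ∉ C
  · obtain ⟨x, hx, hxC⟩ := hN
    obtain ⟨y, hy, hyC, v₁, hv₁, hv₁1, hv₁z, v₂, hv₂, hv₂1, hv₂z, hy1, hy2, hyy⟩ := b.exists_y hx hxC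
    have hzz : z * z = 1 := b.d.s₁.pz.V2 z b.d.s₁.pz.zV
    have hvv₁ := b.d.s₁.pz.V2 v₁ hv₁
    have hvv₂ := b.d.s₂.pz.V2 v₂ hv₂
    have hz₁ : z * v₁ = v₁ * z := b.d.s₁.pz.V2.comm b.d.s₁.pz.zV hv₁
    have hz₂ : z * v₂ = v₂ * z := b.d.s₂.pz.V2.comm b.d.s₂.pz.zV hv₂
    have hnc := b.d.nc hv₁ hv₁1 hv₁z hv₂ hv₂1 hv₂z
    have h21 : v₂ * v₁ = v₁ * v₂ * z := by
      have : v₂ * v₁ = v₁ * z * v₂ := mul_inv_eq_iff_eq_mul.1 hnc
      rw [this, mul_assoc, hz₂, mul_assoc]
    have hyz : y * z * y⁻¹ = z := b.d.norm_z hy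
    have hyz' : y * z = z * y := mul_inv_eq_iff_eq_mul.1 hyz
    have hyD : y ∈ normalizer ((V₁ ⊔ V₂ : Subgroup G) : Set G) := by
      rw [← cj_eq_iff, cj_sup, b.N3 hy hyC, b.N3' hy hyC, sup_comm]
    have hyyD : y * y ∈ V₁ ⊔ V₂ := by
      rw [hyy]; exact mul_mem (mem_sup_left hv₁) (mem_sup_right hv₂)
    set T := (zpowers y) ⊔ (V₁ ⊔ V₂) with hT
    have hTmem : ∀ t ∈ T, t ∈ V₁ ⊔ V₂ ∨ ∃ p ∈ V₁ ⊔ V₂, t = p * y := by
      intro t ht
      have hzn : zpowers y ≤ normalizer ((V₁ ⊔ V₂ : Subgroup G) : Set G) := by rw [zpowers_le]; exact hyD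
      obtain ⟨q, hq, p, hp, rfl⟩ := mem_sup_norm hzn ht
      obtain ⟨k, rfl⟩ := mem_zpowers_iff.1 hq
      have h1 : ∀ m : ℤ, (y * y) ^ m ∈ V₁ ⊔ V₂ := fun m => zpow_mem hyyD m
      have h2 : ∀ m : ℤ, y ^ (m + m) = (y * y) ^ m := by
        intro m
        rw [zpow_add, ← (Commute.refl y).mul_zpow]
      rcases Int.even_or_odd k with ⟨m, rfl⟩ | ⟨m, rfl⟩
      · left
        rw [h2]; exact mul_mem (h1 m) hp
      · right
        refine ⟨(y * y) ^ m * (y * p * y⁻¹), mul_mem (h1 m) (conj_mem_of_norm hyD hp), ?_⟩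
        rw [two_mul, zpow_add, zpow_one, h2]; group
    have hDT : V₁ ⊔ V₂ ≤ T := le_sup_right
    have hyT : y ∈ T := mem_sup_left (mem_zpowers y)
    apply b.transfer b.syl (T := T)
    · apply sup_le
      · rw [zpowers_le]; exact hy
      · exact b.d.D_le.trans le_normalizer
    · intro hc
      rcases hTmem c hc with h1 | ⟨p, hp, e⟩
      · exact b.c_notD h1
      · apply hyC
        have : y = p⁻¹ * c := by rw [e]; group
        rw [this]; exact mul_mem (inv_mem (b.d.D_le hp)) (mem_Xi.1 b.cξ).1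
    · intro s hs
      by_cases hsC : s ∈ C
      · rcases b.CD hsC with h1 | h1
        · left; exact hDT h1
        · right; exact hDT h1
      · have h1 := b.N4 hs hsC (inv_mem hy) (fun h => hyC (by simpa using inv_mem h))
        rcases b.CD h1 with h2 | h2
        · left
          have := mul_mem (hDT h2) hyT
          rwa [inv_mul_cancel_right] at this
        · right
          have h3 := b.N2 hy hyC
          have hzc : c * z = z * c := b.d.s₁.cz c (mem_Xi.1 b.cξ).1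
          have e : s * c = (s * y⁻¹ * c) * z * y := by
            calc s * c = (s * y⁻¹) * (y * c * y⁻¹) * y := by group
              _ = (s * y⁻¹ * c) * z * y := by rw [h3, ← hzc]; group
          rw [e]
          exact mul_mem (mul_mem (hDT h2) (hDT (mem_sup_left b.d.s₁.pz.zV))) hyT
    · intro t ht htt
      rcases hTmem t ht with h1 | ⟨p, hp, e⟩
      · exact h1
      · exfalso
        have hyv1 : y * v₁ = v₂ * y := mul_inv_eq_iff_eq_mul.1 hy1
        have hyv2 : y * v₂ = v₁ * z * y := mul_inv_eq_iff_eq_mul.1 hy2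
        -- normal form of p
        have hform : ∃ ε, (ε = 1 ∨ ε = z) ∧ (p = ε ∨ p = ε * v₁ ∨ p = ε * v₂ ∨ p = ε * (v₁ * v₂)) := by
          obtain ⟨a, ha, a', ha', rfl⟩ := b.d.D_mem hp
          rcases b.d.s₁.pz.cases hv₁ hv₁1 hv₁z ha with rfl | rfl | rfl | rfl <;>
            rcases b.d.s₂.pz.cases hv₂ hv₂1 hv₂z ha' with rfl | rfl | rfl | rfl
          · exact ⟨1, Or.inl rfl, Or.inl (by simp)⟩
          · exact ⟨a', Or.inr rfl, Or.inl (by simp)⟩
          · exact ⟨1, Or.inl rfl, Or.inr (Or.inr (Or.inl (by simp)))⟩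
          · exact ⟨z, Or.inr rfl, Or.inr (Or.inr (Or.inl (by simp)))⟩
          · exact ⟨a, Or.inr rfl, Or.inl (by simp)⟩
          · exact ⟨1, Or.inl rfl, Or.inl hzz⟩
          · exact ⟨a, Or.inr rfl, Or.inr (Or.inr (Or.inl rfl))⟩
          · refine ⟨1, Or.inl rfl, Or.inr (Or.inr (Or.inl ?_))⟩
            rw [← mul_assoc, hzz]
          · exact ⟨1, Or.inl rfl, Or.inr (Or.inl (by simp))⟩
          · exact ⟨a', Or.inr rfl, Or.inr (Or.inl hz₁.symm)⟩
          · exact ⟨1, Or.inl rfl, Or.inr (Or.inr (Or.inr (by simp)))⟩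
          · refine ⟨z, Or.inr rfl, Or.inr (Or.inr (Or.inr ?_))⟩
            rw [← mul_assoc, ← hz₁, mul_assoc]
          · exact ⟨z, Or.inr rfl, Or.inr (Or.inl (by simp))⟩
          · refine ⟨1, Or.inl rfl, Or.inr (Or.inl ?_)⟩
            rw [hz₁, mul_assoc, hzz, mul_one, one_mul]
          · exact ⟨z, Or.inr rfl, Or.inr (Or.inr (Or.inr (by simp [mul_assoc])))⟩
          · refine ⟨1, Or.inl rfl, Or.inr (Or.inr (Or.inr ?_))⟩
            rw [hz₁, one_mul]
            calc v₁ * z * (z * v₂) = v₁ * (z * z) * v₂ := by group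
              _ = v₁ * v₂ := by rw [hzz, mul_one]
        obtain ⟨ε, hε, hp'⟩ := hform
        have hεε : ε * ε = 1 := by rcases hε with rfl | rfl; · simp
                                   · exact hzz
        have hεc : ∀ t : G, t * z = z * t → t * ε = ε * t := by
          intro t ht
          rcases hε with rfl | rfl
          · simp
          · exact ht
        have hsq : ∀ t : G, t * z = z * t → (ε * t) * (ε * t) = t * t := by
          intro t ht
          have := hεc t ht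
          calc (ε * t) * (ε * t) = ε * (t * ε) * t := by group
            _ = (ε * ε) * (t * t) := by rw [this]; group
            _ = t * t := by rw [hεε, one_mul]
        have hne12 : v₁ * v₂ ≠ 1 := by
          intro e1
          have : v₁ = v₂ := by
            have : v₁ * v₂ = v₂ * v₂ := by rw [e1, hvv₂]
            exact mul_right_cancel this
          rw [← this] at h21
          have h3 : v₁ * v₁ * z = v₁ * v₁ := h21.symm
          exact b.d.s₁.pz.z1 (mul_eq_left.1 h3)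
        have hne12z : v₁ * v₂ ≠ z := by
          intro e1
          rw [e1, hzz] at h21
          apply hne12
          have h3 : v₂ * v₁ = 1 := h21
          have h4 : v₁ = v₂ := by
            have : v₂ * v₁ = v₂ * v₂ := by rw [h3, hvv₂]
            exact mul_left_cancel this
          rw [h4, hvv₂]
        have hz1 := b.d.s₁.pz.z1
        have c1 : v₁ * z = z * v₁ := hz₁.symm
        have c2 : v₂ * z = z * v₂ := hz₂.symm
        rcases hp' with e1 | e1 | e1 | e1
        · rw [e, e1, hsq y hyz', hyy] at htt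
          exact hne12 htt
        · rw [e, e1, mul_assoc ε v₁ y, hsq (v₁ * y) (by rw [mul_assoc, hyz', ← mul_assoc, c1, mul_assoc])] at htt
          apply hz1
          rw [← htt]
          calc z = v₁ * (v₂ * v₁) * v₂ := by
                rw [h21]
                calc z = (v₁ * v₁) * (v₂ * z * v₂) := by rw [hvv₁, c2, mul_assoc, hvv₂]; simp
                  _ = v₁ * (v₁ * v₂ * z) * v₂ := by group
            _ = (v₁ * v₂) * (v₁ * v₂) := by group
            _ = v₁ * v₂ * (y * y) := by rw [hyy]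
            _ = v₁ * (v₂ * y) * y := by group
            _ = v₁ * y * (v₁ * y) := by rw [← hyv1]; group
        · rw [e, e1, mul_assoc ε v₂ y, hsq (v₂ * y) (by rw [mul_assoc, hyz', ← mul_assoc, c2, mul_assoc])] at htt
          apply hz1
          rw [← htt]
          calc z = v₂ * ((v₁ * z) * v₁) * v₂ := by
                rw [c1, mul_assoc z, hvv₁, mul_one, c2, mul_assoc, hvv₂, mul_one]
            _ = v₂ * (v₁ * z) * (v₁ * v₂) := by group
            _ = v₂ * (v₁ * z) * (y * y) := by rw [hyy]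
            _ = v₂ * (v₁ * z * y) * y := by group
            _ = v₂ * y * (v₂ * y) := by rw [← hyv2]; group
        · rw [e, e1, mul_assoc ε (v₁ * v₂) y, hsq (v₁ * v₂ * y) (by
            rw [mul_assoc, hyz', ← mul_assoc, mul_assoc v₁, c2, ← mul_assoc, c1]; group)] at htt
          apply hne12z
          have h3 : (v₁ * v₂ * y) * (v₁ * v₂ * y) = z * (v₁ * v₂) := by
            calc (v₁ * v₂ * y) * (v₁ * v₂ * y) = v₁ * v₂ * (y * v₁) * v₂ * y := by group
              _ = v₁ * (v₂ * v₂) * (y * v₂) * y := by rw [hyv1]; group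
              _ = v₁ * (v₁ * z) * (y * y) := by rw [hvv₂, hyv2]; group
              _ = z * (v₁ * v₂) := by rw [hyy, ← mul_assoc v₁ v₁ z, hvv₁, one_mul]
          rw [h3] at htt
          have : z * (v₁ * v₂) = z * z := by rw [htt, hzz]
          exact mul_left_cancel this
  · push Not at hN
    have hNC : normalizer (C : Set G) = C := le_antisymm hN le_normalizer
    apply b.transfer b.syl (T := V₁ ⊔ V₂) (b.d.D_le.trans le_normalizer) b.c_notD
    · intro s hs
      exact b.CD (hN s hs)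
    · intro t ht _; exact ht

end caseB

end H55.ZN
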