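import Cfsg.Agent.Lib.H55.ZN15
import Cfsg.Agent.Lib.H98.DicksonIdent
import Cfsg.Prelude.Def_CaseTheorems

set_option autoImplicit false
set_option linter.unusedSimpArgs false
set_option linter.unusedSectionVars false

/-! The maximal 2-local subgroups of `H = O²(G)`. -/

namespace H55.ZN

open Subgroup

variable {G : Type*} [Group G] [Finite G]

structure Fin1 (H V D : Subgroup G) (z e : G) : Prop where
  VH : V ≤ H
  DH : D ≤ H
  VD : V ≤ D
  DN : D ≤ normalizer (V : Set G)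
  V2 : Ex2 V
  zV : z ∈ V
  z1 : z ≠ 1
  eH : e ∈ H
  eN : e ∈ normalizer (V : Set G)
  e3 : e ^ 3 = 1
  ez : e * z ≠ z * e
  cases : ∀ v ∈ V, v = 1 ∨ v = z ∨ v = e * z * e⁻¹ ∨ v = e * (e * z * e⁻¹) * e⁻¹
  st : ∀ x ∈ H, x ∈ normalizer (V : Set G) → x * z = z * x → x ∈ D
  Dz : ∀ x ∈ D, x * z = z * x
  cen : ∀ x ∈ H, (∀ v ∈ V, x * v = v * x) → x ∈ V
  fpf : ∀ v ∈ V, e * v = v * e → v = 1
  D8 : Nat.card D = 8

variable {H V D : Subgroup G} {z e : G} (f : Fin1 H V D z e)

include f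

def MM (H V : Subgroup G) : Subgroup H := (normalizer (V : Set G)).subgroupOf H

omit f in
theorem mem_MM {H V : Subgroup G} {x : H} : x ∈ MM H V ↔ (x : G) ∈ normalizer (V : Set G) := by
  rw [MM, mem_subgroupOf]

/-- transitivity -/
theorem Fin1.tr {v : G} (hv : v ∈ V) (hv1 : v ≠ 1) : ∃ x ∈ H, x ∈ normalizer (V : Set G) ∧ x * z * x⁻¹ = v := by
  rcases f.cases v hv with h | h | h | h
  · exact absurd h hv1
  · exact ⟨1, one_mem _, one_mem _, by rw [h]; group⟩
  · exact ⟨e, f.eH, f.eN, h.symm⟩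
  · exact ⟨e * e, mul_mem f.eH f.eH, mul_mem f.eN f.eN, by rw [h]; group⟩

theorem Fin1.dec {x : G} (hx : x ∈ H) (hxN : x ∈ normalizer (V : Set G)) :
    x ∈ D ∨ e⁻¹ * x ∈ D ∨ (e * e)⁻¹ * x ∈ D := by
  have h1 : x * z * x⁻¹ ∈ V := conj_mem_of_norm hxN f.zV
  rcases f.cases _ h1 with h | h | h | h
  · exact absurd (conj_eq_one_iff.1 h) f.z1
  · left
    exact f.st x hx hxN (mul_inv_eq_iff_eq_mul.1 h)
  · right; left
    apply f.st _ (mul_mem (inv_mem f.eH) hx) (mul_mem (inv_mem f.eN) hxN)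
    calc e⁻¹ * x * z = e⁻¹ * (x * z * x⁻¹) * x := by group
      _ = z * (e⁻¹ * x) := by rw [h]; group
  · right; right
    apply f.st _ (mul_mem (inv_mem (mul_mem f.eH f.eH)) hx) (mul_mem (inv_mem (mul_mem f.eN f.eN)) hxN)
    calc (e * e)⁻¹ * x * z = (e * e)⁻¹ * (x * z * x⁻¹) * x := by group
      _ = z * ((e * e)⁻¹ * x) := by rw [h]; group

theorem Fin1.e_notD : e ∉ D := fun h => f.ez (f.Dz e h)

theorem Fin1.ee_notD : e * e ∉ D := by
  intro h
  apply f.e_notD
  have h1 : e = (e * e) * (e * e) := by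
    have := f.e3
    rw [pow_succ, pow_two] at this
    calc e = e * e * e * e := by rw [this, one_mul]
      _ = (e * e) * (e * e) := by group
  rw [h1]; exact mul_mem h h

theorem Fin1.card : Nat.card (MM H V) = 24 := by
  classical
  let g : Fin 3 × D → MM H V := fun p =>
    ⟨⟨e ^ (p.1 : ℕ) * p.2.1, mul_mem (pow_mem f.eH _) (f.DH p.2.2)⟩,
      mem_MM.2 (mul_mem (pow_mem f.eN _) (f.DN p.2.2))⟩
  have hg : Function.Bijective g := by
    constructor
    · rintro ⟨i, a⟩ ⟨j, b⟩ hij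
      have h1 : e ^ (i : ℕ) * a.1 = e ^ (j : ℕ) * b.1 := congrArg (fun x : MM H V => ((x : H) : G)) hij
      have h3 := f.e3
      have hne := f.e_notD
      have hne2 := f.ee_notD
      have key : ∀ k : ℕ, k < 3 → e ^ k ∈ D → k = 0 := by
        intro k hk h
        interval_cases k
        · rfl
        · rw [pow_one] at h; exact absurd h hne
        · rw [pow_two] at h; exact absurd h hne2
      have h4 : ∀ (i j : Fin 3) (a b : D), e ^ (i : ℕ) * a.1 = e ^ (j : ℕ) * b.1 → (j : ℕ) ≤ i → i = j := by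
        intro i j a b h hle
        have h5 : e ^ ((i : ℕ) - j) ∈ D := by
          have h6 : e ^ ((i : ℕ) - j) = b.1 * a.1⁻¹ := by
            have h7 : e ^ (i : ℕ) = e ^ (j : ℕ) * e ^ ((i : ℕ) - j) := by
              rw [← pow_add]; congr 1; omega
            rw [h7, mul_assoc] at h
            have h8 := mul_left_cancel h
            rw [← h8]; group
          rw [h6]; exact mul_mem b.2 (inv_mem a.2)
        have h6 := key _ (by omega) h5
        apply Fin.ext; omega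
      have h5 : i = j := by
        rcases le_total (j : ℕ) (i : ℕ) with hle | hle
        · exact h4 i j a b h1 hle
        · exact (h4 j i b a h1.symm hle).symm
      subst h5
      have h6 := mul_left_cancel h1
      rw [Subtype.ext h6]
    · rintro ⟨x, hx⟩
      rw [mem_MM] at hx
      rcases f.dec x.2 hx with h | h | h
      · refine ⟨(0, ⟨_, h⟩), Subtype.ext (Subtype.ext ?_)⟩
        change e ^ 0 * x.1 = x.1
        simp
      · refine ⟨(1, ⟨_, h⟩), Subtype.ext (Subtype.ext ?_)⟩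
        change e ^ 1 * (e⁻¹ * x.1) = x.1
        group
      · refine ⟨(2, ⟨_, h⟩), Subtype.ext (Subtype.ext ?_)⟩
        change e ^ 2 * ((e * e)⁻¹ * x.1) = x.1
        rw [pow_two]; group
  have h1 := Nat.card_congr (Equiv.ofBijective g hg)
  rw [← h1, Nat.card_prod, f.D8]
  simp

theorem Fin1.S4 : Nonempty (MM H V ≃* Equiv.Perm (Fin 4)) := by
  apply H98.DicksonIdent.S4_of f.card
  intro N hN
  have eM : (⟨⟨e, f.eH⟩, mem_MM.2 f.eN⟩ : MM H V) ∈ (⊤ : Subgroup (MM H V)) := mem_top _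
  constructor
  · intro h2
    -- N = {1, n}
    obtain ⟨a, b, hab, huniv⟩ := Nat.card_eq_two_iff.1 h2
    obtain ⟨n, hn1⟩ : ∃ n : N, n ≠ 1 := by
      by_contra hcon
      push Not at hcon
      exact hab ((hcon a).trans (hcon b).symm)
    have hall : ∀ x : N, x = 1 ∨ x = n := by
      intro x
      by_contra hcon
      push Not at hcon
      have h3 : ({x, 1, n} : Set N).ncard = 3 := by
        rw [Set.ncard_insert_of_notMem, Set.ncard_pair hn1.symm]
        simp only [Set.mem_insert_iff, Set.mem_singleton_iff, not_or]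
        exact hcon
      have h4 := Set.ncard_le_ncard (Set.subset_univ ({x, 1, n} : Set N)) (Set.toFinite _)
      rw [h3, Set.ncard_univ, h2] at h4
      omega
    have hcen : ∀ y : MM H V, y * n.1 * y⁻¹ = n.1 := by
      intro y
      have h3 := hN.conj_mem n.1 n.2 y
      rcases hall ⟨_, h3⟩ with h | h
      · exfalso
        have h4 : y * n.1 * y⁻¹ = 1 := congrArg Subtype.val h
        exact hn1 (Subtype.ext (conj_eq_one_iff.1 h4))
      · exact congrArg Subtype.val h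
    have hnV : ((n.1 : H) : G) ∈ V := by
      apply f.cen _ (n.1 : H).2
      intro v hv
      have h3 := hcen ⟨⟨v, f.VH hv⟩, mem_MM.2 (le_normalizer hv)⟩
      have h4 : v * ((n.1 : H) : G) * v⁻¹ = ((n.1 : H) : G) := congrArg (fun x : MM H V => ((x : H) : G)) h3
      exact (mul_inv_eq_iff_eq_mul.1 h4).symm
    have h3 := hcen ⟨⟨e, f.eH⟩, mem_MM.2 f.eN⟩
    have h4 : e * ((n.1 : H) : G) * e⁻¹ = ((n.1 : H) : G) := congrArg (fun x : MM H V => ((x : H) : G)) h3
    have h5 := f.fpf _ hnV (mul_inv_eq_iff_eq_mul.1 h4)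
    apply hn1
    exact Subtype.ext (Subtype.ext (Subtype.ext h5))
  · intro h3
    -- elements of N in V are trivial
    have hNV : ∀ n ∈ N, ((n : H) : G) ∈ V → n = 1 := by
      intro n hn hnV
      have h4 : n * n = 1 := Subtype.ext (Subtype.ext (f.V2 _ hnV))
      have h5 : orderOf (⟨n, hn⟩ : N) ∣ 3 := h3 ▸ orderOf_dvd_natCard _
      have h6 : orderOf (⟨n, hn⟩ : N) ∣ 2 := orderOf_dvd_of_pow_eq_one (by
        rw [pow_two]; exact Subtype.ext h4)
      have h7 : orderOf (⟨n, hn⟩ : N) = 1 := Nat.eq_one_of_dvd_coprimes (by norm_num : Nat.Coprime 3 2) h5 h6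
      exact congrArg Subtype.val (orderOf_eq_one_iff.1 h7)
    have hall : ∀ n ∈ N, n = 1 := by
      intro n hn
      apply hNV n hn
      apply f.cen _ (n : H).2
      intro v hv
      have hvM : (v : G) ∈ normalizer (V : Set G) := le_normalizer hv
      set v' : MM H V := ⟨⟨v, f.VH hv⟩, mem_MM.2 hvM⟩ with hv'
      have h4 : n * (v' * n⁻¹ * v'⁻¹) ∈ N := N.mul_mem hn (hN.conj_mem _ (inv_mem hn) v')
      have h5 : (((n * (v' * n⁻¹ * v'⁻¹) : MM H V) : H) : G) ∈ V := by
        have e1 : (((n * (v' * n⁻¹ * v'⁻¹) : MM H V) : H) : G) =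
            (((n : H) : G) * v * ((n : H) : G)⁻¹) * v⁻¹ := by
          change ((n : H) : G) * (v * ((n : H) : G)⁻¹ * v⁻¹) = _
          group
        rw [e1]
        exact mul_mem (conj_mem_of_norm (mem_MM.1 n.2) hv) (inv_mem hv)
      have h6 := hNV _ h4 h5
      have h7 : ((n : H) : G) * (v * ((n : H) : G)⁻¹ * v⁻¹) = 1 := congrArg (fun x : MM H V => ((x : H) : G)) h6
      have h8 : ((n : H) : G) * v * ((n : H) : G)⁻¹ = v := by
        calc ((n : H) : G) * v * ((n : H) : G)⁻¹ = (((n : H) : G) * (v * ((n : H) : G)⁻¹ * v⁻¹)) * v := by group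
          _ = v := by rw [h7, one_mul]
      exact mul_inv_eq_iff_eq_mul.1 h8
    have hbot : N = ⊥ := (Subgroup.eq_bot_iff_forall N).2 hall
    rw [hbot, Subgroup.card_bot] at h3
    exact absurd h3 (by norm_num)

theorem Fin1.twoLocal : Cfsg.IsTwoLocal (MM H V) := by
  refine ⟨V.subgroupOf H, f.V2.isPGroup.comap_subtype, ?_, ?_⟩
  · intro h
    have h1 : (⟨z, f.VH f.zV⟩ : H) ∈ V.subgroupOf H := f.zV
    rw [h, mem_bot] at h1
    exact f.z1 (congrArg Subtype.val h1)
  · ext x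
    rw [mem_MM]
    constructor
    · intro h
      apply mem_normalizer_of_le
      intro y hy
      have h1 : (x : G) * (y : G) * (x : G)⁻¹ ∈ V := conj_mem_of_norm h hy
      exact h1
    · intro h
      apply mem_normalizer_of_le
      intro y hy
      have h1 := conj_mem_of_norm h (show (⟨y, f.VH hy⟩ : H) ∈ V.subgroupOf H from hy)
      exact h1

theorem Fin1.max : Cfsg.IsMaximalTwoLocal (MM H V) := by
  refine ⟨f.twoLocal, ?_⟩
  rintro N ⟨U, hU2, hU1, rfl⟩ hle
  -- transfer U to G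
  set U' := U.map H.subtype with hU'
  have hU'H : U' ≤ H := by rintro _ ⟨y, -, rfl⟩; exact y.2
  have hU'2 : IsPGroup 2 U' := hU2.map _
  have hU'1 : U' ≠ ⊥ := by
    intro h
    rw [hU', Subgroup.map_eq_bot_iff_of_injective _ (Subgroup.subtype_injective H)] at h
    exact hU1 h
  have hnorm : ∀ x ∈ H, x ∈ normalizer (V : Set G) → ∀ u ∈ U', x * u * x⁻¹ ∈ U' := by
    rintro x hx hxN _ ⟨u, hu, rfl⟩
    have h1 := hle (show (⟨x, hx⟩ : H) ∈ MM H V from mem_MM.2 hxN)
    exact ⟨_, conj_mem_of_norm h1 hu, rfl⟩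
  have hVU : V ≤ normalizer (U' : Set G) := by
    intro v hv
    apply mem_normalizer_of_le
    exact hnorm v (f.VH hv) (le_normalizer hv)
  obtain ⟨u, hu, hu1, hfix⟩ := exists_fix f.V2.isPGroup hU'2 hU'1 hVU
  have huV : u ∈ V := f.cen u (hU'H hu) (fun v hv => (hfix v hv).symm)
  obtain ⟨x, hxH, hxN, hxu⟩ := f.tr huV hu1
  have hzU : z ∈ U' := by
    have := hnorm _ (inv_mem hxH) (inv_mem hxN) u hu
    have e1 : x⁻¹ * u * x⁻¹⁻¹ = z := by rw [← hxu]; group
    rwa [e1] at this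
  have hVU' : V ≤ U' := by
    intro v hv
    by_cases hv1 : v = 1
    · rw [hv1]; exact one_mem _
    · obtain ⟨y, hyH, hyN, rfl⟩ := f.tr hv hv1
      exact hnorm y hyH hyN z hzU
  have hUV : U' ≤ V := by
    by_contra hne
    obtain ⟨y, hyU, hyV, hyN⟩ := exists_normalizing hU'2 hVU' hne
    have hP2 : IsPGroup 2 (U' ⊓ normalizer (V : Set G) : Subgroup G) := hU'2.to_le inf_le_left
    have hV1 : V ≠ ⊥ := by
      intro h
      have := f.zV
      rw [h, mem_bot] at this
      exact f.z1 this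
    obtain ⟨v, hv, hv1, hvf⟩ := exists_fix hP2 f.V2.isPGroup hV1 inf_le_right
    apply hyV
    apply f.cen y (hU'H hyU)
    intro w hw
    by_cases hw1 : w = 1
    · rw [hw1]; group
    obtain ⟨a, haH, haN, ha⟩ := f.tr hv hv1
    obtain ⟨b, hbH, hbN, hb⟩ := f.tr hw hw1
    have hg : w = (b * a⁻¹) * v * (b * a⁻¹)⁻¹ := by rw [← ha, ← hb]; group
    have hgH : b * a⁻¹ ∈ H := mul_mem hbH (inv_mem haH)
    have hgN : b * a⁻¹ ∈ normalizer (V : Set G) := mul_mem hbN (inv_mem haN)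
    have h1 : (b * a⁻¹)⁻¹ * y * (b * a⁻¹) ∈ U' ⊓ normalizer (V : Set G) := by
      refine mem_inf.2 ⟨?_, mul_mem (mul_mem (inv_mem hgN) hyN) hgN⟩
      have := hnorm _ (inv_mem hgH) (inv_mem hgN) y hyU
      rwa [inv_inv] at this
    have h2 := hvf _ h1
    rw [hg]
    calc y * ((b * a⁻¹) * v * (b * a⁻¹)⁻¹)
        = (b * a⁻¹) * (((b * a⁻¹)⁻¹ * y * (b * a⁻¹)) * v) * (b * a⁻¹)⁻¹ := by group
      _ = (b * a⁻¹) * (v * ((b * a⁻¹)⁻¹ * y * (b * a⁻¹))) * (b * a⁻¹)⁻¹ := by rw [h2]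
      _ = (b * a⁻¹) * v * (b * a⁻¹)⁻¹ * y := by group
  have hUe : U' = V := le_antisymm hUV hVU'
  ext x
  rw [mem_MM]
  constructor
  · intro hx
    apply mem_normalizer_of_le
    intro y hy
    rw [← hUe] at hy ⊢
    obtain ⟨u', hu', rfl⟩ := hy
    exact ⟨_, conj_mem_of_norm hx hu', rfl⟩
  · intro hx
    exact hle (mem_MM.2 hx)

end H55.ZN
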