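import Cfsg.Agent.Lib.H55.ZN16

set_option autoImplicit false
set_option linter.unusedSimpArgs false
set_option linter.unusedSectionVars false

/-! Final assembly from the geometry. -/

namespace H55.ZN

open Subgroup

variable {G : Type*} [Group G] [Finite G]

variable {C X₁ V₁ X₂ V₂ : Subgroup G} {z e₁ w₁ e₂ w₂ : G}

theorem Side.V_le {C X V V' H : Subgroup G} {z e w : G} (s : Side C X V V' z e w)
    (hH : H = closure {g : G | Odd (orderOf g)}) : e ∈ H ∧ V ≤ H := by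
  have heo : Odd (orderOf e) := by
    have h1 : orderOf e ∣ 3 := orderOf_dvd_of_pow_eq_one s.e3
    exact Odd.of_dvd_nat (by decide) h1
  have heH : e ∈ H := by rw [hH]; exact Subgroup.subset_closure heo
  refine ⟨heH, fun v hv => ?_⟩
  have hvv := s.pz.V2 v hv
  have hvi : v⁻¹ = v := inv_eq_of_mul_eq_one_left hvv
  have h1 : v * e * v⁻¹ ∈ H := by
    rw [hH]
    apply Subgroup.subset_closure
    have : orderOf (v * e * v⁻¹) = orderOf e := by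
      have := orderOf_injective (MulAut.conj v).toMonoidHom (MulAut.conj v).injective e
      simpa using this
    change Odd (orderOf (v * e * v⁻¹))
    rw [this]; exact heo
  have h2 : v * (e * v * e⁻¹) ∈ H := by
    have e1 : v * (e * v * e⁻¹) = (v * e * v⁻¹) * e⁻¹ := by rw [hvi]; group
    rw [e1]; exact mul_mem h1 (inv_mem heH)
  have h3 := s.prod hv
  have h4 : e * (e * v * e⁻¹) * e⁻¹ = v * (e * v * e⁻¹) := by
    have hev : e * v * e⁻¹ ∈ V := conj_mem_of_norm (s.pz.XV s.eX) hv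
    calc e * (e * v * e⁻¹) * e⁻¹ = (e * (e * v * e⁻¹) * e⁻¹) * (v * v) := by rw [hvv, mul_one]
      _ = ((e * (e * v * e⁻¹) * e⁻¹) * v) * v := by group
      _ = v * (e * v * e⁻¹) := by rw [h3, s.pz.V2.comm hev hv]
  rw [← h4] at h2
  have h5 := mul_mem (mul_mem (inv_mem (mul_mem heH heH)) h2) (mul_mem heH heH)
  have e1 : (e * e)⁻¹ * (e * (e * v * e⁻¹) * e⁻¹) * (e * e) = v := by group
  rwa [e1] at h5

theorem Duo.inter (d : Duo C X₁ V₁ X₂ V₂ z e₁ w₁ e₂ w₂) {u : G} (h1 : u ∈ V₁) (h2 : u ∈ V₂) : u = 1 ∨ u = z :=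
  d.V₂_comm h2 (fun _ hv => d.s₁.pz.V2.comm h1 hv)

theorem Duo.D8 (d : Duo C X₁ V₁ X₂ V₂ z e₁ w₁ e₂ w₂) : Nat.card (V₁ ⊔ V₂ : Subgroup G) = 8 := by
  have h1 := H3.CardSup.card_sup_mul_card_inf V₁ V₂ ((d.s₁.pz.VC.trans d.s₂.pz.CX).trans d.s₂.pz.XV)
  rw [d.s₁.pz.card, d.s₂.pz.card] at h1
  have hzz := d.s₁.pz.V2 z d.s₁.pz.zV
  have h2 : (V₁ ⊓ V₂ : Subgroup G) = zpowers z := by
    apply le_antisymm
    · intro u hu
      obtain ⟨hu1, hu2⟩ := mem_inf.1 hu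
      rcases d.inter hu1 hu2 with h | h
      · rw [h]; exact one_mem _
      · rw [h]; exact mem_zpowers z
    · rw [zpowers_le]; exact mem_inf.2 ⟨d.s₁.pz.zV, d.s₂.pz.zV⟩
  have h3 : Nat.card (V₁ ⊓ V₂ : Subgroup G) = 2 := by
    rw [h2, Nat.card_zpowers]
    exact orderOf_eq_prime (by rw [pow_two]; exact hzz) d.s₁.pz.z1
  rw [h3] at h1
  omega

theorem Duo.fin1 (d : Duo C X₁ V₁ X₂ V₂ z e₁ w₁ e₂ w₂) {H : Subgroup G}
    (hH : H = closure {g : G | Odd (orderOf g)})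
    (st : ∀ x, x ∈ normalizer (V₁ : Set G) → x * z = z * x → x ∈ C)
    (hCH : ∀ x ∈ C, x ∈ H → x ∈ V₁ ⊔ V₂) : Fin1 H V₁ (V₁ ⊔ V₂) z e₁ := by
  have hpz := d.s₁.pz
  obtain ⟨a1, a2, a3, a4⟩ := d.s₁.act
  have hev : e₁ * z * e₁⁻¹ ∈ V₁ := conj_mem_of_norm (hpz.XV d.s₁.eX) hpz.zV
  refine ⟨(d.s₁.V_le hH).2, sup_le (d.s₁.V_le hH).2 (d.s₂.V_le hH).2, le_sup_left,
    (d.D_le.trans hpz.CX).trans hpz.XV, hpz.V2, hpz.zV, hpz.z1, (d.s₁.V_le hH).1, hpz.XV d.s₁.eX, d.s₁.e3, d.s₁.ez,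
    ?_, fun x hx hxN hxz => hCH x (st x hxN hxz) hx, fun x hx => d.s₁.cz x (d.D_le hx), ?_,
    fun v hv h => d.s₁.fpf hv h, d.D8⟩
  · intro v hv
    rw [a1]
    exact hpz.cases hev a3 a4 hv
  · intro x hx hxV
    have hxN : x ∈ normalizer (V₁ : Set G) := by
      apply mem_normalizer_of_le
      intro v hv
      rw [hxV v hv]
      have e : v * x * x⁻¹ = v := by group
      rw [e]; exact hv
    have h1 := hCH x (st x hxN (hxV z hpz.zV)) hx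
    obtain ⟨p, hp, q, hq, rfl⟩ := d.D_mem h1
    have h2 : ∀ u ∈ V₁, q * u = u * q := by
      intro u hu
      have h3 := hxV u hu
      have h4 := hpz.V2.comm hp hu
      rw [mul_assoc, ← mul_assoc u, ← h4, mul_assoc] at h3
      exact mul_left_cancel h3
    rcases d.V₂_comm hq h2 with e | e
    · rw [e, mul_one]; exact hp
    · rw [e]; exact mul_mem hp hpz.zV

theorem Duo.fin (d : Duo C X₁ V₁ X₂ V₂ z e₁ w₁ e₂ w₂) {H : Subgroup G}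
    (hH : H = closure {g : G | Odd (orderOf g)})
    (st₁ : ∀ x, x ∈ normalizer (V₁ : Set G) → x * z = z * x → x ∈ C)
    (st₂ : ∀ x, x ∈ normalizer (V₂ : Set G) → x * z = z * x → x ∈ C)
    (hCH : ∀ x ∈ C, x ∈ H → x ∈ V₁ ⊔ V₂) :
    ∃ M₁ M₂ : Subgroup H, M₁ ≠ M₂ ∧ Cfsg.IsMaximalTwoLocal M₁ ∧ Cfsg.IsMaximalTwoLocal M₂ ∧
        Nonempty (M₁ ≃* Equiv.Perm (Fin 4)) ∧ Nonempty (M₂ ≃* Equiv.Perm (Fin 4)) ∧
        Nat.card ↥(M₁ ⊓ M₂) = 8 := by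
  have f₁ := d.fin1 hH st₁ hCH
  have f₂ := d.symm.fin1 hH st₂ (by rw [sup_comm]; exact hCH)
  have hzfix : ∀ x, x ∈ normalizer (V₁ : Set G) → x ∈ normalizer (V₂ : Set G) → x * z = z * x := by
    intro x h1 h2
    rcases d.inter (conj_mem_of_norm h1 d.s₁.pz.zV) (conj_mem_of_norm h2 d.s₂.pz.zV) with e | e
    · exact absurd (conj_eq_one_iff.1 e) d.s₁.pz.z1
    · exact mul_inv_eq_iff_eq_mul.1 e
  refine ⟨MM H V₁, MM H V₂, ?_, f₁.max, f₂.max, f₁.S4, f₂.S4, ?_⟩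
  · intro h
    have h1 : (⟨e₁, f₁.eH⟩ : H) ∈ MM H V₁ := mem_MM.2 f₁.eN
    rw [h, mem_MM] at h1
    exact f₁.ez (hzfix e₁ f₁.eN h1)
  · have h1 : MM H V₁ ⊓ MM H V₂ = (V₁ ⊔ V₂).subgroupOf H := by
      ext x
      rw [mem_inf, mem_MM, mem_MM, mem_subgroupOf]
      constructor
      · rintro ⟨h1, h2⟩
        exact f₁.st x.1 x.2 h1 (hzfix x h1 h2)
      · intro h
        refine ⟨f₁.DN h, ?_⟩
        rw [sup_comm] at h
        exact f₂.DN h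
    rw [h1]
    have h2 := Nat.card_congr (Subgroup.subgroupOfEquivOfLe f₁.DH).toEquiv
    rw [h2, d.D8]

theorem Geo.final {Ch : Subgroup G → Prop} {Pr : Subgroup G → Subgroup G → Subgroup G → G → Prop} (h : Geo Ch Pr)
    (hloc : ∀ {C X V : Subgroup G} {z : G} {U : Subgroup G}, Pr C X V z → U ≠ ⊥ → IsPGroup 2 U →
      X ≤ normalizer (U : Set G) → ∃ Q S, C ≤ S ∧ Loc (normalizer (U : Set G)) Q S ∧ BB S = C)
    {z₁ z₂ : G} (p₁ : Pr C X₁ V₁ z₁) (p₂ : Pr C X₂ V₂ z₂) (hn : ¬ Com V₁ V₂) {H : Subgroup G}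
    (hH : H = closure {g : G | Odd (orderOf g)}) :
    ∃ M₁ M₂ : Subgroup H, M₁ ≠ M₂ ∧ Cfsg.IsMaximalTwoLocal M₁ ∧ Cfsg.IsMaximalTwoLocal M₂ ∧
        Nonempty (M₁ ≃* Equiv.Perm (Fin 4)) ∧ Nonempty (M₂ ≃* Equiv.Perm (Fin 4)) ∧
        Nat.card ↥(M₁ ⊓ M₂) = 8 := by
  obtain ⟨rfl, e₁, w₁, e₂, w₂, d⟩ := h.duo p₁ p₂ hn
  have hV1 : ∀ {C X V : Subgroup G} {z : G}, Pr C X V z → V ≠ ⊥ := by
    intro C X V z hp e
    have := (h.pz hp).zV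
    rw [e, mem_bot] at this
    exact (h.pz hp).z1 this
  have st₁ : ∀ x, x ∈ normalizer (V₁ : Set G) → x * z₁ = z₁ * x → x ∈ C := by
    obtain ⟨Q, S, hCS, hL, hBB⟩ := hloc p₁ (hV1 p₁) (h.pz p₁).V2.isPGroup (h.pz p₁).XV
    exact fun x hx hxz => d.stab h p₁ p₂ hCS hL hBB hx hxz
  have st₂ : ∀ x, x ∈ normalizer (V₂ : Set G) → x * z₁ = z₁ * x → x ∈ C := by
    obtain ⟨Q, S, hCS, hL, hBB⟩ := hloc p₂ (hV1 p₂) (h.pz p₂).V2.isPGroup (h.pz p₂).XV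
    exact fun x hx hxz => d.symm.stab h p₂ p₁ hCS hL hBB hx hxz
  apply d.fin hH st₁ st₂
  intro x hxC hxH
  by_cases hξ : ∃ c ∈ Xi C V₁ e₁, c ≠ 1
  · obtain ⟨c, hc, hc1⟩ := hξ
    have b : CB Ch Pr C X₁ V₁ X₂ V₂ z₁ e₁ w₁ e₂ w₂ c := ⟨h, d, p₁, p₂, st₁, hc, hc1⟩
    rcases b.CD hxC with h1 | h1
    · exact h1
    · exfalso
      have h2 : V₁ ⊔ V₂ ≤ H := sup_le (d.s₁.V_le hH).2 (d.s₂.V_le hH).2
      have h3 := mul_mem (inv_mem hxH) (h2 h1)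
      rw [inv_mul_cancel_left] at h3
      rw [hH] at h3
      exact b.c_notH h3
  · push Not at hξ
    obtain ⟨a, ha, ξ, hξ', e⟩ := d.C_dec hxC
    rw [hξ ξ hξ', mul_one] at e
    rcases e with e | e
    · rw [e]; exact mem_sup_left ha
    · rw [e]; exact mul_mem (mem_sup_left ha) (mem_sup_right d.s₁.wV)

end H55.ZN
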