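import Cfsg.Agent.Lib.H55.ZN17
import Cfsg.Prelude.Def_CaseTheorems
import Cfsg.Prelude.Def_Involutions

set_option autoImplicit false
set_option linter.unusedSimpArgs false

/-! Global set-up: 2-local subgroups of the group `G`. -/

namespace H55.ZN

open Subgroup

variable {G : Type*} [Group G]

/-- the hypotheses of the theorem -/
structure Hyp (G : Type*) [Group G] : Prop where
  ct : ∀ T : Subgroup G, IsPGroup 2 T → T ≠ ⊥ → Cfsg.IsOfCharacteristicTwo ↥(Subgroup.normalizer (T : Set G))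
  ev : Even (Nat.card G)
  O : Cfsg.pCore 2 G = ⊥
  sol : ∀ N : Subgroup G, Cfsg.IsTwoLocal N → Group.IsSolvable N
  zz : ∀ S : Subgroup G, Syl ⊤ S → ∀ x : G, (∀ z ∈ om S, x * z = z * x) → x ∈ normalizer (S : Set G)
  nse : ¬ ∃ K : Subgroup G, Cfsg.IsStronglyEmbedded K

variable [Finite G]

/-- the data of a 2-local subgroup -/
theorem Hyp.mkLoc (h : Hyp G) {U S : Subgroup G} (hU : U ≠ ⊥) (hU2 : IsPGroup 2 U)
    (hS : Syl (normalizer (U : Set G)) S) : ∃ Q, Loc (normalizer (U : Set G)) Q S := by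
  set L := normalizer (U : Set G) with hL
  set Q := (Cfsg.pCore 2 L).map L.subtype with hQ
  have hQL : Q ≤ L := by rintro _ ⟨y, -, rfl⟩; exact y.2
  have hQn : L ≤ normalizer (Q : Set G) := by
    intro l hl
    apply mem_normalizer_of_le
    rintro _ ⟨y, hy, rfl⟩
    refine ⟨⟨l, hl⟩ * y * ⟨l, hl⟩⁻¹, ?_, rfl⟩
    exact (inferInstance : (Cfsg.pCore 2 L).Normal).conj_mem y hy _
  have hQ2 : IsPGroup 2 Q := (H1.Cores.isPGroup_pCore 2).map _
  have hQmax : ∀ N : Subgroup G, N ≤ L → L ≤ normalizer (N : Set G) → IsPGroup 2 N → N ≤ Q := by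
    intro N hN hn hN2 x hx
    have h1 : (N.subgroupOf L).Normal := Subgroup.normal_subgroupOf_of_le_normalizer hn
    have h2 : N.subgroupOf L ≤ Cfsg.pCore 2 L := H1.Cores.le_pCore h1 hN2.comap_subtype
    exact ⟨⟨x, hN hx⟩, h2 (by rw [mem_subgroupOf]; exact hx), rfl⟩
  have hcen : ∀ x ∈ L, (∀ q ∈ Q, x * q = q * x) → x ∈ Q := by
    intro x hx hc
    have h1 : (⟨x, hx⟩ : L) ∈ centralizer (Cfsg.pCore 2 L : Set L) := by
      rw [mem_centralizer_iff]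
      intro q hq
      exact Subtype.ext (hc q.1 ⟨q, hq, rfl⟩).symm
    exact ⟨_, h.ct U hU2 hU h1, rfl⟩
  have hUL : U ≤ L := le_normalizer
  have hUQ : U ≤ Q := hQmax U hUL le_rfl hU2
  have hQS : Q ≤ S := hS.normal_le hQ2 hQL hQn
  refine ⟨Q, h.sol L ⟨U, hU2, hU, rfl⟩, hQL, hQn, hQ2, hQmax, hcen, hS, ?_⟩
  intro x hx hc
  obtain ⟨S', hS', hSS'⟩ := Syl.exists (K := ⊤) hS.2.1 le_top
  have hom : om S' ≤ om S := by
    intro z hz
    have h1 : ∀ s ∈ S, s * z = z * s := fun s hs => hz.2.2 s (hSS' hs)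
    have hzL : z ∈ L := by
      apply mem_normalizer_of_le
      intro u hu
      rw [← h1 u (hQS (hUQ hu)), mul_inv_cancel_right]; exact hu
    exact ⟨hQS (hcen z hzL (fun q hq => (h1 q (hQS hq)).symm)), hz.2.1, h1⟩
  have h1 := h.zz S' hS' x (fun z hz => hc z (hom hz))
  apply mem_normalizer_of_le
  intro s hs
  have h2 : S' ⊓ L ≤ S := hS.2.2 _ (hS'.2.1.to_le inf_le_left) (le_inf hSS' hS.1) inf_le_right
  exact h2 ⟨conj_mem_of_norm h1 (hSS' hs), L.mul_mem (L.mul_mem hx (hS.1 hs)) (L.inv_mem hx)⟩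

/-- `L` is a 2-local subgroup -/
abbrev TL (L : Subgroup G) : Prop := Cfsg.IsTwoLocal L

/-- `L` is a maximal 2-local subgroup -/
abbrev ML (L : Subgroup G) : Prop := Cfsg.IsMaximalTwoLocal L

theorem TL.mk {U : Subgroup G} (hU : U ≠ ⊥) (hU2 : IsPGroup 2 U) : TL (normalizer (U : Set G)) :=
  ⟨U, hU2, hU, rfl⟩

theorem cj_bot_iff {g : G} {U : Subgroup G} : cj g U = ⊥ ↔ U = ⊥ := by
  constructor
  · intro h
    have := congrArg (cj g⁻¹) h
    rwa [cj_inv_cj, OrderIso.map_bot] at this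
  · intro h; rw [h, OrderIso.map_bot]

theorem TL.cj {L : Subgroup G} (h : TL L) (g : G) : TL (cj g L) := by
  obtain ⟨U, h1, h2, rfl⟩ := h
  refine ⟨ZN.cj g U, cj_isPGroup h1, fun e => h2 (cj_bot_iff.1 e), cj_normalizer⟩

theorem ML.cj {M : Subgroup G} (h : ML M) (g : G) : ML (cj g M) := by
  refine ⟨TL.cj h.1 g, fun N hN hle => ?_⟩
  have h1 := h.2 (ZN.cj g⁻¹ N) (TL.cj hN g⁻¹) (by rw [← cj_inv_cj g M]; exact cj_mono hle)
  rw [← h1, cj_cj_inv]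

theorem TL.exists_max {L : Subgroup G} (h : TL L) : ∃ M, ML M ∧ L ≤ M := by
  obtain ⟨M, hLM, hM, hmax⟩ := (Set.toFinite {P : Subgroup G | TL P}).exists_le_maximal
    (a := L) h
  exact ⟨M, ⟨hM, fun N hN hMN => le_antisymm (hmax hN hMN) hMN⟩, hLM⟩

theorem Hyp.ML_ne_top (h : Hyp G) {M : Subgroup G} (hM : ML M) : M ≠ ⊤ := by
  intro e
  obtain ⟨⟨U, hU2, hU, hMU⟩, -⟩ := hM
  have h1 : U.Normal := by
    rw [← normalizer_eq_top_iff, ← hMU, e]
  exact hU (eq_bot_iff.2 ((H1.Cores.le_pCore h1 hU2).trans h.O.le))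

theorem Hyp.ML_norm (h : Hyp G) {M : Subgroup G} (hM : ML M) : normalizer (M : Set G) ≤ M := by
  obtain ⟨⟨U, hU2, hU, hMU⟩, hmax⟩ := hM
  obtain ⟨S, hS, -⟩ := Syl.exists (K := normalizer (U : Set G)) (R := ⊥) (IsPGroup.of_bot) bot_le
  obtain ⟨Q, hQ⟩ := h.mkLoc hU hU2 hS
  have hUQ : U ≤ Q := hQ.Qmax U le_normalizer le_rfl hU2
  have hQ0 : Q ≠ ⊥ := fun e => hU (eq_bot_iff.2 (e ▸ hUQ))
  have h1 : normalizer (Q : Set G) = M := hmax _ (TL.mk hQ0 hQ.Q2) (by rw [hMU]; exact hQ.Qn)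
  intro g hg
  rw [← h1]
  rw [← cj_eq_iff] at hg ⊢
  have hle : cj g Q ≤ Q := by
    apply hQ.Qmax
    · rw [← hMU, ← hg]; apply cj_mono; rw [hMU]; exact hQ.QL
    · rw [← hMU, ← hg, ← cj_normalizer]; apply cj_mono; rw [hMU]; exact hQ.Qn
    · exact cj_isPGroup hQ.Q2
  exact Subgroup.eq_of_le_of_card_ge hle (card_cj g Q).ge

/-- bad subgroups -/
def Bad (T : Subgroup G) : Prop :=
  T ≠ ⊥ ∧ IsPGroup 2 T ∧ ∃ M₁ M₂, ML M₁ ∧ ML M₂ ∧ M₁ ≠ M₂ ∧ T ≤ M₁ ∧ T ≤ M₂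

theorem Bad.cj {T : Subgroup G} (h : Bad T) (g : G) : Bad (cj g T) := by
  obtain ⟨h1, h2, M₁, M₂, h3, h4, h5, h6, h7⟩ := h
  refine ⟨fun e => h1 (cj_bot_iff.1 e), cj_isPGroup h2, ZN.cj g M₁, ZN.cj g M₂, ML.cj h3 g, ML.cj h4 g, ?_, cj_mono h6,
    cj_mono h7⟩
  intro e
  exact h5 ((ZN.cj g).injective e)

theorem Hyp.exists_bad (h : Hyp G) : ∃ T : Subgroup G, Bad T := by
  haveI : Fact (Nat.Prime 2) := ⟨Nat.prime_two⟩
  by_contra hcon
  push Not at hcon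
  apply h.nse
  obtain ⟨t, ht⟩ := exists_prime_orderOf_dvd_card' (G := G) 2 (even_iff_two_dvd.1 h.ev)
  have key : ∀ t : G, orderOf t = 2 → zpowers t ≠ ⊥ ∧ IsPGroup 2 (zpowers t) := by
    intro t ht
    constructor
    · intro e
      rw [zpowers_eq_bot] at e
      rw [e, orderOf_one] at ht
      omega
    · apply IsPGroup.of_card (n := 1)
      rw [Nat.card_zpowers, ht]; rfl
  obtain ⟨h1, h2⟩ := key t ht
  obtain ⟨M, hM, hle⟩ := TL.exists_max (TL.mk h1 h2)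
  have htM : t ∈ M := hle (le_normalizer (mem_zpowers t))
  refine ⟨M, h.ML_ne_top hM, ?_, fun g hg => ?_⟩
  · rw [even_iff_two_dvd, ← ht]
    have : orderOf (⟨t, htM⟩ : M) ∣ Nat.card M := orderOf_dvd_natCard _
    rwa [Subgroup.orderOf_mk] at this
  · by_contra hodd
    rw [Nat.not_odd_iff_even, even_iff_two_dvd] at hodd
    obtain ⟨⟨s, hs⟩, hs2⟩ := exists_prime_orderOf_dvd_card' 2 hodd
    rw [Subgroup.orderOf_mk] at hs2
    obtain ⟨h3, h4⟩ := key s hs2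
    apply hcon (zpowers s)
    refine ⟨h3, h4, M, ZN.cj g M, hM, ML.cj hM g, ?_, by rw [zpowers_le]; exact hs.1, by rw [zpowers_le]; exact hs.2⟩
    intro e
    exact hg (h.ML_norm hM (cj_eq_iff.1 e.symm))

end H55.ZN
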