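import Cfsg.Agent.Lib.H55.ZN18

set_option autoImplicit false
set_option linter.unusedSimpArgs false

/-! The maximal bad subgroup. -/

namespace H55.ZN

open Subgroup

variable {G : Type*} [Group G] [Finite G]

noncomputable def rk (T : Subgroup G) : ℕ := Nat.card (exists_isA T).choose

theorem IsA.rk_eq {T A : Subgroup G} (h : IsA T A) : rk T = Nat.card A :=
  isA_card_eq (exists_isA T).choose_spec h

noncomputable def mu (T : Subgroup G) : ℕ ×ₗ ℕ ×ₗ ℕ ×ₗ ℕ :=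
  toLex (rk T, toLex (Nat.card (JJ T), toLex (Nat.card (BB T), Nat.card T)))

theorem mu_le {T R : Subgroup G} (h1 : BB T ≤ R) (h2 : mu R ≤ mu T) :
    JJ R = JJ T ∧ BB R = BB T ∧ Nat.card R ≤ Nat.card T := by
  obtain ⟨A, hA⟩ := exists_isA T
  obtain ⟨B, hB⟩ := exists_isA R
  have hAR : A ≤ R := hA.le_JJ.trans ((JJ_le_BB T).trans h1)
  have hrk : rk T ≤ rk R := by
    rw [hA.rk_eq, hB.rk_eq]
    exact hB.2.2 A hAR hA.2.1
  rw [mu, mu, Prod.Lex.toLex_le_toLex] at h2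
  rcases h2 with h2 | ⟨e1, h2⟩
  · exact absurd h2 (not_lt.2 hrk)
  · simp only at e1
    have hJ : JJ T ≤ JJ R := by
      apply sSup_le
      intro A' hA'
      have : IsA R A' := hB.of_card (hA'.le_JJ.trans ((JJ_le_BB T).trans h1)) hA'.2.1
        (by rw [← hB.rk_eq, ← hA'.rk_eq, e1])
      exact this.le_JJ
    rw [Prod.Lex.toLex_le_toLex] at h2
    have hJc : Nat.card (JJ T) ≤ Nat.card (JJ R) := Nat.le_of_dvd Nat.card_pos (card_dvd_of_le hJ)
    rcases h2 with h2 | ⟨e2, h2⟩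
    · exact absurd h2 (not_lt.2 hJc)
    · simp only at e2
      have hJ' : JJ R = JJ T := (Subgroup.eq_of_le_of_card_ge hJ e2.le).symm
      have hB1 : BB T ≤ BB R := by
        intro x hx
        rw [mem_BB]
        refine ⟨h1 hx, ?_⟩
        rw [ZJ_congr hJ']
        exact (mem_BB.1 hx).2
      have hBc : Nat.card (BB T) ≤ Nat.card (BB R) := Nat.le_of_dvd Nat.card_pos (card_dvd_of_le hB1)
      rw [Prod.Lex.toLex_le_toLex] at h2
      rcases h2 with h2 | ⟨e3, h2⟩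
      · exact absurd h2 (not_lt.2 hBc)
      · simp only at e3
        exact ⟨hJ', (Subgroup.eq_of_le_of_card_ge hB1 e3.le).symm, h2⟩

/-- a maximal bad subgroup -/
structure MB (T : Subgroup G) : Prop where
  bad : Bad T
  max : ∀ R : Subgroup G, Bad R → BB T ≤ R → JJ R = JJ T ∧ BB R = BB T ∧ Nat.card R ≤ Nat.card T

theorem Hyp.exists_MB (h : Hyp G) : ∃ T : Subgroup G, MB T := by
  obtain ⟨T₀, h₀⟩ := h.exists_bad
  obtain ⟨T, hT, hmax⟩ := Set.Finite.exists_maximalFor (fun T : Subgroup G => mu T)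
    {T : Subgroup G | Bad T} (Set.toFinite _) ⟨T₀, h₀⟩
  refine ⟨T, hT, fun R hR hle => mu_le hle ?_⟩
  by_contra hcon
  push Not at hcon
  exact absurd (hmax hR hcon.le) (not_le.2 hcon)

theorem MB.JJ_ne {T : Subgroup G} (h : MB T) : JJ T ≠ ⊥ := by
  haveI : Fact (Nat.Prime 2) := ⟨Nat.prime_two⟩
  intro e
  have h1 : om T ≤ JJ T := (om_le_ZJ T).trans (ZJ_le_JJ T)
  obtain ⟨hne, h2, -⟩ := h.bad
  haveI : Nontrivial T := (nontrivial_iff_ne_bot T).2 hne
  haveI := h2.center_nontrivial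
  have h3 : IsPGroup 2 (center T) := h2.to_subgroup _
  obtain ⟨k, hk⟩ := IsPGroup.iff_card.1 h3
  have h4 : 2 ∣ Nat.card (center T) := by
    rw [hk]
    apply dvd_pow_self
    rintro rfl
    rw [pow_zero] at hk
    exact absurd hk (Finite.one_lt_card).ne'
  obtain ⟨⟨⟨z, hz⟩, hzc⟩, hz2⟩ := exists_prime_orderOf_dvd_card' 2 h4
  rw [Subgroup.orderOf_mk, Subgroup.orderOf_mk] at hz2
  have h5 : z ∈ om T := by
    refine ⟨hz, ?_, fun s hs => ?_⟩
    · rw [← pow_two, ← hz2, pow_orderOf_eq_one]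
    · exact congrArg Subtype.val (mem_center_iff.1 hzc ⟨s, hs⟩)
  have h6 := h1 h5
  rw [e, mem_bot] at h6
  rw [h6, orderOf_one] at hz2
  omega

theorem MB.BB_ne {T : Subgroup G} (h : MB T) : BB T ≠ ⊥ := fun e =>
  h.JJ_ne (eq_bot_iff.2 (e ▸ JJ_le_BB T))

/-- normalizers of `BB T`-invariants -/
theorem norm_le_BB {T : Subgroup G} : normalizer (T : Set G) ≤ normalizer (BB T : Set G) := fun _ hg => norm_BB hg

/-! ### the case where `T` is not a Sylow subgroup -/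

theorem TL.le_max {L M : Subgroup G} (hL : TL L) {R : Subgroup G} (hRL : R ≤ L)
    (hun : ∀ M', ML M' → R ≤ M' → M' = M) : L ≤ M := by
  obtain ⟨M', hM', hle⟩ := TL.exists_max hL
  rw [← hun M' hM' (hRL.trans hle)]
  exact hle

/-- C1: uniqueness of the maximal 2-local over `T` -/
theorem MB.unique {T : Subgroup G} (h : MB T) (hns : ¬ Syl ⊤ T) : ∃ M, ML M ∧ normalizer (T : Set G) ≤ M ∧
    ∀ R : Subgroup G, IsPGroup 2 R → T ≤ R → ¬ R ≤ T → ∀ L, TL L → R ≤ L → L ≤ M := by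
  have h0 : ∀ R : Subgroup G, Bad R → T ≤ R → R ≤ T := by
    intro R hR hle
    have h1 := (h.max R hR ((BB_le T).trans hle)).2.2
    exact (Subgroup.eq_of_le_of_card_ge hle h1).ge
  obtain ⟨M, hM, hNM⟩ := TL.exists_max (TL.mk h.bad.1 h.bad.2.1)
  refine ⟨M, hM, hNM, ?_⟩
  -- a subgroup of the normalizer
  have key : ∀ R : Subgroup G, IsPGroup 2 R → T ≤ R → ¬ R ≤ T → R ≤ M → ∀ M', ML M' → R ≤ M' → M' = M := by
    intro R hR hTR hne hRM M' hM' hRM'
    by_contra hcon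
    apply hne
    apply h0 R ⟨?_, hR, M, M', hM, hM', Ne.symm hcon, hRM, hRM'⟩ hTR
    rintro rfl
    exact hne bot_le
  intro R hR hTR hne L hL hRL
  obtain ⟨x, hxR, hxT, hxN⟩ := exists_normalizing hR hTR hne
  have h1 : IsPGroup 2 (R ⊓ normalizer (T : Set G) : Subgroup G) := hR.to_le inf_le_left
  have h2 := key (R ⊓ normalizer (T : Set G)) h1 (le_inf hTR le_normalizer) (fun hle => hxT (hle ⟨hxR, hxN⟩))
    (inf_le_right.trans hNM)
  exact TL.le_max hL (inf_le_left.trans hRL) h2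

end H55.ZN
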