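import Cfsg.Agent.Lib.H55.ZN1
import Cfsg.Agent.Lib.H1.Cores
import Cfsg.Agent.Lib.H1.Solv
import Cfsg.Agent.Lib.H3.CardSup

set_option autoImplicit false
set_option linter.unusedSimpArgs false

/-! Action of a solvable 2-local subgroup on the module generated by `om S`. -/

namespace H55.ZN

open Subgroup
open scoped Pointwise

variable {G : Type*} [Group G]

open Classical in
/-- the automorphism of `V` induced by `g` (junk `1` if `g` does not normalize `V`) -/
noncomputable def ac (V : Subgroup G) (g : G) : MulAut V :=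
  if h : g ∈ normalizer (V : Set G) then V.normalizerMonoidHom ⟨g, h⟩ else 1

theorem ac_apply {V : Subgroup G} {g : G} (h : g ∈ normalizer (V : Set G)) (v : V) :
    ((ac V g v : V) : G) = g * v * g⁻¹ := by
  rw [ac, dif_pos h]; rfl

theorem ac_mul {V : Subgroup G} {g k : G} (hg : g ∈ normalizer (V : Set G)) (hk : k ∈ normalizer (V : Set G)) :
    ac V (g * k) = ac V g * ac V k := by
  ext v
  rw [ac_apply (mul_mem hg hk), MulAut.mul_apply, ac_apply hg, ac_apply hk]
  group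

theorem ac_one {V : Subgroup G} : ac V (1 : G) = 1 := by
  ext v
  rw [ac_apply (one_mem _), MulAut.one_apply]; group

theorem ac_inv {V : Subgroup G} {g : G} (hg : g ∈ normalizer (V : Set G)) : ac V g⁻¹ = (ac V g)⁻¹ := by
  rw [eq_inv_iff_mul_eq_one, ← ac_mul (inv_mem hg) hg, inv_mul_cancel, ac_one]

theorem ac_eq_one {V : Subgroup G} {g : G} (hg : g ∈ normalizer (V : Set G)) :
    ac V g = 1 ↔ ∀ v ∈ V, g * v = v * g := by
  constructor
  · intro h v hv
    have h1 := ac_apply hg ⟨v, hv⟩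
    rw [h, MulAut.one_apply] at h1
    have h2 : v = g * v * g⁻¹ := h1
    rw [eq_mul_inv_iff_mul_eq] at h2
    exact h2.symm
  · intro h
    ext v
    rw [ac_apply hg, h v v.2, MulAut.one_apply]; group

/-- FX exists -/
theorem exists_FX {V : Type*} [Group V] [Finite V] (X : Subgroup (MulAut V)) (hs : Group.IsSolvable X)
    (hX : ∀ N : Subgroup (MulAut V), N ≤ X → (∀ x ∈ X, ∀ n ∈ N, x * n * x⁻¹ ∈ N) → IsPGroup 2 N → N = ⊥) :
    ∃ F, FF.FX X F := by
  haveI : Fact (Nat.Prime 2) := ⟨Nat.prime_two⟩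
  have hcore : Cfsg.pCore 2 X = ⊥ := by
    have h1 := hX ((Cfsg.pCore 2 X).map X.subtype) ?_ ?_ ?_
    · rw [Subgroup.map_eq_bot_iff_of_injective _ (Subgroup.subtype_injective X)] at h1
      exact h1
    · rintro _ ⟨y, -, rfl⟩; exact y.2
    · rintro x hx _ ⟨y, hy, rfl⟩
      refine ⟨⟨x, hx⟩ * y * ⟨x, hx⟩⁻¹, ?_, rfl⟩
      exact (inferInstance : (Cfsg.pCore 2 X).Normal).conj_mem y hy _
    · exact (H1.Cores.isPGroup_pCore 2).map _
  have hodd : ¬ 2 ∣ Nat.card (Cfsg.fittingSubgroup X) := by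
    have h1 := H1.Cores.not_dvd_relIndex_pCore_fittingSubgroup (G := X) 2
    rw [hcore, relIndex_bot_left] at h1
    exact h1
  refine ⟨(Cfsg.fittingSubgroup X).map X.subtype, ?_, ?_, ?_, ?_⟩
  · rintro _ ⟨y, -, rfl⟩; exact y.2
  · rintro x hx _ ⟨y, hy, rfl⟩
    refine ⟨⟨x, hx⟩ * y * ⟨x, hx⟩⁻¹, ?_, rfl⟩
    exact (inferInstance : (Cfsg.fittingSubgroup X).Normal).conj_mem y hy _
  · rw [Subgroup.card_map_of_injective (Subgroup.subtype_injective X)]
    rw [← Nat.not_even_iff_odd, even_iff_two_dvd]; exact hodd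
  · intro x hx h
    have h1 : (⟨x, hx⟩ : X) ∈ centralizer (Cfsg.fittingSubgroup X : Set X) := by
      rw [mem_centralizer_iff]
      intro f hf
      exact Subtype.ext (h f.1 ⟨f, hf, rfl⟩).symm
    exact ⟨_, H1.Solv.centralizer_fitting_le hs h1, rfl⟩

/-- local subgroup data -/
structure Loc (L Q S : Subgroup G) : Prop where
  sol : Group.IsSolvable L
  QL : Q ≤ L
  Qn : L ≤ normalizer (Q : Set G)
  Q2 : IsPGroup 2 Q
  Qmax : ∀ N : Subgroup G, N ≤ L → L ≤ normalizer (N : Set G) → IsPGroup 2 N → N ≤ Q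
  cen : ∀ x ∈ L, (∀ q ∈ Q, x * q = q * x) → x ∈ Q
  syl : Syl L S
  zz : ∀ x ∈ L, (∀ z ∈ om S, x * z = z * x) → x ∈ normalizer (S : Set G)

def VV (L S : Subgroup G) : Subgroup G := closure {x | ∃ l ∈ L, ∃ z ∈ om S, x = l * z * l⁻¹}

section loc

variable [Finite G] {L Q S : Subgroup G} (h : Loc L Q S)

include h

theorem Loc.QS : Q ≤ S := h.syl.normal_le h.Q2 h.QL h.Qn

theorem Loc.om_le : om S ≤ Q := fun z hz =>
  h.cen z (h.syl.1 hz.1) (fun q hq => (hz.2.2 q (h.QS hq)).symm)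

theorem Loc.VQ : VV L S ≤ Q := by
  rw [VV, closure_le]
  rintro x ⟨l, hl, z, hz, rfl⟩
  exact conj_mem_of_norm (h.Qn hl) (h.om_le hz)

theorem Loc.gen_comm {l z q : G} (hl : l ∈ L) (hz : z ∈ om S) (hq : q ∈ Q) :
    (l * z * l⁻¹) * q = q * (l * z * l⁻¹) := by
  have h1 : l⁻¹ * q * l ∈ Q := by
    have := conj_mem_of_norm (h.Qn (L.inv_mem hl)) hq
    rwa [inv_inv] at this
  have h2 := hz.2.2 _ (h.QS h1)
  calc (l * z * l⁻¹) * q = l * (z * (l⁻¹ * q * l)) * l⁻¹ := by group
    _ = l * ((l⁻¹ * q * l) * z) * l⁻¹ := by rw [h2]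
    _ = q * (l * z * l⁻¹) := by group

theorem Loc.VQ_comm {v q : G} (hv : v ∈ VV L S) (hq : q ∈ Q) : v * q = q * v := by
  rw [VV] at hv
  induction hv using closure_induction with
  | mem v hv => obtain ⟨l, hl, z, hz, rfl⟩ := hv; exact h.gen_comm hl hz hq
  | one => simp
  | mul y z _ _ h3 h4 => rw [mul_assoc, h4, ← mul_assoc, h3, mul_assoc]
  | inv y _ h3 =>
    have : Commute y q := h3
    exact this.inv_left

theorem Loc.V2 : Ex2 (VV L S) := by
  apply ex2_closure
  · rintro x ⟨l, hl, z, hz, rfl⟩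
    calc l * z * l⁻¹ * (l * z * l⁻¹) = l * (z * z) * l⁻¹ := by group
      _ = 1 := by rw [hz.2.1]; group
  · rintro x ⟨l, hl, z, hz, rfl⟩ y ⟨k, hk, w, hw, rfl⟩
    exact h.gen_comm hl hz (conj_mem_of_norm (h.Qn hk) (h.om_le hw))

omit h in
theorem VV_norm {L S : Subgroup G} : L ≤ normalizer (VV L S : Set G) := by
  intro l hl
  apply mem_normalizer_of_le
  intro x hx
  rw [VV] at hx ⊢
  induction hx using closure_induction with
  | mem x hx =>
    obtain ⟨k, hk, z, hz, rfl⟩ := hx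
    apply Subgroup.subset_closure
    exact ⟨l * k, L.mul_mem hl hk, z, hz, by group⟩
  | one => simp
  | mul y z _ _ h3 h4 =>
    have : l * (y * z) * l⁻¹ = (l * y * l⁻¹) * (l * z * l⁻¹) := by group
    rw [this]; exact mul_mem h3 h4
  | inv y _ h3 =>
    have : l * y⁻¹ * l⁻¹ = (l * y * l⁻¹)⁻¹ := by group
    rw [this]; exact inv_mem h3

omit h in
theorem om_le_VV {L S : Subgroup G} : om S ≤ VV L S := fun z hz =>
  Subgroup.subset_closure ⟨1, L.one_mem, z, hz, by group⟩

/-- `C_S(V) ≤ Q` -/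
theorem Loc.cenS {x : G} (hx : x ∈ S) (hc : ∀ v ∈ VV L S, x * v = v * x) : x ∈ Q := by
  -- D = S ⊓ C_L(V)
  set D := S ⊓ centralizer (VV L S : Set G) with hD
  have hDL : D ≤ L := inf_le_left.trans h.syl.1
  have hD2 : IsPGroup 2 D := h.syl.2.1.to_le inf_le_left
  have key : ∀ c ∈ L, c ∈ centralizer (VV L S : Set G) → c ∈ normalizer (S : Set G) := by
    intro c hc1 hc2
    apply h.zz c hc1
    intro z hz
    exact (mem_centralizer_iff.1 hc2 z (om_le_VV hz)).symm
  have hKn : ∀ l ∈ L, ∀ c ∈ L ⊓ centralizer (VV L S : Set G), l * c * l⁻¹ ∈ L ⊓ centralizer (VV L S : Set G) := by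
    intro l hl c hc
    obtain ⟨hc1, hc2⟩ := mem_inf.1 hc
    refine mem_inf.2 ⟨L.mul_mem (L.mul_mem hl hc1) (L.inv_mem hl), ?_⟩
    rw [mem_centralizer_iff]
    intro v hv
    have hv' : l⁻¹ * v * l ∈ VV L S := by
      have := conj_mem_of_norm (VV_norm (L.inv_mem hl)) hv
      rwa [inv_inv] at this
    have h1 := mem_centralizer_iff.1 hc2 _ hv'
    calc v * (l * c * l⁻¹) = l * ((l⁻¹ * v * l) * c) * l⁻¹ := by group
      _ = l * (c * (l⁻¹ * v * l)) * l⁻¹ := by rw [h1]
      _ = (l * c * l⁻¹) * v := by group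
  have hsylD : Syl (L ⊓ centralizer (VV L S : Set G)) D := by
    refine ⟨le_inf hDL inf_le_right, hD2, ?_⟩
    intro R hR hDR hRK
    -- R normalizes S
    have h1 : R ≤ normalizer (S : Set G) := fun r hr => key r (mem_inf.1 (hRK hr)).1 (mem_inf.1 (hRK hr)).2
    have h2 := h.syl.2.2 (R ⊔ S) (isPGroup_sup hR h.syl.2.1 h1) le_sup_right (sup_le (hRK.trans inf_le_left) h.syl.1)
    exact le_inf (le_sup_left.trans h2) (hRK.trans inf_le_right)
  have hDn : L ≤ normalizer (D : Set G) := by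
    intro l hl
    apply mem_normalizer_of_le
    intro d hd
    -- cj l D is a 2-subgroup of K, so inside a conjugate of D, but K normalizes D
    have h1 : cj l D ≤ L ⊓ centralizer (VV L S : Set G) := by
      intro y hy
      rw [mem_cj] at hy
      have := hKn l hl _ (hsylD.1 hy)
      have e : l * (l⁻¹ * y * l) * l⁻¹ = y := by group
      rwa [e] at this
    obtain ⟨k, hk, hkD⟩ := hsylD.conj (cj_isPGroup hD2) h1
    have h2 : cj k D = D := by
      rw [cj_eq_iff]
      have hkS := key k (mem_inf.1 hk).1 (mem_inf.1 hk).2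
      apply mem_normalizer_of_le
      intro y hy
      obtain ⟨hy1, hy2⟩ := mem_inf.1 hy
      exact mem_inf.2 ⟨conj_mem_of_norm hkS hy1, (mem_inf.1 (hKn k (mem_inf.1 hk).1 y (mem_inf.2 ⟨h.syl.1 hy1, hy2⟩))).2⟩
    rw [h2] at hkD
    exact hkD (conj_mem_cj hd)
  exact h.Qmax D hDL hDn hD2 (mem_inf.2 ⟨hx, by
    rw [mem_centralizer_iff]; intro v hv; exact (hc v hv).symm⟩)

/-- the group of automorphisms induced on `V` -/
noncomputable def XX (L S : Subgroup G) : Subgroup (MulAut (VV L S)) :=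
  ((VV L S).normalizerMonoidHom.comp (Subgroup.inclusion (VV_norm (L := L) (S := S)))).range


omit h in
theorem mem_XX {L S : Subgroup G} {t : MulAut (VV L S)} : t ∈ XX L S ↔ ∃ l ∈ L, t = ac (VV L S) l := by
  constructor
  · rintro ⟨l, rfl⟩
    refine ⟨l.1, l.2, ?_⟩
    rw [ac, dif_pos (VV_norm l.2)]; rfl
  · rintro ⟨l, hl, rfl⟩
    refine ⟨⟨l, hl⟩, ?_⟩
    rw [ac, dif_pos (VV_norm hl)]; rfl

omit h in
theorem ac_mem {L S : Subgroup G} {l : G} (hl : l ∈ L) : ac (VV L S) l ∈ XX L S := mem_XX.2 ⟨l, hl, rfl⟩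

theorem Loc.no_two (N : Subgroup (MulAut (VV L S))) (hN : N ≤ XX L S)
    (hn : ∀ x ∈ XX L S, ∀ n ∈ N, x * n * x⁻¹ ∈ N) (hN2 : IsPGroup 2 N) : N = ⊥ := by
  haveI : Fact (Nat.Prime 2) := ⟨Nat.prime_two⟩
  set f := (VV L S).normalizerMonoidHom.comp (Subgroup.inclusion (VV_norm (L := L) (S := S))) with hf
  have hXX : XX L S = f.range := rfl
  -- N is contained in the image of S
  have hNS : ∀ n ∈ N, ∃ s ∈ S, n = ac (VV L S) s := by
    let P : Sylow 2 f.range := h.syl.sylow.mapSurjective f.rangeRestrict_surjective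
    haveI : (N.subgroupOf f.range).Normal := by
      constructor
      intro n hn' g
      rw [mem_subgroupOf] at hn' ⊢
      exact hn g.1 g.2 n.1 hn'
    obtain ⟨Q', hQ'⟩ := (hN2.comap_subtype (K := f.range)).exists_le_sylow
    have h1 : N.subgroupOf f.range ≤ P := by
      obtain ⟨g, hg⟩ := MulAction.exists_smul_eq f.range Q' P
      intro x hx
      have h2 : g⁻¹ * x * g ∈ N.subgroupOf f.range := by
        have := (inferInstance : (N.subgroupOf f.range).Normal).conj_mem x hx g⁻¹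
        rwa [inv_inv] at this
      have h3 := hQ' h2
      rw [← hg]
      have h4 : x ∈ MulAut.conj g • (Q' : Subgroup f.range) := by
        rw [Subgroup.mem_pointwise_smul_iff_inv_smul_mem]
        have : (MulAut.conj g)⁻¹ • x = g⁻¹ * x * g := by
          simp [MulAut.smul_def, MulAut.conj_inv_apply]
        rw [this]; exact h3
      exact h4
    intro n hn'
    have h2 : (⟨n, hN hn'⟩ : f.range) ∈ P := h1 hn'
    obtain ⟨y, hy, hyn⟩ := h2
    refine ⟨y.1, hy, ?_⟩
    have h3 : f y = n := congrArg Subtype.val hyn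
    rw [← h3, ac, dif_pos (VV_norm y.2)]; rfl
  rw [eq_bot_iff]
  intro n hnN
  rw [mem_bot]
  ext v
  rw [MulAut.one_apply]
  congr 1
  -- every element of V is fixed by N
  have key : ∀ x, ∀ hx : x ∈ VV L S, ∀ n ∈ N, n ⟨x, hx⟩ = ⟨x, hx⟩ := by
    intro x hx
    have hx' := hx
    rw [VV] at hx'
    induction hx' using closure_induction with
    | mem x hx1 =>
      obtain ⟨l, hl, z, hz, rfl⟩ := hx1
      intro n hn'
      have hlN := VV_norm (L := L) (S := S) hl
      have h1 := hn (ac (VV L S) l)⁻¹ (inv_mem (ac_mem hl)) n hn'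
      rw [inv_inv] at h1
      obtain ⟨s, hs, hs'⟩ := hNS _ h1
      have h2 : n = ac (VV L S) l * ac (VV L S) s * (ac (VV L S) l)⁻¹ := by
        rw [← hs']; group
      have hsN := VV_norm (L := L) (S := S) (h.syl.1 hs)
      rw [h2, ← ac_inv hlN, ← ac_mul hlN hsN, ← ac_mul (mul_mem hlN hsN) (inv_mem hlN)]
      apply Subtype.ext
      rw [ac_apply (mul_mem (mul_mem hlN hsN) (inv_mem hlN))]
      have h3 := hz.2.2 s hs
      calc l * s * l⁻¹ * (l * z * l⁻¹) * (l * s * l⁻¹)⁻¹ = l * (s * z) * s⁻¹ * l⁻¹ := by group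
        _ = l * (z * s) * s⁻¹ * l⁻¹ := by rw [h3]
        _ = l * z * l⁻¹ := by group
    | one => intro n _; exact map_one n
    | mul y z hy hz h3 h4 =>
      intro n hn'
      have e : (⟨y * z, hx⟩ : VV L S) = ⟨y, hy⟩ * ⟨z, hz⟩ := rfl
      rw [e, map_mul, h3 hy n hn', h4 hz n hn']
    | inv y hy h3 =>
      intro n hn'
      have e : (⟨y⁻¹, hx⟩ : VV L S) = (⟨y, hy⟩ : VV L S)⁻¹ := rfl
      rw [e, map_inv, h3 hy n hn']
  exact key v.1 v.2 n hnN

theorem Loc.exists_F : ∃ F, FF.FX (XX L S) F := by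
  apply exists_FX
  · haveI := h.sol
    exact solvable_of_surjective (MonoidHom.rangeRestrict_surjective _)
  · exact h.no_two

omit h in
theorem hV' (h2 : Ex2 (VV L S)) : ∀ v : VV L S, v * v = 1 := fun v => Subtype.ext (h2 v.1 v.2)

/-- members of `IsA S` induce offenders -/
theorem Loc.offender {A : Subgroup G} (hA : IsA S A) :
    (∀ a ∈ A, ac (VV L S) a ∈ closure {t | (∃ b ∈ A, t = ac (VV L S) b) ∧ ∃ c, FF.Tv t c}) ∧
    IsA S ((A ⊓ centralizer (VV L S : Set G)) ⊔ VV L S) := by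
  classical
  obtain ⟨F, hF⟩ := h.exists_F
  set V := VV L S with hVdef
  have hV2 : Ex2 V := h.V2
  have hAL : A ≤ L := hA.1.trans h.syl.1
  have hAV : A ≤ normalizer (V : Set G) := hAL.trans VV_norm
  let f : A →* MulAut V := V.normalizerMonoidHom.comp (Subgroup.inclusion hAV)
  have hf : ∀ a : A, f a = ac V a.1 := by
    intro a
    rw [ac, dif_pos (hAV a.2)]; rfl
  set B := f.range with hB
  have hBmem : ∀ t, t ∈ B ↔ ∃ b ∈ A, t = ac V b := by
    intro t
    constructor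
    · rintro ⟨a, rfl⟩; exact ⟨a.1, a.2, hf a⟩
    · rintro ⟨a, ha, rfl⟩; exact ⟨⟨a, ha⟩, hf _⟩
  have hBX : B ≤ XX L S := by
    intro t ht
    obtain ⟨b, hb, rfl⟩ := (hBmem t).1 ht
    exact ac_mem (hAL hb)
  have hB2 : ∀ b ∈ B, b * b = 1 := by
    intro t ht
    obtain ⟨b, hb, rfl⟩ := (hBmem t).1 ht
    rw [← ac_mul (hAV hb) (hAV hb), hA.2.1 b hb, ac_one]
  set C := A ⊓ centralizer (V : Set G) with hC
  have hVS : V ≤ S := h.VQ.trans h.QS
  have hCV : Ex2 (C ⊔ V) := by
    apply ex2_sup (hA.2.1.mono inf_le_left) hV2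
    intro a ha b hb
    exact (mem_centralizer_iff.1 (mem_inf.1 ha).2 b hb).symm
  have hker : Nat.card f.ker = Nat.card C := by
    have : f.ker = C.subgroupOf A := by
      ext a
      rw [MonoidHom.mem_ker, hf, ac_eq_one (hAV a.2), mem_subgroupOf, hC, mem_inf, mem_centralizer_iff]
      constructor
      · intro h1; exact ⟨a.2, fun v hv => (h1 v hv).symm⟩
      · intro h1 v hv; exact (h1.2 v hv).symm
    rw [this]
    exact Nat.card_congr (Subgroup.subgroupOfEquivOfLe inf_le_left).toEquiv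
  have hcA : Nat.card A = Nat.card C * Nat.card B := by
    have := Subgroup.card_mul_index f.ker
    rw [Subgroup.index_ker, hker] at this
    exact this.symm
  -- the fixed points of B are A ⊓ V
  have hfx : Nat.card (FF.fx B) = Nat.card (A ⊓ V : Subgroup G) := by
    have : FF.fx B = (A ⊓ V).subgroupOf V := by
      ext v
      rw [FF.mem_fx, mem_subgroupOf, mem_inf]
      constructor
      · intro h1
        refine ⟨?_, v.2⟩
        apply hA.mem_of_comm (hVS v.2) (hV2 v.1 v.2)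
        intro a ha
        have h2 := h1 (ac V a) ((hBmem _).2 ⟨a, ha, rfl⟩)
        have h3 := ac_apply (hAV ha) v
        rw [h2] at h3
        rw [eq_mul_inv_iff_mul_eq] at h3
        exact h3
      · intro h1 t ht
        obtain ⟨a, ha, rfl⟩ := (hBmem t).1 ht
        apply Subtype.ext
        rw [ac_apply (hAV ha), hA.2.1.comm ha h1.1]; group
    rw [this]
    exact Nat.card_congr (Subgroup.subgroupOfEquivOfLe inf_le_right).toEquiv
  have hCVi : (C ⊓ V : Subgroup G) = A ⊓ V := by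
    apply le_antisymm (inf_le_inf_right _ inf_le_left)
    intro x hx
    obtain ⟨hxA, hxV⟩ := mem_inf.1 hx
    refine mem_inf.2 ⟨mem_inf.2 ⟨hxA, ?_⟩, hxV⟩
    rw [mem_centralizer_iff]
    intro v hv
    exact hV2.comm hv hxV
  have hprod : Nat.card (C ⊔ V : Subgroup G) * Nat.card (A ⊓ V : Subgroup G) = Nat.card C * Nat.card V := by
    have h1 : C ≤ normalizer (V : Set G) := inf_le_left.trans hAV
    rw [← hCVi]
    exact H3.CardSup.card_sup_mul_card_inf C V h1
  have hle := hA.2.2 _ (sup_le (inf_le_left.trans hA.1) hVS) hCV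
  have hoff : Nat.card V ≤ Nat.card B * Nat.card (FF.fx B) := by
    rw [hfx]
    have h1 : Nat.card C * Nat.card V ≤ Nat.card C * (Nat.card B * Nat.card (A ⊓ V : Subgroup G)) := by
      rw [← hprod, ← mul_assoc, ← hcA]
      exact Nat.mul_le_mul_right _ hle
    exact Nat.le_of_mul_le_mul_left h1 Nat.card_pos
  obtain ⟨h1, h2⟩ := hF.offender (hV' hV2) (Nat.card B) B le_rfl hBX hB2 hoff
  constructor
  · intro a ha
    have := h2 ((hBmem _).2 ⟨a, ha, rfl⟩)
    refine (Subgroup.closure_mono ?_) this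
    rintro t ⟨ht, hc⟩
    exact ⟨(hBmem t).1 ht, hc⟩
  · apply hA.of_card (sup_le (inf_le_left.trans hA.1) hVS) hCV
    rw [hfx] at h1
    have h3 : Nat.card A * Nat.card (A ⊓ V : Subgroup G) ≤ Nat.card (C ⊔ V : Subgroup G) * Nat.card (A ⊓ V : Subgroup G) := by
      rw [hprod, h1, hcA, mul_assoc]
    exact Nat.le_of_mul_le_mul_right h3 Nat.card_pos

end loc

end H55.ZN
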