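import Cfsg.Agent.Lib.H55.ZN19

set_option autoImplicit false
set_option linter.unusedSimpArgs false

/-! The two cases: `T` is or is not a Sylow subgroup. -/

namespace H55.ZN

open Subgroup

variable {G : Type*} [Group G] [Finite G]

/-- C1 data -/
structure C1 (T M : Subgroup G) : Prop where
  mb : MB T
  hM : ML M
  up : ∀ R : Subgroup G, IsPGroup 2 R → T ≤ R → ¬ R ≤ T → ∀ L, TL L → R ≤ L → L ≤ M
  big : ∃ R : Subgroup G, IsPGroup 2 R ∧ T ≤ R ∧ ¬ R ≤ T ∧ R ≤ normalizer (T : Set G)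

theorem MB.exists_C1 {T : Subgroup G} (h : MB T) (hns : ¬ Syl ⊤ T) : ∃ M, C1 T M := by
  obtain ⟨M, hM, -, hup⟩ := h.unique hns
  refine ⟨M, h, hM, hup, ?_⟩
  have h1 : ∃ R : Subgroup G, IsPGroup 2 R ∧ T ≤ R ∧ ¬ R ≤ T := by
    by_contra hcon
    push Not at hcon
    exact hns ⟨le_top, h.bad.2.1, fun R hR hle _ => hcon R hR hle⟩
  obtain ⟨R, hR, hTR, hne⟩ := h1
  obtain ⟨x, hxR, hxT, hxN⟩ := exists_normalizing hR hTR hne
  exact ⟨R ⊓ normalizer (T : Set G), hR.to_le inf_le_left, le_inf hTR le_normalizer,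
    fun hle => hxT (hle ⟨hxR, hxN⟩), inf_le_right⟩

theorem C1.norm {T M : Subgroup G} (h : C1 T M) {L : Subgroup G} (hL : TL L) (hle : normalizer (T : Set G) ≤ L) :
    L ≤ M := by
  obtain ⟨R, h1, h2, h3, h4⟩ := h.big
  exact h.up R h1 h2 h3 L hL (h4.trans hle)

theorem C1.normB {T M : Subgroup G} (h : C1 T M) {L : Subgroup G} (hL : TL L)
    (hle : normalizer (BB T : Set G) ≤ L) : L ≤ M := h.norm hL (norm_le_BB.trans hle)

theorem C1.normJ {T M : Subgroup G} (h : C1 T M) : normalizer (JJ T : Set G) ≤ M :=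
  h.norm (TL.mk h.mb.JJ_ne (h.mb.bad.2.1.to_le (JJ_le T))) (fun _ hg => norm_JJ hg)

theorem C1.normBB_le {T M : Subgroup G} (h : C1 T M) : normalizer (BB T : Set G) ≤ M :=
  h.normB (TL.mk h.mb.BB_ne (h.mb.bad.2.1.to_le (BB_le T))) le_rfl

theorem C1.good {T M : Subgroup G} (h : C1 T M) {L : Subgroup G} (hL : TL L) (hLM : ¬ L ≤ M)
    {R : Subgroup G} (hR : IsPGroup 2 R) (hBR : BB T ≤ R) (hRL : R ≤ L) : JJ R = JJ T ∧ BB R = BB T := by
  obtain ⟨M₁, hM₁, hLM₁⟩ := TL.exists_max hL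
  set R₁ := R ⊓ normalizer (JJ T : Set G) with hR₁
  have hne : M ≠ M₁ := fun e => hLM (e ▸ hLM₁)
  have hBR₁ : BB T ≤ R₁ := le_inf hBR (fun b hb => norm_JJ (le_normalizer (BB_le T hb)))
  have hbad : Bad R₁ := by
    refine ⟨?_, hR.to_le inf_le_left, M, M₁, h.hM, hM₁, hne, inf_le_right.trans h.normJ,
      inf_le_left.trans (hRL.trans hLM₁)⟩
    intro e
    exact h.mb.BB_ne (eq_bot_iff.2 (e ▸ hBR₁))
  obtain ⟨h1, h2, -⟩ := h.mb.max R₁ hbad hBR₁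
  have h3 : R ≤ R₁ := by
    by_contra hcon
    obtain ⟨x, hxR, hxT, hxN⟩ := exists_normalizing hR (inf_le_left : R₁ ≤ R) hcon
    apply hxT
    have := norm_JJ hxN
    rw [h1] at this
    exact ⟨hxR, this⟩
  have h4 : R = R₁ := le_antisymm h3 inf_le_left
  rw [h4]
  exact ⟨h1, h2⟩

theorem C1.syl {T M : Subgroup G} (h : C1 T M) {L : Subgroup G} (hL : TL L) (hLM : ¬ L ≤ M) (hTL : T ≤ L) :
    Syl L T := by
  refine ⟨hTL, h.mb.bad.2.1, fun R hR hTR hRL => ?_⟩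
  by_contra hcon
  exact hLM (h.up R hR hTR hcon L hL hRL)

theorem C1.exists_L {T M : Subgroup G} (h : C1 T M) : ∃ L, ML L ∧ T ≤ L ∧ ¬ L ≤ M := by
  obtain ⟨-, -, M₁, M₂, h3, h4, h5, h6, h7⟩ := h.mb.bad
  by_cases e : M₁ = M
  · refine ⟨M₂, h4, h7, fun hle => h5 ?_⟩
    rw [e, h4.2 M h.hM.1 hle]
  · refine ⟨M₁, h3, h6, fun hle => e ?_⟩
    rw [h3.2 M h.hM.1 hle]

theorem C1.om {T M : Subgroup G} (hyp : Hyp G) (h : C1 T M) :
    ∃ S, Syl ⊤ S ∧ T ≤ S ∧ om S ≤ om T := by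
  obtain ⟨L, hL, hTL, hLM⟩ := h.exists_L
  have hsyl := h.syl hL.1 hLM hTL
  obtain ⟨U, hU2, hU, rfl⟩ := hL.1
  obtain ⟨Q, hQ⟩ := hyp.mkLoc hU hU2 hsyl
  have hUQ : U ≤ Q := hQ.Qmax U le_normalizer le_rfl hU2
  obtain ⟨S, hS, hTS⟩ := Syl.exists (K := ⊤) h.mb.bad.2.1 le_top
  refine ⟨S, hS, hTS, fun z hz => ?_⟩
  have h1 : ∀ s ∈ T, s * z = z * s := fun s hs => hz.2.2 s (hTS hs)
  have hzL : z ∈ normalizer (U : Set G) := by
    apply mem_normalizer_of_le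
    intro u hu
    rw [← h1 u (hQ.QS (hUQ hu)), mul_inv_cancel_right]; exact hu
  exact ⟨hQ.QS (hQ.cen z hzL (fun q hq => (h1 q (hQ.QS hq)).symm)), hz.2.1, h1⟩

/-! ### C2 -/

theorem C2.bad {T : Subgroup G} (h : MB T) (hs : Syl ⊤ T) {R : Subgroup G} (hR : IsPGroup 2 R) (hR0 : R ≠ ⊥) : Bad R := by
  obtain ⟨g, -, hg⟩ := hs.conj hR le_top
  obtain ⟨-, -, M₁, M₂, h3, h4, h5, h6, h7⟩ := h.bad.cj g
  exact ⟨hR0, hR, M₁, M₂, h3, h4, h5, hg.trans h6, hg.trans h7⟩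

theorem C2.good {T : Subgroup G} (h : MB T) (hs : Syl ⊤ T) {R : Subgroup G} (hR : IsPGroup 2 R) (hBR : BB T ≤ R) :
    JJ R = JJ T ∧ BB R = BB T := by
  have h1 := h.max R (C2.bad h hs hR (fun e => h.BB_ne (eq_bot_iff.2 (e ▸ hBR)))) hBR
  exact ⟨h1.1, h1.2.1⟩

theorem C2.normZ (hyp : Hyp G) {T : Subgroup G} (hs : Syl ⊤ T) :
    normalizer (ZJ T : Set G) ≤ normalizer (BB T : Set G) := by
  -- D = C_G(ZJ T) ≤ N(T)
  have hD : centralizer (ZJ T : Set G) ≤ normalizer (T : Set G) := by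
    intro x hx
    rw [mem_centralizer_iff] at hx
    exact hyp.zz T hs x (fun z hz => (hx z (om_le_ZJ T hz)).symm)
  intro g hg
  apply mem_normalizer_of_le
  intro x hx
  have hB2 : IsPGroup 2 (BB T) := hs.2.1.to_le (BB_le T)
  have h1 : cj g (BB T) ≤ centralizer (ZJ T : Set G) := by
    have h2 : cj g (BB T) ≤ cj g (centralizer (ZJ T : Set G)) := cj_mono inf_le_right
    rwa [cj_centralizer, cj_eq_iff.2 hg] at h2
  have h2 : cj g (BB T) ≤ T := by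
    have := hs.2.2 (cj g (BB T) ⊔ T) (isPGroup_sup (cj_isPGroup hB2) hs.2.1 (h1.trans hD)) le_sup_right le_top
    exact le_sup_left.trans this
  exact ⟨h2 (conj_mem_cj hx), h1 (conj_mem_cj hx)⟩

end H55.ZN
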