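import Cfsg.Agent.Lib.H55.ZN20

set_option autoImplicit false
set_option linter.unusedSimpArgs false

/-! The geometry of the chambers. -/

namespace H55.ZN

open Subgroup

variable {G : Type*} [Group G]

def Ch (T C : Subgroup G) : Prop := ∃ g : G, C = cj g (BB T)

def Pr (T C X V : Subgroup G) (z : G) : Prop :=
  Ch T C ∧ PZ C X V z ∧ (¬ Syl ⊤ T → ∀ U : Subgroup G, U ≠ ⊥ → IsPGroup 2 U →
    normalizer (C : Set G) ≤ normalizer (U : Set G) → ¬ X ≤ normalizer (U : Set G))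

variable [Finite G] {T C X V : Subgroup G} {z : G}

theorem Ch.cj (h : Ch T C) (g : G) : Ch T (cj g C) := by
  obtain ⟨k, rfl⟩ := h
  exact ⟨g * k, (cj_mul _ _ _).symm⟩

theorem cj_le_iff {g : G} {H K : Subgroup G} : cj g H ≤ K ↔ H ≤ cj g⁻¹ K := by
  constructor
  · intro h
    rw [← cj_inv_cj g H]; exact cj_mono h
  · intro h
    rw [← cj_cj_inv g K]; exact cj_mono h

theorem Pr.cj (h : Pr T C X V z) (g : G) : Pr T (cj g C) (cj g X) (cj g V) (g * z * g⁻¹) := by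
  refine ⟨h.1.cj g, h.2.1.cj g, fun hs U hU hU2 hle hX => ?_⟩
  apply h.2.2 hs (ZN.cj g⁻¹ U) (fun e => hU (cj_bot_iff.1 e)) (cj_isPGroup hU2)
  · rw [← cj_normalizer, ← cj_le_iff, cj_normalizer]; exact hle
  · rw [← cj_normalizer, ← cj_le_iff]; exact hX

theorem Pr.good (h : MB T) (hp : Pr T C X V z) {U : Subgroup G}
    (hXU : X ≤ normalizer (U : Set G)) (hU : U ≠ ⊥) (hU2 : IsPGroup 2 U) {R : Subgroup G} (hR : IsPGroup 2 R)
    (hCR : C ≤ R) (hRU : R ≤ normalizer (U : Set G)) : BB R = C := by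
  obtain ⟨g, rfl⟩ := hp.1
  have hp' := hp.cj g⁻¹
  rw [cj_inv_cj] at hp'
  have hBR : BB T ≤ ZN.cj g⁻¹ R := cj_le_iff.1 hCR
  have key : BB (ZN.cj g⁻¹ R) = BB T := by
    by_cases hs : Syl ⊤ T
    · exact (C2.good h hs (cj_isPGroup hR) hBR).2
    · obtain ⟨M, hM⟩ := h.exists_C1 hs
      have hL : TL (ZN.cj g⁻¹ (normalizer (U : Set G))) := TL.cj (TL.mk hU hU2) g⁻¹
      apply (hM.good hL ?_ (cj_isPGroup hR) hBR (cj_mono hRU)).2
      intro hLM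
      obtain ⟨W, hW2, hW, hMW⟩ := hM.hM.1
      apply hp'.2.2 hs W hW hW2
      · rw [← hMW]; exact hM.normBB_le
      · rw [← hMW]; exact (cj_mono hXU).trans hLM
  rw [BB_cj] at key
  rw [← key, cj_cj_inv]

theorem Pr.loc (hyp : Hyp G) (h : MB T) {U : Subgroup G} (hp : Pr T C X V z)
    (hU : U ≠ ⊥) (hU2 : IsPGroup 2 U) (hXU : X ≤ normalizer (U : Set G)) :
    ∃ Q S, C ≤ S ∧ Loc (normalizer (U : Set G)) Q S ∧ BB S = C := by
  have hC2 : IsPGroup 2 C := by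
    obtain ⟨g, rfl⟩ := hp.1
    exact cj_isPGroup (h.bad.2.1.to_le (BB_le T))
  obtain ⟨S, hS, hCS⟩ := Syl.exists (K := normalizer (U : Set G)) hC2 (hp.2.1.CX.trans hXU)
  obtain ⟨Q, hQ⟩ := hyp.mkLoc hU hU2 hS
  exact ⟨Q, S, hCS, hQ, hp.good h hXU hU hU2 hS.2.1 hCS hS.1⟩

theorem exists_om (hyp : Hyp G) (h : MB T) : ∃ S, Syl ⊤ S ∧ T ≤ S ∧ om S ≤ om T := by
  by_cases hs : Syl ⊤ T
  · exact ⟨T, hs, le_rfl, le_rfl⟩
  · obtain ⟨M, hM⟩ := h.exists_C1 hs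
    exact hM.om hyp

theorem cj_top (g : G) : cj g (⊤ : Subgroup G) = ⊤ := (cj g).map_top

theorem exists_om' (hyp : Hyp G) (h : MB T) (hC : Ch T C) : ∃ S, Syl ⊤ S ∧ C ≤ S ∧ om S ≤ ZJ C := by
  obtain ⟨g, rfl⟩ := hC
  obtain ⟨S, hS, hTS, hom⟩ := exists_om hyp h
  refine ⟨ZN.cj g S, ?_, cj_mono ((BB_le T).trans hTS), ?_⟩
  · have := hS.cj g
    rwa [cj_top] at this
  · intro z hz
    rw [mem_om_cj] at hz
    rw [ZJ_cj, mem_cj, ZJ_BB]
    exact om_le_ZJ T (hom hz)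

theorem Pr.cent (hyp : Hyp G) (h : MB T) {x : G} (hp : Pr T C X V z) (hx2 : x * x = 1)
    (hxZ : ∀ u ∈ ZJ C, x * u = u * x) (hxV : ∀ v ∈ V, x * v = v * x) : x ∈ C := by
  obtain ⟨S, hS, hCS, hom⟩ := exists_om' hyp h hp.1
  have h1 := hyp.zz S hS x (fun u hu => hxZ u (hom hu))
  have h2 : zpowers x ≤ S := by
    have := hS.2.2 (zpowers x ⊔ S) (isPGroup_sup (ex2_zpowers hx2).isPGroup hS.2.1 (by rw [zpowers_le]; exact h1))
      le_sup_right le_top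
    exact le_sup_left.trans this
  have hR2 : IsPGroup 2 (C ⊔ zpowers x : Subgroup G) := hS.2.1.to_le (sup_le hCS h2)
  have hV0 : V ≠ ⊥ := by
    intro e
    have := hp.2.1.zV
    rw [e, mem_bot] at this
    exact hp.2.1.z1 this
  have hRV : C ⊔ zpowers x ≤ normalizer (V : Set G) := by
    apply sup_le (hp.2.1.CX.trans hp.2.1.XV)
    rw [zpowers_le]
    apply mem_normalizer_of_le
    intro v hv
    rw [hxV v hv, mul_inv_cancel_right]; exact hv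
  have h3 := hp.good h hp.2.1.XV hV0 hp.2.1.V2.isPGroup hR2 le_sup_left hRV
  have h4 : ZJ (C ⊔ zpowers x) = ZJ C := by rw [← ZJ_BB, h3]
  have h5 : x ∈ BB (C ⊔ zpowers x) := by
    rw [mem_BB, h4]
    exact ⟨(le_sup_right : zpowers x ≤ _) (mem_zpowers x), fun u hu => (hxZ u hu).symm⟩
  rw [h3] at h5
  exact h5

theorem Pr.gen0 (hyp : Hyp G) (h : MB T) {U : Subgroup G} (hU : U ≠ ⊥) (hU2 : IsPGroup 2 U)
    (hle : normalizer (BB T : Set G) ≤ normalizer (U : Set G)) :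
    ¬ (∀ X V z, Pr T (BB T) X V z → X ≤ normalizer (U : Set G)) := by
  intro hcon
  have hch : Ch T (BB T) := ⟨1, (cj_one _).symm⟩
  by_cases hs : Syl ⊤ T
  · -- both maximal 2-locals over `T` are contained in `normalizer U`
    have key : ∀ M, ML M → T ≤ M → normalizer (U : Set G) = M := by
      intro M hM hTM
      obtain ⟨⟨W, hW2, hW, hMW⟩, hmax⟩ := hM
      have hsyl : Syl (normalizer (W : Set G)) T := by
        rw [← hMW]
        exact ⟨hTM, h.bad.2.1, fun R hR hTR _ => hs.2.2 R hR hTR le_top⟩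
      obtain ⟨Q, hQ⟩ := hyp.mkLoc hW hW2 hsyl
      apply hmax _ (TL.mk hU hU2)
      rw [hMW]
      apply hQ.gen
      · intro k _ hk
        exact hle (C2.normZ hyp hs (norm_ZJ_of_JJ hk))
      · intro X V₀ z hp _
        exact hcon X V₀ z ⟨hch, hp, fun hns => absurd hs hns⟩
    obtain ⟨-, -, M₁, M₂, h3, h4, h5, h6, h7⟩ := h.bad
    exact h5 ((key M₁ h3 h6).symm.trans (key M₂ h4 h7))
  · obtain ⟨M, hM⟩ := h.exists_C1 hs
    obtain ⟨L, hL, hTL, hLM⟩ := hM.exists_L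
    have hsyl := hM.syl hL.1 hLM hTL
    obtain ⟨W, hW2, hW, rfl⟩ := hL.1
    obtain ⟨Q, hQ⟩ := hyp.mkLoc hW hW2 hsyl
    apply hLM
    apply hQ.gen
    · intro k _ hk
      exact hM.normJ hk
    · intro X V₀ z hp _
      by_contra hXM
      have h1 : Pr T (BB T) X V₀ z := by
        refine ⟨hch, hp, fun _ W' hW' hW2' hle' hX' => ?_⟩
        exact hXM (hX'.trans (hM.normB (TL.mk hW' hW2') hle'))
      exact h1.2.2 hs U hU hU2 hle (hcon X V₀ z h1)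

theorem Pr.gen (hyp : Hyp G) (h : MB T) (hC : Ch T C) {U : Subgroup G} (hU : U ≠ ⊥) (hU2 : IsPGroup 2 U)
    (hle : normalizer (C : Set G) ≤ normalizer (U : Set G)) :
    ¬ (∀ X V z, Pr T C X V z → X ≤ normalizer (U : Set G)) := by
  obtain ⟨g, rfl⟩ := hC
  intro hcon
  apply Pr.gen0 hyp h (U := ZN.cj g⁻¹ U) (fun e => hU (cj_bot_iff.1 e)) (cj_isPGroup hU2)
  · rw [← cj_normalizer, ← cj_le_iff, cj_normalizer]; exact hle
  · intro X V z hp
    have h1 := hcon _ _ _ (hp.cj g)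
    rw [← cj_normalizer, ← cj_le_iff]; exact h1

theorem mkGeo (hyp : Hyp G) (h : MB T) : Geo (Ch T) (Pr T) where
  chC g _ hC := hC.cj g
  ch2 := by
    rintro _ ⟨g, rfl⟩
    exact cj_isPGroup (h.bad.2.1.to_le (BB_le T))
  chB := by
    rintro _ ⟨g, rfl⟩
    rw [BB_cj]
    congr 1
    rw [BB, ZJ_BB, BB, inf_assoc, inf_idem]
  chN := by
    rintro _ ⟨g, rfl⟩ e
    exact h.BB_ne (cj_bot_iff.1 e)
  prC g _ _ _ _ hp := hp.cj g
  pz hp := hp.2.1
  ch hp := hp.1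
  res := by
    intro C X V z X' V' z' U hp hp' hU hU2 hX hX'
    obtain ⟨Q, S, hCS, hQ, hB⟩ := hp.loc hyp h hU hU2 hX
    have q : PZ (BB S) X V z := by rw [hB]; exact hp.2.1
    have q' : PZ (BB S) X' V' z' := by rw [hB]; exact hp'.2.1
    exact ⟨hQ.PZ_norm q' hX' q hX, fun v hv v' hv' => hQ.PZ_comm q hX q' hX' hv hv',
      fun v hv hv' hv1 => hQ.PZ_eq q hX q' hX' hv hv' hv1⟩
  cent hp hx2 hxZ hxV := hp.cent hyp h hx2 hxZ hxV
  gen hC hU hU2 hle := Pr.gen hyp h hC hU hU2 hle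

end H55.ZN
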