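import Cfsg.Agent.Lib.H55.ZN21

set_option autoImplicit false
set_option linter.unusedSimpArgs false

/-! The alternative (2) of the conclusion (C) and the final statement. -/

namespace H55.ZN

open Subgroup

variable {G : Type*} [Group G] [Finite G] {T : Subgroup G}

theorem ZJ_four {C : Subgroup G} {z c : G} (h4 : Nat.card (ZJ C) ≤ 4) (hz : z ∈ ZJ C) (hz1 : z ≠ 1) (hc : c ∈ ZJ C)
    (hc1 : c ≠ 1) (hzc : z ≠ c) {w : G} (hw : w ∈ ZJ C) : w = 1 ∨ w = z ∨ w = c ∨ w = z * c := by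
  classical
  by_contra hcon
  push Not at hcon
  obtain ⟨n1, n2, n3, n4⟩ := hcon
  have hzz := ZJ_ex2 C z hz
  have hcc := ZJ_ex2 C c hc
  let f : Fin 5 → ZJ C := ![1, ⟨z, hz⟩, ⟨c, hc⟩, ⟨z * c, mul_mem hz hc⟩, ⟨w, hw⟩]
  have e1 : z * c ≠ 1 := fun e => hzc (by
    rw [← hcc] at e
    exact mul_right_cancel e)
  have e2 : z * c ≠ z := fun e => hc1 (by simpa using e)
  have e3 : z * c ≠ c := fun e => hz1 (by simpa using e)
  have hf : Function.Injective f := by
    intro i j hij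
    have h1 : ((f i : ZJ C) : G) = f j := congrArg Subtype.val hij
    fin_cases i <;> fin_cases j <;> first | rfl | (exfalso; simp [f] at h1) 
    all_goals first | exact hz1 h1 | exact hz1 h1.symm | exact hc1 h1 | exact hc1 h1.symm | exact hzc h1 |
      exact hzc h1.symm | exact e1 h1 | exact e1 h1.symm | exact e2 h1 | exact e2 h1.symm | exact e3 h1 |
      exact e3 h1.symm | exact n1 h1 | exact n1 h1.symm | exact n2 h1 | exact n2 h1.symm | exact n3 h1 |
      exact n3 h1.symm | exact n4 h1 | exact n4 h1.symm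
  have := Nat.card_le_card_of_injective f hf
  rw [Nat.card_fin] at this
  omega

theorem alt2 (hyp : Hyp G) (h : MB T) (hs : Syl ⊤ T) {C C' : Subgroup G} {c : G} (hC : Ch T C) (hC' : Ch T C')
    (h4 : Nat.card (ZJ C) ≤ 4) (hc : c ∈ ZJ C) (hc' : c ∈ ZJ C') (hc1 : c ≠ 1) : C' = C ∨ Adj (Pr T) C C' := by
  have hcc := ZJ_ex2 C c hc
  have geo := mkGeo hyp h
  set L := normalizer ((zpowers c : Subgroup G) : Set G) with hL
  have hU : zpowers c ≠ ⊥ := fun e => hc1 (zpowers_eq_bot.1 e)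
  have hU2 : IsPGroup 2 (zpowers c) := (ex2_zpowers hcc).isPGroup
  have hLc : ∀ x ∈ L, x * c = c * x := by
    intro x hx
    have h1 := conj_mem_of_norm hx (mem_zpowers c)
    obtain ⟨k, hk⟩ := mem_zpowers_iff.1 h1
    rcases Int.even_or_odd' k with ⟨m, rfl | rfl⟩
    · rw [zpow_mul, zpow_two, hcc, one_zpow] at hk
      exfalso
      apply hc1
      have : c = x⁻¹ * (x * c * x⁻¹) * x := by group
      rw [this, ← hk]; group
    · rw [zpow_add, zpow_mul, zpow_two, hcc, one_zpow, one_mul, zpow_one] at hk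
      exact (eq_mul_inv_iff_mul_eq.1 hk).symm
  have hCL : ∀ {C : Subgroup G}, Ch T C → c ∈ ZJ C → C ≤ L := by
    intro C hC hc x hx
    exact le_norm_zpowers (X := C) (fun x hx => geo.zj_comm hC hx hc) hx
  obtain ⟨S, hS, hCS⟩ := Syl.exists (geo.ch2 hC) (hCL hC hc)
  obtain ⟨S', hS', hCS'⟩ := Syl.exists (geo.ch2 hC') (hCL hC' hc')
  -- good
  have hgood : ∀ {C R : Subgroup G}, Ch T C → IsPGroup 2 R → C ≤ R → BB R = C := by
    rintro _ R ⟨g, rfl⟩ hR hle
    have h1 := (C2.good h hs (cj_isPGroup hR (g := g⁻¹)) (cj_le_iff.1 hle)).2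
    rw [BB_cj] at h1
    rw [← h1, cj_cj_inv]
  have hBS := hgood hC hS.2.1 hCS
  have hBS' := hgood hC' hS'.2.1 hCS'
  obtain ⟨l, hl, hle⟩ := hS.conj hS'.2.1 hS'.1
  have hSl : S' = cj l S := by
    apply Subgroup.eq_of_le_of_card_ge hle
    rw [card_cj]
    exact hS'.card_le hS.2.1 hS.1
  have hCl : C' = cj l C := by rw [← hBS', hSl, BB_cj, hBS]
  obtain ⟨Q, hQ⟩ := hyp.mkLoc hU hU2 hS
  have hZS : ZJ S = ZJ C := by rw [← ZJ_BB, hBS]
  -- normalizer of ZJ C
  have hNZ : normalizer (ZJ C : Set G) ≤ normalizer (C : Set G) := by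
    obtain ⟨g, rfl⟩ := hC
    have h1 := cj_mono (g := g) (C2.normZ hyp hs)
    rw [cj_normalizer, cj_normalizer, ← ZJ_cj, ← ZJ_BB, BB_cj] at h1
    exact h1
  have hJN : ∀ k, k ∈ normalizer (JJ S : Set G) → k ∈ normalizer (C : Set G) := by
    intro k hk
    apply hNZ
    rw [← hZS]
    exact norm_ZJ_of_JJ hk
  by_cases hex : ∃ X V z, PZ C X V z ∧ X ≤ L
  · right
    obtain ⟨X, V, z, hp, hX⟩ := hex
    have hzc : ∀ {X V : Subgroup G} {z : G}, PZ C X V z → X ≤ L → z ≠ c := by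
      intro X V z hp hX e
      obtain ⟨v, hv, hv1, hvz, -⟩ := hp.three
      obtain ⟨x, hx, hxv⟩ := hp.tr v hv hv1
      apply hvz
      rw [← hxv, e, hLc x (hX hx), mul_inv_cancel_right]
    have hQP : ∀ {X V : Subgroup G} {z : G}, PZ C X V z → PZ (BB S) X V z := by
      intro X V z hp; rw [hBS]; exact hp
    have huniq : ∀ X' V' z', PZ C X' V' z' → X' ≤ L → V' = V := by
      intro X' V' z' hp' hX'
      have hz1 := hp.z1
      have e4 := ZJ_four h4 hp.zZ hp.z1 hc hc1 (hzc hp hX) hp'.zZ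
      rcases e4 with e | e | e | e
      · exact absurd e hp'.z1
      · exact (hQ.PZ_eq (hQP hp) hX (hQP hp') hX' hp.zV (e ▸ hp'.zV) hp.z1).symm
      · exact absurd e (hzc hp' hX')
      · obtain ⟨v, hv, hv1, hvz, -⟩ := hp.three
        obtain ⟨x, hx, hxv⟩ := hp.tr v hv hv1
        have h1 : x * z' * x⁻¹ = v * c := by
          calc x * z' * x⁻¹ = (x * z * x⁻¹) * (x * c * x⁻¹) := by rw [e]; group
            _ = v * c := by rw [hxv, hLc x (hX hx), mul_inv_cancel_right]
        have h2 : v * c ∈ V' := by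
          rw [← h1]
          exact conj_mem_of_norm (hQ.PZ_norm (hQP hp) hX (hQP hp') hX' hx) hp'.zV
        have hzz := hp.V2 z hp.zV
        have hcz : c * z = z * c := (ZJ_ex2 C).comm hc hp.zZ
        have h3 : v * z = (v * c) * z' := by
          rw [e, mul_assoc, ← hcz, ← mul_assoc c c z, hcc, one_mul]
        have h4' : v * z ∈ V' := by rw [h3]; exact mul_mem h2 hp'.zV
        have h5 : v * z ≠ 1 := fun e => hvz (by rw [← hzz] at e; exact mul_right_cancel e)
        exact (hQ.PZ_eq (hQP hp) hX (hQP hp') hX' (mul_mem hv hp.zV) h4' h5).symm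
    have hLV : L ≤ normalizer (V : Set G) := by
      apply hQ.gen
      · intro k hkL hk
        have hkC := hJN k hk
        have h1 := hp.cj k
        rw [cj_eq_iff.2 hkC] at h1
        have hkX : cj k X ≤ cj k L := cj_mono hX
        rw [cj_self (show k ∈ L from hkL)] at hkX
        have h2 := huniq _ _ _ h1 hkX
        exact cj_eq_iff.1 h2
      · intro X' V' z' hp' hX'
        rw [hBS] at hp'
        rw [← huniq _ _ _ hp' hX']
        exact hp'.XV
    have h1 : l * z * l⁻¹ ∈ V := conj_mem_of_norm (hLV hl) hp.zV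
    have h2 : l * z * l⁻¹ ≠ 1 := by
      intro e
      apply hp.z1
      have : z = l⁻¹ * (l * z * l⁻¹) * l := by group
      rw [this, e]; group
    obtain ⟨x, hx, hxz⟩ := hp.tr _ h1 h2
    refine ⟨X, V, z, ⟨hC, hp, fun hns => absurd hs hns⟩, x, hx, ?_⟩
    have hkz : (x⁻¹ * l) * z = z * (x⁻¹ * l) := by
      calc (x⁻¹ * l) * z = x⁻¹ * (l * z * l⁻¹) * l := by group
        _ = x⁻¹ * (x * z * x⁻¹) * l := by rw [hxz]
        _ = z * (x⁻¹ * l) := by group
    have hkc : (x⁻¹ * l) * c = c * (x⁻¹ * l) := hLc _ (L.mul_mem (L.inv_mem (hX hx)) hl)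
    have hkN : x⁻¹ * l ∈ normalizer (C : Set G) := by
      apply hNZ
      apply mem_normalizer_of_le
      intro u hu
      have h3 : (x⁻¹ * l) * u = u * (x⁻¹ * l) := by
        rcases ZJ_four h4 hp.zZ hp.z1 hc hc1 (hzc hp hX) hu with e | e | e | e
        · rw [e]; simp
        · rw [e]; exact hkz
        · rw [e]; exact hkc
        · rw [e, ← mul_assoc, hkz, mul_assoc, hkc, mul_assoc]
      rw [h3, mul_inv_cancel_right]; exact hu
    rw [hCl]
    have e : l = x * (x⁻¹ * l) := by group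
    rw [e, cj_mul, cj_eq_iff.2 hkN]
  · left
    push Not at hex
    have h1 : L ≤ normalizer (C : Set G) := by
      apply hQ.gen
      · intro k _ hk
        exact hJN k hk
      · intro X V z hp hX
        rw [hBS] at hp
        exact absurd hX (hex X V z hp)
    rw [hCl]
    exact cj_eq_iff.2 (h1 hl)

theorem main (hyp : Hyp G) {H : Subgroup G} (hH : H = Subgroup.closure {g : G | Odd (orderOf g)}) :
    ∃ M₁ M₂ : Subgroup H, M₁ ≠ M₂ ∧ Cfsg.IsMaximalTwoLocal M₁ ∧ Cfsg.IsMaximalTwoLocal M₂ ∧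
      Nonempty (M₁ ≃* Equiv.Perm (Fin 4)) ∧ Nonempty (M₂ ≃* Equiv.Perm (Fin 4)) ∧ Nat.card ↥(M₁ ⊓ M₂) = 8 := by
  obtain ⟨T, h⟩ := hyp.exists_MB
  have geo := mkGeo hyp h
  have hC : Ch T (BB T) := ⟨1, (cj_one _).symm⟩
  obtain ⟨C, X, V, z, X', V', z', hp, hp', hn⟩ := geo.conclC hC (by
    by_cases hs : Syl ⊤ T
    · right
      intro C C' c hC hC' h4 hc hc' hc1
      exact alt2 hyp h hs hC hC' h4 hc hc' hc1
    · left
      intro C X V z U hp hU hU2 hle
      exact hp.2.2 hs U hU hU2 hle)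
  apply geo.final ?_ hp hp' hn hH
  intro C X V z U hp hU hU2 hX
  exact hp.loc hyp h hU hU2 hX

end H55.ZN
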