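import Cfsg.Agent.Lib.H55.ZN2
import Cfsg.Agent.Lib.H55.FFOrb

set_option autoImplicit false
set_option linter.unusedSimpArgs false
set_option linter.unusedSectionVars false

/-! Local analysis: `Y = ZJ · V`, Frattini, the group `C ∩ Q`. -/

namespace H55.ZN

open Subgroup

variable {G : Type*} [Group G]

theorem mem_sup_norm {H N : Subgroup G} (h : H ≤ normalizer (N : Set G)) {x : G} (hx : x ∈ H ⊔ N) :
    ∃ a ∈ H, ∃ b ∈ N, x = a * b := by
  have h1 : x ∈ ((H ⊔ N : Subgroup G) : Set G) := hx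
  rw [coe_mul_of_left_le_normalizer_right H N h] at h1
  obtain ⟨a, ha, b, hb, hab⟩ := h1
  exact ⟨a, ha, b, hb, hab.symm⟩

theorem mem_om_cj {l z : G} {S : Subgroup G} : z ∈ om (cj l S) ↔ l⁻¹ * z * l ∈ om S := by
  rw [mem_om, mem_om, mem_cj]
  constructor
  · rintro ⟨h1, h2, h3⟩
    refine ⟨h1, ?_, fun s hs => ?_⟩
    · calc l⁻¹ * z * l * (l⁻¹ * z * l) = l⁻¹ * (z * z) * l := by group
        _ = 1 := by rw [h2]; group
    · have := h3 _ (conj_mem_cj hs)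
      calc s * (l⁻¹ * z * l) = l⁻¹ * ((l * s * l⁻¹) * z) * l := by group
        _ = l⁻¹ * (z * (l * s * l⁻¹)) * l := by rw [this]
        _ = l⁻¹ * z * l * s := by group
  · rintro ⟨h1, h2, h3⟩
    refine ⟨h1, ?_, fun s hs => ?_⟩
    · calc z * z = l * (l⁻¹ * z * l * (l⁻¹ * z * l)) * l⁻¹ := by group
        _ = 1 := by rw [h2]; group
    · have := h3 _ (mem_cj.1 hs)
      calc s * z = l * ((l⁻¹ * s * l) * (l⁻¹ * z * l)) * l⁻¹ := by group
        _ = l * ((l⁻¹ * z * l) * (l⁻¹ * s * l)) * l⁻¹ := by rw [this]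
        _ = z * s := by group

theorem cj_self {L : Subgroup G} {l : G} (hl : l ∈ L) : cj l L = L := by
  ext x
  rw [mem_cj]
  constructor
  · intro h
    have := L.mul_mem (L.mul_mem hl h) (L.inv_mem hl)
    have e : l * (l⁻¹ * x * l) * l⁻¹ = x := by group
    rwa [e] at this
  · intro h
    exact L.mul_mem (L.mul_mem (L.inv_mem hl) h) hl

theorem VV_cj {L S : Subgroup G} {l : G} (hl : l ∈ L) : VV L (cj l S) = VV L S := by
  rw [VV, VV]
  congr 1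
  ext x
  constructor
  · rintro ⟨k, hk, z, hz, rfl⟩
    rw [mem_om_cj] at hz
    exact ⟨k * l, L.mul_mem hk hl, _, hz, by group⟩
  · rintro ⟨k, hk, z, hz, rfl⟩
    refine ⟨k * l⁻¹, L.mul_mem hk (L.inv_mem hl), l * z * l⁻¹, ?_, by group⟩
    rw [mem_om_cj]
    have : l⁻¹ * (l * z * l⁻¹) * l = z := by group
    rw [this]; exact hz

/-- commutation is conjugation invariant -/
theorem comm_cj_iff {l x y : G} : (l * x * l⁻¹) * y = y * (l * x * l⁻¹) ↔ x * (l⁻¹ * y * l) = (l⁻¹ * y * l) * x := by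
  constructor
  · intro h
    calc x * (l⁻¹ * y * l) = l⁻¹ * ((l * x * l⁻¹) * y) * l := by group
      _ = l⁻¹ * (y * (l * x * l⁻¹)) * l := by rw [h]
      _ = (l⁻¹ * y * l) * x := by group
  · intro h
    calc (l * x * l⁻¹) * y = l * (x * (l⁻¹ * y * l)) * l⁻¹ := by group
      _ = l * ((l⁻¹ * y * l) * x) * l⁻¹ := by rw [h]
      _ = y * (l * x * l⁻¹) := by group

section loc

variable [Finite G] {L Q S : Subgroup G} (h : Loc L Q S)

include h

theorem Loc.conj {l : G} (hl : l ∈ L) : Loc L Q (cj l S) := by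
  refine ⟨h.sol, h.QL, h.Qn, h.Q2, h.Qmax, h.cen, ?_, ?_⟩
  · have := h.syl.cj l
    rwa [cj_self hl] at this
  · intro x hx hc
    have h1 : l⁻¹ * x * l ∈ normalizer (S : Set G) := by
      apply h.zz _ (L.mul_mem (L.mul_mem (L.inv_mem hl) hx) hl)
      intro z hz
      have h2 := hc (l * z * l⁻¹) (by
        rw [mem_om_cj]
        have : l⁻¹ * (l * z * l⁻¹) * l = z := by group
        rw [this]; exact hz)
      calc l⁻¹ * x * l * z = l⁻¹ * (x * (l * z * l⁻¹)) * l := by group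
        _ = l⁻¹ * ((l * z * l⁻¹) * x) * l := by rw [h2]
        _ = z * (l⁻¹ * x * l) := by group
    rw [← cj_normalizer, mem_cj]; exact h1

/-- `A ↦ (A^l ∩ C(V)) V` -/
theorem Loc.star {l : G} (hl : l ∈ L) {A : Subgroup G} (hA : IsA S A) :
    IsA S ((cj l A ⊓ centralizer (VV L S : Set G)) ⊔ VV L S) := by
  have h1 := ((h.conj hl).offender (isA_cj.2 hA)).2
  rw [VV_cj hl] at h1
  have hc : ∀ x ∈ (cj l A ⊓ centralizer (VV L S : Set G)) ⊔ VV L S, ∀ v ∈ VV L S, x * v = v * x := by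
    intro x hx v hv
    have h2 : (cj l A ⊓ centralizer (VV L S : Set G)) ⊔ VV L S ≤ centralizer (VV L S : Set G) := by
      apply sup_le inf_le_right
      intro y hy
      rw [mem_centralizer_iff]
      intro w hw
      exact h.V2.comm hw hy
    exact (mem_centralizer_iff.1 (h2 hx) v hv).symm
  have hQ : (cj l A ⊓ centralizer (VV L S : Set G)) ⊔ VV L S ≤ Q := by
    intro x hx
    apply (h.conj hl).cenS (h1.1 hx)
    rw [VV_cj hl]
    exact hc x hx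
  exact hA.of_card (hQ.trans h.QS) h1.2.1 (by rw [isA_card_eq h1 (isA_cj.2 hA), card_cj])

theorem Loc.ZJ_dec {l : G} (hl : l ∈ L) {A : Subgroup G} (hA : IsA S A) {u : G} (hu : u ∈ ZJ S) :
    ∃ b ∈ cj l A, (∀ v ∈ VV L S, b * v = v * b) ∧ ∃ v ∈ VV L S, u = b * v := by
  have h1 := (h.star hl hA).ZJ_le hu
  have h2 : cj l A ⊓ centralizer (VV L S : Set G) ≤ normalizer (VV L S : Set G) := by
    have : cj l A ≤ L := by
      rw [← cj_self hl]; exact cj_mono (hA.1.trans h.syl.1)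
    exact inf_le_left.trans (this.trans VV_norm)
  obtain ⟨b, hb, v, hv, e⟩ := mem_sup_norm h2 h1
  exact ⟨b, (mem_inf.1 hb).1, fun w hw => (mem_centralizer_iff.1 (mem_inf.1 hb).2 w hw).symm, v, hv, e⟩

theorem Loc.V_le_JJ : VV L S ≤ JJ S := by
  obtain ⟨A, hA⟩ := exists_isA S
  exact (le_sup_right).trans (h.offender hA).2.le_JJ

theorem Loc.comm_conj {l : G} (hl : l ∈ L) {A : Subgroup G} (hA : IsA S A) {a : G} (ha : a ∈ cj l A)
    {u : G} (hu : u ∈ ZJ S) : ∃ v ∈ VV L S, a * u * a⁻¹ = u * v ∧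
      ∀ z, (∀ v ∈ VV L S, a * v * a⁻¹ = v ∨ a * v * a⁻¹ = v * z) → v = 1 ∨ v = z := by
  obtain ⟨b, hb, hbc, v, hv, rfl⟩ := h.ZJ_dec hl hA hu
  have haL : a ∈ L := by
    have : cj l A ≤ L := by
      rw [← cj_self hl]; exact cj_mono (hA.1.trans h.syl.1)
    exact this ha
  have hab : a * b = b * a := (isA_cj.2 hA).2.1.comm ha hb
  have haV : a * v * a⁻¹ ∈ VV L S := conj_mem_of_norm (VV_norm haL) hv
  have e1 : a * (b * v) * a⁻¹ = b * (a * v * a⁻¹) := by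
    calc a * (b * v) * a⁻¹ = (a * b) * v * a⁻¹ := by group
      _ = b * (a * v * a⁻¹) := by rw [hab]; group
  refine ⟨v⁻¹ * (a * v * a⁻¹), mul_mem (inv_mem hv) haV, ?_, ?_⟩
  · rw [e1]; group
  · intro z hz
    rcases hz v hv with h1 | h1
    · left; rw [h1]; group
    · right; rw [h1]; group

/-- normal closure of `JJ S` in `L` -/
def NJ (L S : Subgroup G) : Subgroup G := closure {x | ∃ l ∈ L, ∃ j ∈ JJ S, x = l * j * l⁻¹}

omit h in
theorem NJ_norm {L S : Subgroup G} : L ≤ normalizer (NJ L S : Set G) := by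
  intro l hl
  apply mem_normalizer_of_le
  intro x hx
  rw [NJ] at hx ⊢
  induction hx using closure_induction with
  | mem x hx =>
    obtain ⟨k, hk, z, hz, rfl⟩ := hx
    apply Subgroup.subset_closure
    exact ⟨l * k, L.mul_mem hl hk, z, hz, by group⟩
  | one => simp
  | mul y z _ _ h3 h4 =>
    have : l * (y * z) * l⁻¹ = (l * y * l⁻¹) * (l * z * l⁻¹) := by group
    rw [this]; exact mul_mem h3 h4
  | inv y _ h3 =>
    have : l * y⁻¹ * l⁻¹ = (l * y * l⁻¹)⁻¹ := by group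
    rw [this]; exact inv_mem h3

theorem Loc.NJ_le : NJ L S ≤ L := by
  rw [NJ, closure_le]
  rintro x ⟨l, hl, j, hj, rfl⟩
  exact L.mul_mem (L.mul_mem hl (h.syl.1 (JJ_le S hj))) (L.inv_mem hl)

omit h in
theorem JJ_le_NJ {L S : Subgroup G} : JJ S ≤ NJ L S := fun j hj =>
  Subgroup.subset_closure ⟨1, L.one_mem, j, hj, by group⟩

/-- induction principle for `NJ` -/
theorem Loc.NJ_ind {P : G → Prop} (hP : ∀ l ∈ L, ∀ A, IsA S A → ∀ a ∈ A, P (l * a * l⁻¹)) (h1 : P 1)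
    (hm : ∀ x y, x ∈ L → y ∈ L → P x → P y → P (x * y)) (hi : ∀ x, x ∈ L → P x → P x⁻¹) {x : G} (hx : x ∈ NJ L S) :
    P x := by
  have hJ : ∀ l ∈ L, ∀ j ∈ JJ S, P (l * j * l⁻¹) := by
    intro l hl j hj
    have hj' := hj
    rw [JJ_eq_closure] at hj
    have key : P (l * j * l⁻¹) ∧ j ∈ L := by
      induction hj using closure_induction with
      | mem y hy => obtain ⟨A, hA, ha⟩ := hy; exact ⟨hP l hl A hA y ha, h.syl.1 (hA.1 ha)⟩
      | one => exact ⟨by simpa using h1, L.one_mem⟩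
      | mul y z hy hz h3 h4 =>
        obtain ⟨h3a, h3b⟩ := h3 (by rw [JJ_eq_closure]; exact hy)
        obtain ⟨h4a, h4b⟩ := h4 (by rw [JJ_eq_closure]; exact hz)
        have : l * (y * z) * l⁻¹ = (l * y * l⁻¹) * (l * z * l⁻¹) := by group
        refine ⟨?_, L.mul_mem h3b h4b⟩
        rw [this]
        exact hm _ _ (L.mul_mem (L.mul_mem hl h3b) (L.inv_mem hl)) (L.mul_mem (L.mul_mem hl h4b) (L.inv_mem hl)) h3a h4a
      | inv y hy h3 =>
        obtain ⟨h3a, h3b⟩ := h3 (by rw [JJ_eq_closure]; exact hy)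
        have : l * y⁻¹ * l⁻¹ = (l * y * l⁻¹)⁻¹ := by group
        refine ⟨?_, L.inv_mem h3b⟩
        rw [this]
        exact hi _ (L.mul_mem (L.mul_mem hl h3b) (L.inv_mem hl)) h3a
    exact key.1
  have hx' := hx
  rw [NJ] at hx
  have key : P x ∧ x ∈ L := by
    induction hx using closure_induction with
    | mem y hy =>
      obtain ⟨l, hl, j, hj, rfl⟩ := hy
      exact ⟨hJ l hl j hj, L.mul_mem (L.mul_mem hl (h.syl.1 (JJ_le S hj))) (L.inv_mem hl)⟩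
    | one => exact ⟨h1, L.one_mem⟩
    | mul y z hy hz h3 h4 =>
      obtain ⟨h3a, h3b⟩ := h3 hy
      obtain ⟨h4a, h4b⟩ := h4 hz
      exact ⟨hm _ _ h3b h4b h3a h4a, L.mul_mem h3b h4b⟩
    | inv y hy h3 =>
      obtain ⟨h3a, h3b⟩ := h3 hy
      exact ⟨hi _ h3b h3a, L.inv_mem h3b⟩
  exact key.1

/-- Frattini -/
theorem Loc.frattini {l : G} (hl : l ∈ L) :
    ∃ n ∈ NJ L S, ∃ k ∈ L, k ∈ normalizer (JJ S : Set G) ∧ l = n * k := by
  set P := S ⊓ NJ L S with hP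
  have hJP : JJ S ≤ P := le_inf (JJ_le S) JJ_le_NJ
  have hPsyl : Syl (NJ L S) P := by
    refine ⟨inf_le_right, h.syl.2.1.to_le inf_le_left, ?_⟩
    intro R hR hPR hRN
    -- S·R?  use conjugation
    obtain ⟨k, hk, hkR⟩ := h.syl.conj hR (hRN.trans h.NJ_le)
    have h1 : cj k⁻¹ R ≤ P := by
      apply le_inf
      · rw [← cj_inv_cj k S]; exact cj_mono hkR
      · have : cj k⁻¹ (NJ L S) = NJ L S := cj_eq_iff.2 (NJ_norm (L.inv_mem hk))
        rw [← this]; exact cj_mono hRN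
    have h2 : Nat.card R ≤ Nat.card P := by
      rw [← card_cj k⁻¹ R]
      exact Nat.le_of_dvd Nat.card_pos (Subgroup.card_dvd_of_le h1)
    exact (Subgroup.eq_of_le_of_card_ge hPR h2).ge
  have h1 : cj l P ≤ NJ L S := by
    have : cj l (NJ L S) = NJ L S := cj_eq_iff.2 (NJ_norm hl)
    rw [← this]; exact cj_mono hPsyl.1
  obtain ⟨n, hn, hle⟩ := hPsyl.conj (cj_isPGroup hPsyl.2.1) h1
  have h2 : cj l P = cj n P := Subgroup.eq_of_le_of_card_ge hle (by rw [card_cj, card_cj])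
  refine ⟨n, hn, n⁻¹ * l, L.mul_mem (L.inv_mem (h.NJ_le hn)) hl, ?_, by group⟩
  have h3 : n⁻¹ * l ∈ normalizer (P : Set G) := by
    rw [← cj_eq_iff, cj_mul, h2, cj_inv_cj]
  have h4 := norm_JJ h3
  rwa [JJ_eq_of_le hJP inf_le_left] at h4

/-- `[NJ, ZJ] ≤ V` -/
theorem Loc.NJ_comm {n : G} (hn : n ∈ NJ L S) {u : G} (hu : u ∈ ZJ S) : n * u * n⁻¹ * u⁻¹ ∈ VV L S := by
  have key : ∀ u ∈ ZJ S, n * u * n⁻¹ * u⁻¹ ∈ VV L S := by
    refine h.NJ_ind (P := fun n => ∀ u ∈ ZJ S, n * u * n⁻¹ * u⁻¹ ∈ VV L S) ?_ ?_ ?_ ?_ hn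
    · intro l hl A hA a ha u hu
      obtain ⟨v, hv, e, -⟩ := h.comm_conj hl hA (conj_mem_cj ha) hu
      rw [e]
      have h1 : u * v * u⁻¹ = v := by
        have : v * u = u * v := h.VQ_comm hv (by
          obtain ⟨b, hb, hbc, w, hw, rfl⟩ := h.ZJ_dec L.one_mem hA hu
          rw [cj_one] at hb
          exact mul_mem (h.cenS (hA.1 hb) hbc) (h.VQ hw))
        rw [← this]; group
      rw [h1]; exact hv
    · intro u _
      simp
    · intro x y hx hy h1 h2 u hu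
      have e : x * y * u * (x * y)⁻¹ * u⁻¹ = (x * (y * u * y⁻¹ * u⁻¹) * x⁻¹) * (x * u * x⁻¹ * u⁻¹) := by group
      rw [e]
      exact mul_mem (conj_mem_of_norm (VV_norm hx) (h2 u hu)) (h1 u hu)
    · intro x hx h1 u hu
      have e : x⁻¹ * u * x⁻¹⁻¹ * u⁻¹ = x⁻¹ * (x * u * x⁻¹ * u⁻¹)⁻¹ * x⁻¹⁻¹ := by group
      rw [e]
      exact conj_mem_of_norm (VV_norm (L.inv_mem hx)) (inv_mem (h1 u hu))
  exact key u hu

theorem Loc.ZJQ : ZJ S ≤ Q := by
  intro u hu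
  obtain ⟨A, hA⟩ := exists_isA S
  obtain ⟨b, hb, hbc, w, hw, rfl⟩ := h.ZJ_dec L.one_mem hA hu
  rw [cj_one] at hb
  exact mul_mem (h.cenS (hA.1 hb) hbc) (h.VQ hw)

/-- `ZJ · V` is normal in `L` -/
theorem Loc.Y_norm {l : G} (hl : l ∈ L) {u : G} (hu : u ∈ ZJ S) : ∃ v ∈ VV L S, ∃ w ∈ ZJ S, l * u * l⁻¹ = v * w := by
  obtain ⟨n, hn, k, hk, hkJ, rfl⟩ := h.frattini hl
  have h1 : k * u * k⁻¹ ∈ ZJ S := conj_mem_of_norm (norm_ZJ_of_JJ hkJ) hu
  refine ⟨_, h.NJ_comm hn h1, _, h1, by group⟩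

/-- `O_B = BB S ⊓ Q` is normal in `L` -/
theorem Loc.OB_norm : L ≤ normalizer ((BB S ⊓ Q : Subgroup G) : Set G) := by
  intro l hl
  apply mem_normalizer_of_le
  intro y hy
  obtain ⟨hyB, hyQ⟩ := mem_inf.1 hy
  have h1 : l * y * l⁻¹ ∈ Q := conj_mem_of_norm (h.Qn hl) hyQ
  refine mem_inf.2 ⟨mem_BB.2 ⟨h.QS h1, fun u hu => ?_⟩, h1⟩
  obtain ⟨v, hv, w, hw, e⟩ := h.Y_norm (L.inv_mem hl) hu
  rw [inv_inv] at e
  symm
  rw [comm_cj_iff, e]
  have e1 : y * v = v * y := (h.VQ_comm hv hyQ).symm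
  have e2 : w * y = y * w := (mem_BB.1 hyB).2 w hw
  rw [← mul_assoc, e1, mul_assoc, ← e2, mul_assoc]

/-- `[C_L(V), C^l] ≤ O_B` -/
theorem Loc.DL_comm {x : G} (hx : x ∈ L) (hxc : ∀ v ∈ VV L S, x * v = v * x) {l : G} (hl : l ∈ L) {c : G}
    (hc : c ∈ BB S) : x * (l * c * l⁻¹) * x⁻¹ * (l * c * l⁻¹)⁻¹ ∈ BB S ⊓ Q := by
  have key : ∀ x ∈ L, (∀ v ∈ VV L S, x * v = v * x) → x * c * x⁻¹ * c⁻¹ ∈ BB S ⊓ Q := by
    intro x hx hxc
    have h1 : x ∈ normalizer (S : Set G) := h.zz x hx (fun z hz => hxc z (om_le_VV hz))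
    have h2 := norm_BB h1
    have hB : x * c * x⁻¹ * c⁻¹ ∈ BB S := mul_mem (conj_mem_of_norm h2 hc) (inv_mem hc)
    refine mem_inf.2 ⟨hB, h.cenS (BB_le S hB) ?_⟩
    intro v hv
    have hcL : c ∈ L := h.syl.1 (BB_le S hc)
    -- x c x⁻¹ c⁻¹ centralizes V
    have h3 : c⁻¹ * v * c ∈ VV L S := by
      have := conj_mem_of_norm (VV_norm (L.inv_mem hcL)) hv
      rwa [inv_inv] at this
    have h4 := hxc _ h3
    have h5 := hxc v hv
    have h6 : x⁻¹ * (c⁻¹ * v * c) = (c⁻¹ * v * c) * x⁻¹ := by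
      rw [inv_mul_eq_iff_eq_mul, ← mul_assoc, h4]; group
    calc x * c * x⁻¹ * c⁻¹ * v = x * c * (x⁻¹ * (c⁻¹ * v * c)) * c⁻¹ := by group
      _ = x * c * ((c⁻¹ * v * c) * x⁻¹) * c⁻¹ := by rw [h6]
      _ = (x * v) * (c * x⁻¹ * c⁻¹) := by group
      _ = v * (x * c * x⁻¹ * c⁻¹) := by rw [h5]; group
  have h1 := key (l⁻¹ * x * l) (L.mul_mem (L.mul_mem (L.inv_mem hl) hx) hl) (by
    intro v hv
    have h2 := hxc _ (conj_mem_of_norm (VV_norm hl) hv)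
    calc l⁻¹ * x * l * v = l⁻¹ * (x * (l * v * l⁻¹)) * l := by group
      _ = l⁻¹ * ((l * v * l⁻¹) * x) * l := by rw [h2]
      _ = v * (l⁻¹ * x * l) := by group)
  have h2 := conj_mem_of_norm (h.OB_norm hl) h1
  have e : l * (l⁻¹ * x * l * c * (l⁻¹ * x * l)⁻¹ * c⁻¹) * l⁻¹ = x * (l * c * l⁻¹) * x⁻¹ * (l * c * l⁻¹)⁻¹ := by group
  rwa [e] at h2

end loc

end H55.ZN
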