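import Cfsg.Agent.Lib.H55.ZN3

set_option autoImplicit false
set_option linter.unusedSimpArgs false
set_option linter.unusedSectionVars false

/-! The minimal parabolics `X_a`. -/

namespace H55.ZN

open Subgroup

variable {G : Type*} [Group G]

structure PZ (C X V : Subgroup G) (z : G) : Prop where
  CX : C ≤ X
  VC : V ≤ C
  V2 : Ex2 V
  XV : X ≤ normalizer (V : Set G)
  zV : z ∈ V
  z1 : z ≠ 1
  zZ : z ∈ ZJ C
  ZV : ∀ x ∈ X, ∀ u ∈ ZJ C, x * u * x⁻¹ * u⁻¹ ∈ V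
  st : ∀ x ∈ X, x * z = z * x → x ∈ C
  tr : ∀ v ∈ V, v ≠ 1 → ∃ x ∈ X, x * z * x⁻¹ = v
  cv : ∀ c ∈ C, ∀ v ∈ V, c * v * c⁻¹ = v ∨ c * v * c⁻¹ = v * z
  three : ∃ v ∈ V, v ≠ 1 ∧ v ≠ z ∧ ∀ w ∈ V, w = 1 ∨ w = z ∨ w = v ∨ w = z * v
  mv : ∃ j ∈ JJ C, j * j = 1 ∧ ∀ v ∈ V, v ≠ 1 → v ≠ z → j * v * j⁻¹ = v * z

theorem abs_comm {H : Type*} [Group H] {x g u : H} (h : x * g * x⁻¹ = u * g) (hux : u * x = x * u)
    (hug : u * g = g * u) {m : ℕ} (hx : x ^ m = 1) : x * g ^ m = g ^ m * x := by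
  have h1 : ∀ n : ℕ, x * g ^ n * x⁻¹ = u ^ n * g ^ n := by
    intro n
    have : x * g ^ n * x⁻¹ = (x * g * x⁻¹) ^ n := by rw [conj_pow]
    rw [this, h, (show Commute u g from hug).mul_pow]
  have h2 : g * x * g⁻¹ = u⁻¹ * x := by
    have e1 : x * g = u * g * x := by rw [← h]; group
    have e2 : u⁻¹ * x * g = g * x := by rw [mul_assoc, e1]; group
    rw [← e2]; group
  have h3 : u ^ m = 1 := by
    have e1 : g * x ^ m * g⁻¹ = (u⁻¹ * x) ^ m := by rw [← h2, conj_pow]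
    have hc : Commute u⁻¹ x := (show Commute u x from hux).inv_left
    rw [hx, hc.mul_pow, hx] at e1
    simpa using e1.symm
  have h4 := h1 m
  rw [h3, one_mul, mul_inv_eq_iff_eq_mul] at h4
  exact h4

theorem quot_comm {L N : Subgroup G} (hN : L ≤ normalizer (N : Set G)) {x g u : G} (hx : x ∈ L) (hg : g ∈ L)
    (hu : u ∈ L) (h : x * g * x⁻¹ = u * g) (hux : u * x * u⁻¹ * x⁻¹ ∈ N)
    (hug : u * g * u⁻¹ * g⁻¹ ∈ N) {m : ℕ} (hxm : x ^ m = 1) : x * g ^ m * x⁻¹ * (g ^ m)⁻¹ ∈ N := by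
  haveI : (N.subgroupOf L).Normal := Subgroup.normal_subgroupOf_of_le_normalizer hN
  let π := QuotientGroup.mk' (N.subgroupOf L)
  have hker : ∀ y : L, π y = 1 ↔ y.1 ∈ N := by
    intro y
    rw [← MonoidHom.mem_ker, QuotientGroup.ker_mk', mem_subgroupOf]
  let x' : L := ⟨x, hx⟩
  let g' : L := ⟨g, hg⟩
  let u' : L := ⟨u, hu⟩
  have e1 : π x' * π g' * (π x')⁻¹ = π u' * π g' := by
    rw [← map_inv, ← map_mul, ← map_mul, ← map_mul]
    congr 1
    exact Subtype.ext h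
  have e2 : π u' * π x' = π x' * π u' := by
    have := (hker (u' * x' * u'⁻¹ * x'⁻¹)).2 hux
    rw [map_mul, map_mul, map_mul, map_inv, map_inv, mul_inv_eq_one, mul_inv_eq_iff_eq_mul] at this
    exact this
  have e3 : π u' * π g' = π g' * π u' := by
    have := (hker (u' * g' * u'⁻¹ * g'⁻¹)).2 hug
    rw [map_mul, map_mul, map_mul, map_inv, map_inv, mul_inv_eq_one, mul_inv_eq_iff_eq_mul] at this
    exact this
  have e4 : (π x') ^ m = 1 := by
    rw [← map_pow]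
    have : x' ^ m = 1 := Subtype.ext hxm
    rw [this, map_one]
  have e5 := abs_comm e1 e2 e3 e4
  have e6 := (hker (x' * g' ^ m * x'⁻¹ * (g' ^ m)⁻¹)).1 (by
    rw [map_mul, map_mul, map_mul, map_inv, map_inv, map_pow, e5]
    group)
  exact e6

theorem pow_big [Finite G] {C : Subgroup G} (hC : IsPGroup 2 C) {x : G} (hx : x ∈ C) : x ^ (2 ^ Nat.card G) = 1 := by
  haveI : Fact (Nat.Prime 2) := ⟨Nat.prime_two⟩
  obtain ⟨k, hk⟩ := hC ⟨x, hx⟩
  have h1 : x ^ 2 ^ k = 1 := congrArg Subtype.val hk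
  obtain ⟨j, hj, hj'⟩ := (Nat.dvd_prime_pow Nat.prime_two).1 (orderOf_dvd_of_pow_eq_one h1)
  apply orderOf_dvd_iff_pow_eq_one.1
  rw [hj']
  apply pow_dvd_pow
  have h2 : 2 ^ j ≤ Nat.card G := by
    rw [← hj']; exact Nat.le_of_dvd Nat.card_pos (orderOf_dvd_natCard x)
  exact (Nat.lt_two_pow_self).le.trans h2

theorem odd_pow_big [Finite G] (g : G) : Odd (orderOf (g ^ (2 ^ Nat.card G))) := by
  set n := orderOf g with hn
  have hn0 : n ≠ 0 := (orderOf_pos g).ne'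
  obtain ⟨i, r, hr, hir⟩ := Nat.exists_eq_two_pow_mul_odd hn0
  have hi : i ≤ Nat.card G := by
    have h1 : 2 ^ i ∣ Nat.card G := (Dvd.intro r hir.symm).trans (by rw [hn]; exact orderOf_dvd_natCard g)
    exact (Nat.lt_two_pow_self).le.trans (Nat.le_of_dvd Nat.card_pos h1)
  have h1 : (g ^ (2 ^ Nat.card G)) ^ r = 1 := by
    rw [← pow_mul]
    apply orderOf_dvd_iff_pow_eq_one.1
    rw [← hn, hir]
    exact Nat.mul_dvd_mul (pow_dvd_pow 2 hi) dvd_rfl
  exact hr.of_dvd_nat (orderOf_dvd_of_pow_eq_one h1)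

theorem exists_four {z z' : G} (hz : z * z = 1) (hz' : z' * z' = 1) (hc : z' * z = z * z') :
    ∃ V : Subgroup G, ∀ w, w ∈ V ↔ w = 1 ∨ w = z ∨ w = z' ∨ w = z * z' := by
  have a1 : ∀ w : G, z * (z * w) = w := fun w => by rw [← mul_assoc, hz, one_mul]
  have a2 : ∀ w : G, z' * (z' * w) = w := fun w => by rw [← mul_assoc, hz', one_mul]
  have a3 : ∀ w : G, z' * (z * w) = z * (z' * w) := fun w => by rw [← mul_assoc, hc, mul_assoc]
  have i1 : z⁻¹ = z := inv_eq_of_mul_eq_one_left hz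
  have i2 : z'⁻¹ = z' := inv_eq_of_mul_eq_one_left hz'
  refine ⟨{ carrier := {w | w = 1 ∨ w = z ∨ w = z' ∨ w = z * z'}, one_mem' := Or.inl rfl,
            mul_mem' := ?_, inv_mem' := ?_ }, fun w => Iff.rfl⟩
  · intro x y hx hy
    rcases hx with rfl | rfl | rfl | rfl <;> rcases hy with rfl | rfl | rfl | rfl <;>
      simp [mul_assoc, a1, a2, a3, hz, hz', hc]
  · intro x hx
    rcases hx with rfl | rfl | rfl | rfl <;> simp [i1, i2, hc]

section loc

variable [Finite G] {L Q S : Subgroup G} (h : Loc L Q S)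

include h

theorem Loc.ac_mem_pgroup {F : Subgroup (MulAut (VV L S))} (hF : FF.FX (XX L S) F) {x : G} (hx : x ∈ S)
    (hxF : ac (VV L S) x ∈ F) : ac (VV L S) x = 1 := by
  apply hF.eq_one hxF (n := Nat.card G)
  have hpow : ∀ n : ℕ, (ac (VV L S) x) ^ n = ac (VV L S) (x ^ n) := by
    intro n
    have hxN := VV_norm (L := L) (S := S) (h.syl.1 hx)
    induction n with
    | zero => rw [pow_zero, pow_zero, ac_one]
    | succ n ih => rw [pow_succ, pow_succ, ih, ac_mul (pow_mem hxN n) hxN]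
  rw [hpow, pow_big h.syl.2.1 hx, ac_one]

/-- transvections of `B ∈ IsA S` fix the centers of those of `A ∈ IsA S` -/
theorem Loc.center_fix {F : Subgroup (MulAut (VV L S))} (hF : FF.FX (XX L S) F) {a b : G} (ha : a ∈ S)
    {c : VV L S} (hta : FF.Tv (ac (VV L S) a) c) (hb : b ∈ S) {d : VV L S}
    (htb : FF.Tv (ac (VV L S) b) d) : ac (VV L S) b c = c := by
  by_contra hcon
  have haL := h.syl.1 ha
  have hbL := h.syl.1 hb
  have hV := hV' h.V2
  obtain ⟨f, hf, he⟩ := hF.noncomm hV htb (ac_mem hbL) hta (ac_mem haL) hcon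
  have h1 := hF.mem_prod' hV hta (ac_mem haL) hf
  rw [← he, ← ac_mul (VV_norm hbL) (VV_norm haL)] at h1
  have h2 := h.ac_mem_pgroup hF (S.mul_mem hb ha) h1
  rw [ac_mul (VV_norm hbL) (VV_norm haL)] at h2
  have h3 : ac (VV L S) b = ac (VV L S) a := by
    rw [mul_eq_one_iff_eq_inv, hta.inv hV] at h2
    exact h2
  rw [h3] at hcon
  exact hcon (hta.fix hV)

/-- centers are in `ZJ S` -/
theorem Loc.center_ZJ {A : Subgroup G} (hA : IsA S A) {a : G} (ha : a ∈ A) {c : VV L S}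
    (hta : FF.Tv (ac (VV L S) a) c) : (c : G) ∈ ZJ S := by
  obtain ⟨F, hF⟩ := h.exists_F
  apply mem_ZJ (h.QS (h.VQ c.2)) (h.V2 c.1 c.2)
  intro j hj
  apply comm_JJ (T := S) ?_ hj
  intro B hB b hb
  have h1 := (h.offender hB).1 b hb
  have hbL := h.syl.1 (hB.1 hb)
  have h2 : ac (VV L S) b c = c := by
    generalize hbt : ac (VV L S) b = t at h1
    clear hbt
    induction h1 using closure_induction with
    | mem x hx =>
      obtain ⟨⟨b', hb', rfl⟩, d, hd⟩ := hx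
      exact h.center_fix hF (hA.1 ha) hta (hB.1 hb') hd
    | one => rfl
    | mul x y _ _ h3 h4 => rw [MulAut.mul_apply, h4, h3]
    | inv x _ h3 =>
      conv_lhs => rw [← h3]
      exact MulAut.inv_apply_self _ x c
  have h3 := ac_apply (VV_norm hbL) c
  rw [h2, eq_mul_inv_iff_mul_eq] at h3
  exact h3

theorem Loc.exists_PZ {F : Subgroup (MulAut (VV L S))} (hF : FF.FX (XX L S) F) {A : Subgroup G} (hA : IsA S A)
    {a : G} (ha : a ∈ A) {c : VV L S} (hta : FF.Tv (ac (VV L S) a) c) {f : MulAut (VV L S)} (hf : f ∈ F)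
    (hne : f * ac (VV L S) a * f⁻¹ ≠ ac (VV L S) a) :
    ∃ X V₀, PZ (BB S) X V₀ (c : G) ∧ X ≤ L ∧ ∃ x ∈ X, ac (VV L S) x = f * ac (VV L S) a * f⁻¹ := by
  have hV := hV' h.V2
  have hV2 := h.V2
  obtain ⟨l, hl, hfl⟩ := mem_XX.1 (hF.le hf)
  have hN := VV_norm (L := L) (S := S)
  have haS := hA.1 ha
  have haL := h.syl.1 haS
  have haa : a * a = 1 := hA.2.1 a ha
  have haC : a ∈ BB S := JJ_le_BB S (hA.le_JJ ha)
  have hBL : BB S ≤ L := (BB_le S).trans h.syl.1
  set t := ac (VV L S) a with ht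
  have htX : t ∈ XX L S := ac_mem haL
  set a' := l * a * l⁻¹ with ha'
  have ha'L : a' ∈ L := L.mul_mem (L.mul_mem hl haL) (L.inv_mem hl)
  have ha'a' : a' * a' = 1 := by
    calc a' * a' = l * (a * a) * l⁻¹ := by rw [ha']; group
      _ = 1 := by rw [haa]; group
  set t' := f * t * f⁻¹ with ht'
  have hat' : ac (VV L S) a' = t' := by
    rw [ha', ac_mul (hN (L.mul_mem hl haL)) (hN (L.inv_mem hl)), ac_mul (hN hl) (hN haL), ac_inv (hN hl), ← hfl]
  have ht'T : FF.Tv t' (f c) := hta.conj f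
  have ht'X : t' ∈ XX L S := by rw [← hat']; exact ac_mem ha'L
  set z : G := c.1 with hz
  set z' : G := (f c).1 with hz'
  have hzV : z ∈ VV L S := c.2
  have hz'V : z' ∈ VV L S := (f c).2
  have hz1 : z ≠ 1 := fun h1 => hta.c1 (Subtype.ext h1)
  have hz'1 : z' ≠ 1 := fun h1 => ht'T.c1 (Subtype.ext h1)
  have hzz' : z' ≠ z := fun h1 => hF.orb_ne hV hta htX hf hne (Subtype.ext h1)
  have hz2 := hV2 z hzV
  have hz'2 := hV2 z' hz'V
  have hcomm : z' * z = z * z' := hV2.comm hz'V hzV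
  have hzZ : z ∈ ZJ S := h.center_ZJ hA ha hta
  -- actions
  have P := hF.pair hV hta htX hf hne
  have az : a * z * a⁻¹ = z := by
    rw [← ac_apply (hN haL) c]; exact congrArg Subtype.val (hta.fix hV)
  have az' : a * z' * a⁻¹ = z * z' := by
    have h1 := ac_apply (hN haL) (f c)
    rw [show ac (VV L S) a = t from rfl, P.1] at h1
    rw [← hcomm]; exact h1.symm
  have a'z : a' * z * a'⁻¹ = z * z' := by
    have h1 := ac_apply (hN ha'L) c
    rw [hat', P.2] at h1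
    exact h1.symm
  have a'z' : a' * z' * a'⁻¹ = z' := by
    have h1 := ac_apply (hN ha'L) (f c)
    rw [hat', ht'T.fix hV] at h1
    exact h1.symm
  have a'v : ∀ v ∈ VV L S, a' * v * a'⁻¹ = v ∨ a' * v * a'⁻¹ = v * z' := by
    intro v hv
    have h1 := ac_apply (hN ha'L) ⟨v, hv⟩
    rw [hat'] at h1
    rcases ht'T.mv ⟨v, hv⟩ with h2 | h2
    · left; rw [h2] at h1; exact h1.symm
    · right; rw [h2] at h1; exact h1.symm
  have hCz : ∀ x ∈ BB S, x * z * x⁻¹ = z := by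
    intro x hx
    have := (mem_BB.1 hx).2 z hzZ
    rw [← this]; group
  have hcfix : ∀ x ∈ BB S, ac (VV L S) x c = c := by
    intro x hx
    apply Subtype.ext
    rw [ac_apply (hN (hBL hx))]
    exact hCz x hx
  have hCz' : ∀ x ∈ BB S, x * z' * x⁻¹ = z' ∨ x * z' * x⁻¹ = z * z' := by
    intro x hx
    have hxX := ac_mem (L := L) (S := S) (hBL hx)
    have o1 := hF.orb_map hxX (⟨f, hf, rfl⟩ : FF.Orb F c (f c))
    rw [hcfix x hx] at o1
    have h1 := ac_apply (hN (hBL hx)) (f c)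
    rcases hF.orb_cases hV hta htX hf hne o1 with e | e | e
    · exfalso
      apply hF.orb_ne hV hta htX hf hne
      have : ac (VV L S) x (f c) = ac (VV L S) x c := by rw [hcfix x hx]; exact e
      exact (ac (VV L S) x).injective this
    · left
      rw [e] at h1; exact h1.symm
    · right
      rw [e] at h1; exact h1.symm
  set g := a * a' with hg
  have hgL : g ∈ L := L.mul_mem haL ha'L
  have gz : g * z * g⁻¹ = z' := by
    calc g * z * g⁻¹ = a * (a' * z * a'⁻¹) * a⁻¹ := by rw [hg]; group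
      _ = (a * z * a⁻¹) * (a * z' * a⁻¹) := by rw [a'z]; group
      _ = z' := by rw [az, az', ← mul_assoc, hz2, one_mul]
  have gz' : g * z' * g⁻¹ = z * z' := by
    calc g * z' * g⁻¹ = a * (a' * z' * a'⁻¹) * a⁻¹ := by rw [hg]; group
      _ = z * z' := by rw [a'z', az']
  have gzz : g * (z * z') * g⁻¹ = z := by
    calc g * (z * z') * g⁻¹ = (g * z * g⁻¹) * (g * z' * g⁻¹) := by group
      _ = z := by rw [gz, gz', ← mul_assoc, hcomm, mul_assoc, hz'2, mul_one]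
  have gpow : ∀ n : ℕ, (n % 3 = 0 → g ^ n * z * (g ^ n)⁻¹ = z) ∧ (n % 3 = 1 → g ^ n * z * (g ^ n)⁻¹ = z') ∧
      (n % 3 = 2 → g ^ n * z * (g ^ n)⁻¹ = z * z') := by
    intro n
    induction n with
    | zero => refine ⟨fun _ => by simp, fun h => by omega, fun h => by omega⟩
    | succ n ih =>
      obtain ⟨i0, i1, i2⟩ := ih
      have e : g ^ (n + 1) * z * (g ^ (n + 1))⁻¹ = g * (g ^ n * z * (g ^ n)⁻¹) * g⁻¹ := by
        rw [pow_succ']; group
      refine ⟨fun h => ?_, fun h => ?_, fun h => ?_⟩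
      · rw [e, i2 (by omega), gzz]
      · rw [e, i0 (by omega), gz]
      · rw [e, i1 (by omega), gz']
  set m := 2 ^ Nat.card G with hm
  have hm3 : m % 3 = 1 ∨ m % 3 = 2 := by
    have : ∀ k : ℕ, (2 ^ k) % 3 = 1 ∨ (2 ^ k) % 3 = 2 := by
      intro k
      induction k with
      | zero => left; rfl
      | succ k ih => rw [pow_succ]; omega
    exact this _
  set d := g ^ m with hd
  have hdL : d ∈ L := L.pow_mem hgL m
  have hdodd : Odd (orderOf d) := odd_pow_big g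
  have ada : a * d * a⁻¹ = d⁻¹ := by
    have h1 : a * g * a⁻¹ = g⁻¹ := by
      have i1 : a⁻¹ = a := inv_eq_of_mul_eq_one_left haa
      have i2 : a'⁻¹ = a' := inv_eq_of_mul_eq_one_left ha'a'
      rw [hg, mul_inv_rev, i2, i1, ← mul_assoc, haa, one_mul]
    rw [hd, ← conj_pow, h1, inv_pow]
  -- OB
  have hOBn := h.OB_norm
  have hOB2 : IsPGroup 2 (BB S ⊓ Q : Subgroup G) := h.Q2.to_le inf_le_right
  -- t t' has order 3
  have hcube : (t * t') ^ 3 = 1 := by
    apply FF.cube hV hta ht'T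
    · exact P.1
    · exact P.2
  have hacg : ac (VV L S) g = t * t' := by rw [hg, ac_mul (hN haL) (hN ha'L), hat']
  have hacpow : ∀ n : ℕ, ac (VV L S) (g ^ n) = (t * t') ^ n := by
    intro n
    induction n with
    | zero => rw [pow_zero, pow_zero, ac_one]
    | succ n ih => rw [pow_succ, pow_succ, ac_mul (hN (L.pow_mem hgL n)) (hN hgL), ih, hacg]
  have hd3V : ∀ v ∈ VV L S, d ^ 3 * v = v * d ^ 3 := by
    have h1 : ac (VV L S) (d ^ 3) = 1 := by
      rw [hd, ← pow_mul, mul_comm m 3, pow_mul]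
      have h3 : ∀ n : ℕ, ac (VV L S) ((g ^ 3) ^ n) = 1 := by
        intro n
        rw [← pow_mul, hacpow, pow_mul, hcube, one_pow]
      exact h3 m
    exact (ac_eq_one (hN (L.pow_mem hdL 3))).1 h1
  have hd3 : d ^ 3 = 1 := by
    have h1 := h.DL_comm (L.pow_mem hdL 3) hd3V L.one_mem haC
    have e1 : d ^ 3 * (1 * a * 1⁻¹) * (d ^ 3)⁻¹ * (1 * a * 1⁻¹)⁻¹ = d ^ 6 := by
      have : a * (d ^ 3)⁻¹ * a⁻¹ = d ^ 3 := by
        rw [← inv_pow, ← conj_pow]
        have : a * d⁻¹ * a⁻¹ = d := by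
          have h7 := congrArg (·⁻¹) ada
          simp only [inv_inv] at h7
          conv_rhs => rw [← h7]
          group
        rw [this]
      calc d ^ 3 * (1 * a * 1⁻¹) * (d ^ 3)⁻¹ * (1 * a * 1⁻¹)⁻¹ = d ^ 3 * (a * (d ^ 3)⁻¹ * a⁻¹) := by group
        _ = d ^ 6 := by rw [this, ← pow_add]
    rw [e1] at h1
    have h2 := pow_big hOB2 h1
    have h3 : orderOf (d ^ 6) ∣ 2 ^ Nat.card G := orderOf_dvd_of_pow_eq_one h2
    have h4 : orderOf (d ^ 6) ∣ orderOf d := orderOf_pow_dvd 6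
    have h5 : Nat.Coprime (2 ^ Nat.card G) (orderOf d) := Nat.Coprime.pow_left _ (Nat.coprime_two_left.2 hdodd)
    have h6 : orderOf (d ^ 6) = 1 := Nat.eq_one_of_dvd_coprimes h5 h3 h4
    have h7 : d ^ 6 = 1 := orderOf_eq_one_iff.1 h6
    have h8 : orderOf d ∣ 6 := orderOf_dvd_of_pow_eq_one h7
    have h9 : orderOf d ∣ 3 := by
      have : Nat.Coprime (orderOf d) 2 := Nat.coprime_two_right.2 hdodd
      exact this.dvd_of_dvd_mul_left (by simpa using h8)
    exact orderOf_dvd_iff_pow_eq_one.1 h9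
  -- elements of C centralizing z'
  have hK : ∀ x ∈ BB S, x * z' * x⁻¹ = z' → d * x * d⁻¹ ∈ BB S := by
    intro x hx hxz'
    have hxL := hBL hx
    have hxX := ac_mem (L := L) (S := S) hxL
    set u := x * g * x⁻¹ * g⁻¹ with hu
    have huL : u ∈ L := L.mul_mem (L.mul_mem (L.mul_mem hxL hgL) (L.inv_mem hxL)) (L.inv_mem hgL)
    have c1 := hF.comm_of_fix hV hxX hta htX (hcfix x hx)
    have c2 := hF.comm_of_fix hV hxX ht'T ht'X (by
      apply Subtype.ext
      rw [ac_apply (hN hxL)]; exact hxz')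
    have huV : ∀ v ∈ VV L S, u * v = v * u := by
      apply (ac_eq_one (hN huL)).1
      rw [hu, ac_mul (hN (L.mul_mem (L.mul_mem hxL hgL) (L.inv_mem hxL))) (hN (L.inv_mem hgL)),
        ac_mul (hN (L.mul_mem hxL hgL)) (hN (L.inv_mem hxL)), ac_mul (hN hxL) (hN hgL), ac_inv (hN hxL),
        ac_inv (hN hgL), hacg]
      have e : ac (VV L S) x * (t * t') * (ac (VV L S) x)⁻¹ = (ac (VV L S) x * t * (ac (VV L S) x)⁻¹) * (ac (VV L S) x * t' * (ac (VV L S) x)⁻¹) := by group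
      rw [e]
      have c1' : ac (VV L S) x * t * (ac (VV L S) x)⁻¹ = t := c1
      rw [c1', c2]; group
    have q1 := h.DL_comm huL huV L.one_mem hx
    have q2 := h.DL_comm huL huV L.one_mem haC
    have q3 := h.DL_comm huL huV hl haC
    have r1 : u * x * u⁻¹ * x⁻¹ ∈ BB S ⊓ Q := by
      have e : u * x * u⁻¹ * x⁻¹ = u * (1 * x * 1⁻¹) * u⁻¹ * (1 * x * 1⁻¹)⁻¹ := by group
      rw [e]; exact q1
    have r2 : u * g * u⁻¹ * g⁻¹ ∈ BB S ⊓ Q := by
      have e : u * g * u⁻¹ * g⁻¹ = (u * (1 * a * 1⁻¹) * u⁻¹ * (1 * a * 1⁻¹)⁻¹) *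
          (a * (u * (l * a * l⁻¹) * u⁻¹ * (l * a * l⁻¹)⁻¹) * a⁻¹) := by
        rw [hg, ha']; group
      rw [e]
      exact mul_mem q2 (conj_mem_of_norm (hOBn haL) q3)
    have r3 := quot_comm hOBn hxL hgL huL (by rw [hu]; group) r1 r2 (pow_big (h.syl.2.1.to_le (BB_le S)) hx)
    have e : d * x * d⁻¹ = (x * g ^ (2 ^ Nat.card G) * x⁻¹ * (g ^ (2 ^ Nat.card G))⁻¹)⁻¹ * x := by
      rw [hd, ← hm]; group
    rw [e]
    exact mul_mem (inv_mem (mem_inf.1 r3).1) hx
  have hda : d * a = a * (d * d) := by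
    have h1 : d * a = a * d⁻¹ := by
      have i1 : a⁻¹ = a := inv_eq_of_mul_eq_one_left haa
      rw [← ada, i1]
      rw [← mul_assoc, ← mul_assoc, haa, one_mul]
    have h2 : d⁻¹ = d * d := by
      rw [inv_eq_iff_mul_eq_one, ← mul_assoc]
      rw [← hd3, pow_succ, pow_two]
    rw [h1, h2]
  have hdc : ∀ x ∈ BB S, ∃ x' ∈ BB S, ∃ j : ℕ, d * x = x' * d ^ j := by
    intro x hx
    rcases hCz' x hx with h1 | h1
    · exact ⟨_, hK x hx h1, 1, by group⟩
    · have h2 : (x * a) * z' * (x * a)⁻¹ = z' := by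
        calc (x * a) * z' * (x * a)⁻¹ = x * (a * z' * a⁻¹) * x⁻¹ := by group
          _ = (x * z * x⁻¹) * (x * z' * x⁻¹) := by rw [az']; group
          _ = z' := by rw [hCz x hx, h1, ← mul_assoc, hz2, one_mul]
      refine ⟨_, mul_mem (hK (x * a) (mul_mem hx haC) h2) haC, 2, ?_⟩
      have e : x = (x * a) * a := by rw [mul_assoc, haa, mul_one]
      calc d * x = (d * (x * a) * d⁻¹) * (d * a) := by
            conv_lhs => rw [e]
            group
        _ = (d * (x * a) * d⁻¹) * a * d ^ 2 := by rw [hda, pow_two]; group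
  have hdc' : ∀ i : ℕ, ∀ x ∈ BB S, ∃ x' ∈ BB S, ∃ j : ℕ, d ^ i * x = x' * d ^ j := by
    intro i
    induction i with
    | zero => intro x hx; exact ⟨x, hx, 0, by group⟩
    | succ i ih =>
      intro x hx
      obtain ⟨x1, hx1, j1, e1⟩ := hdc x hx
      obtain ⟨x2, hx2, j2, e2⟩ := ih x1 hx1
      refine ⟨x2, hx2, j2 + j1, ?_⟩
      rw [pow_succ, mul_assoc, e1, ← mul_assoc, e2, pow_add, mul_assoc]
  let X : Subgroup G :=
    { carrier := {x | ∃ y ∈ BB S, ∃ i : ℕ, x = y * d ^ i}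
      one_mem' := ⟨1, one_mem _, 0, by simp⟩
      mul_mem' := by
        rintro _ _ ⟨y, hy, i, rfl⟩ ⟨y', hy', i', rfl⟩
        obtain ⟨x1, hx1, j1, e1⟩ := hdc' i y' hy'
        refine ⟨y * x1, mul_mem hy hx1, j1 + i', ?_⟩
        calc y * d ^ i * (y' * d ^ i') = y * (d ^ i * y') * d ^ i' := by group
          _ = y * x1 * d ^ (j1 + i') := by rw [e1, pow_add]; group
      inv_mem' := by
        rintro _ ⟨y, hy, i, rfl⟩
        have e0 : (d ^ i)⁻¹ = d ^ (2 * i) := by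
          rw [inv_eq_iff_mul_eq_one, ← pow_add]
          have : i + 2 * i = 3 * i := by ring
          rw [this, pow_mul, hd3, one_pow]
        obtain ⟨x1, hx1, j1, e1⟩ := hdc' (2 * i) y⁻¹ (inv_mem hy)
        refine ⟨x1, hx1, j1, ?_⟩
        rw [mul_inv_rev, e0, e1] }
  have hXmem : ∀ x, x ∈ X ↔ ∃ y ∈ BB S, ∃ i : ℕ, x = y * d ^ i := fun x => Iff.rfl
  have hCX : BB S ≤ X := fun y hy => ⟨y, hy, 0, by simp⟩
  have hdX : d ∈ X := ⟨1, one_mem _, 1, by simp⟩
  obtain ⟨V₀, hV₀⟩ := exists_four hz2 hz'2 hcomm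
  have hV₀V : V₀ ≤ VV L S := by
    intro w hw
    rcases (hV₀ w).1 hw with rfl | rfl | rfl | rfl
    · exact one_mem _
    · exact hzV
    · exact hz'V
    · exact mul_mem hzV hz'V
  have hzV₀ : z ∈ V₀ := (hV₀ z).2 (Or.inr (Or.inl rfl))
  have hz'V₀ : z' ∈ V₀ := (hV₀ z').2 (Or.inr (Or.inr (Or.inl rfl)))
  have hnorm : ∀ x : G, x * z * x⁻¹ ∈ V₀ → x * z' * x⁻¹ ∈ V₀ → x ∈ normalizer (V₀ : Set G) := by
    intro x h1 h2
    apply mem_normalizer_of_le
    intro w hw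
    rcases (hV₀ w).1 hw with rfl | rfl | rfl | rfl
    · simp
    · exact h1
    · exact h2
    · have e : x * (z * z') * x⁻¹ = (x * z * x⁻¹) * (x * z' * x⁻¹) := by group
      rw [e]; exact mul_mem h1 h2
  have hCN : BB S ≤ normalizer (V₀ : Set G) := by
    intro x hx
    apply hnorm
    · rw [hCz x hx]; exact hzV₀
    · rcases hCz' x hx with e | e
      · rw [e]; exact hz'V₀
      · rw [e]; exact mul_mem hzV₀ hz'V₀
  have ha'N : a' ∈ normalizer (V₀ : Set G) := by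
    apply hnorm
    · rw [a'z]; exact mul_mem hzV₀ hz'V₀
    · rw [a'z']; exact hz'V₀
  have hgN : g ∈ normalizer (V₀ : Set G) := mul_mem (hCN haC) ha'N
  have hdN : d ∈ normalizer (V₀ : Set G) := pow_mem hgN m
  have hXN : X ≤ normalizer (V₀ : Set G) := by
    rintro x ⟨y, hy, i, rfl⟩
    exact mul_mem (hCN hy) (pow_mem hdN i)
  -- the ZV subgroup
  have hZmul : ∀ x y : G, x ∈ normalizer (V₀ : Set G) → (∀ u ∈ ZJ S, x * u * x⁻¹ * u⁻¹ ∈ V₀) →
      (∀ u ∈ ZJ S, y * u * y⁻¹ * u⁻¹ ∈ V₀) → ∀ u ∈ ZJ S, (x * y) * u * (x * y)⁻¹ * u⁻¹ ∈ V₀ := by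
    intro x y hx h1 h2 u hu
    have e : (x * y) * u * (x * y)⁻¹ * u⁻¹ = (x * (y * u * y⁻¹ * u⁻¹) * x⁻¹) * (x * u * x⁻¹ * u⁻¹) := by group
    rw [e]
    exact mul_mem (conj_mem_of_norm hx (h2 u hu)) (h1 u hu)
  have hZC : ∀ x ∈ BB S, ∀ u ∈ ZJ S, x * u * x⁻¹ * u⁻¹ ∈ V₀ := by
    intro x hx u hu
    have := (mem_BB.1 hx).2 u hu
    have e : x * u * x⁻¹ * u⁻¹ = 1 := by rw [← this]; group
    rw [e]; exact one_mem _
  have hZa' : ∀ u ∈ ZJ S, a' * u * a'⁻¹ * u⁻¹ ∈ V₀ := by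
    intro u hu
    obtain ⟨v, hv, e, h1⟩ := h.comm_conj hl hA (conj_mem_cj ha) hu
    have h2 := h1 z' a'v
    have e2 : u * v * u⁻¹ = v := by
      rw [← h.VQ_comm hv (h.ZJQ hu)]; group
    have e3 : a' * u * a'⁻¹ * u⁻¹ = v := by rw [← e2, ha', e]
    rw [e3]
    rcases h2 with rfl | rfl
    · exact one_mem _
    · exact hz'V₀
  have hZg := hZmul a a' (hCN haC) (hZC a haC) hZa'
  have hZgp : ∀ n : ℕ, ∀ u ∈ ZJ S, g ^ n * u * (g ^ n)⁻¹ * u⁻¹ ∈ V₀ := by
    intro n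
    induction n with
    | zero => intro u _; simp
    | succ n ih => rw [pow_succ]; exact hZmul _ _ (pow_mem hgN n) ih hZg
  have hpz : PZ (BB S) X V₀ z := by
    refine ⟨hCX, hV₀V.trans (h.V_le_JJ.trans (JJ_le_BB S)), hV2.mono hV₀V, hXN, hzV₀, hz1, ?_, ?_, ?_, ?_, ?_, ?_, ?_⟩
    · rw [ZJ_BB]; exact hzZ
    · rintro _ ⟨y, hy, i, rfl⟩
      rw [ZJ_BB]
      apply hZmul _ _ (hCN hy) (hZC y hy)
      rw [hd, ← pow_mul]
      exact hZgp _
    · rintro _ ⟨y, hy, i, rfl⟩ hc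
      have h1 : g ^ (m * i) * z * (g ^ (m * i))⁻¹ = z := by
        have e : y * d ^ i * z * (y * d ^ i)⁻¹ = z := by rw [hc]; group
        have e2 : d ^ i * z * (d ^ i)⁻¹ = y⁻¹ * z * y := by
          calc d ^ i * z * (d ^ i)⁻¹ = y⁻¹ * (y * d ^ i * z * (y * d ^ i)⁻¹) * y := by group
            _ = _ := by rw [e]
        have e3 : y⁻¹ * z * y = z := by
          have := hCz y⁻¹ (inv_mem hy)
          rwa [inv_inv] at this
        rw [pow_mul, ← hd, e2, e3]
      obtain ⟨-, i1, i2⟩ := gpow (m * i)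
      have h2 : (m * i) % 3 = 0 := by
        rcases (by omega : (m * i) % 3 = 0 ∨ (m * i) % 3 = 1 ∨ (m * i) % 3 = 2) with h3 | h3 | h3
        · exact h3
        · exfalso; apply hzz'; rw [← i1 h3, h1]
        · exfalso; apply hz'1
          have := i2 h3
          rw [h1] at this
          exact (mul_eq_left.1 this.symm)
      have h3 : i % 3 = 0 := by
        rw [Nat.mul_mod] at h2
        rcases hm3 with e | e <;> rw [e] at h2 <;> omega
      have h4 : d ^ i = 1 := by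
        obtain ⟨k, rfl⟩ := Nat.dvd_of_mod_eq_zero h3
        rw [pow_mul, hd3, one_pow]
      rw [h4, mul_one]; exact hy
    · intro v hv hv1
      have key : ∀ k : ℕ, k % 3 ≠ 0 → ∃ x ∈ X, x * z * x⁻¹ = g ^ k * z * (g ^ k)⁻¹ := by
        intro k hk
        have : ∃ i : ℕ, (m * i) % 3 = k % 3 := by
          rcases hm3 with e | e
          · refine ⟨k, ?_⟩
            rw [Nat.mul_mod, e]; omega
          · refine ⟨2 * k, ?_⟩
            rw [Nat.mul_mod, e]; omega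
        obtain ⟨i, hi⟩ := this
        refine ⟨d ^ i, X.pow_mem hdX i, ?_⟩
        rw [hd, ← pow_mul]
        obtain ⟨j0, j1, j2⟩ := gpow (m * i)
        obtain ⟨k0, k1, k2⟩ := gpow k
        rcases (by omega : k % 3 = 0 ∨ k % 3 = 1 ∨ k % 3 = 2) with e | e | e
        · exact absurd e hk
        · rw [j1 (by omega), k1 e]
        · rw [j2 (by omega), k2 e]
      rcases (hV₀ v).1 hv with e | e | e | e
      · exact absurd e hv1
      · exact ⟨1, one_mem _, by rw [e]; group⟩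
      · obtain ⟨x, hx, e'⟩ := key 1 (by norm_num)
        exact ⟨x, hx, by rw [e', (gpow 1).2.1 (by norm_num), e]⟩
      · obtain ⟨x, hx, e'⟩ := key 2 (by norm_num)
        exact ⟨x, hx, by rw [e', (gpow 2).2.2 (by norm_num), e]⟩
    · intro x hx v hv
      have cz := hCz x hx
      rcases (hV₀ v).1 hv with rfl | rfl | rfl | rfl
      · left; group
      · left; exact cz
      · rcases hCz' x hx with e | e
        · left; exact e
        · right; rw [e, hcomm]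
      · have e0 : x * (z * z') * x⁻¹ = (x * z * x⁻¹) * (x * z' * x⁻¹) := by group
        rcases hCz' x hx with e | e
        · left; rw [e0, cz, e]
        · right
          rw [e0, cz, e, mul_assoc z z' z, hcomm]
    · exact ⟨z', hz'V₀, hz'1, hzz', fun w hw => (hV₀ w).1 hw⟩
    · refine ⟨a, ?_, haa, ?_⟩
      · rw [JJ_BB]; exact hA.le_JJ ha
      · intro v hv hv1 hvz
        rcases (hV₀ v).1 hv with e | e | e | e
        · exact absurd e hv1
        · exact absurd e hvz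
        · rw [e, az', hcomm]
        · rw [e]
          have e0 : a * (z * z') * a⁻¹ = (a * z * a⁻¹) * (a * z' * a⁻¹) := by group
          rw [e0, az, az', mul_assoc z z' z, hcomm]
  refine ⟨X, V₀, hpz, ?_, ?_⟩
  · rintro x ⟨y, hy, i, rfl⟩
    exact L.mul_mem (hBL hy) (L.pow_mem hdL i)
  · have hdac : ac (VV L S) d = (t * t') ^ m := hacpow m
    have hsq : t * t = 1 := hta.sq hV
    have hsq' : t' * t' = 1 := ht'T.sq hV
    rcases hm3 with e | e
    · refine ⟨a * d, X.mul_mem (hCX haC) hdX, ?_⟩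
      have h1 : (t * t') ^ m = t * t' := by
        conv_lhs => rw [← Nat.div_add_mod m 3, e, pow_add, pow_mul, hcube, one_pow, one_mul, pow_one]
      rw [ac_mul (hN haL) (hN hdL), hdac, h1, ← mul_assoc, hsq, one_mul]
    · refine ⟨d * a, X.mul_mem hdX (hCX haC), ?_⟩
      have h1 : (t * t') ^ m = t' * t := by
        have h2 : (t * t') ^ m = (t * t') ^ 2 := by
          conv_lhs => rw [← Nat.div_add_mod m 3, e, pow_add, pow_mul, hcube, one_pow, one_mul]
        rw [h2]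
        have h3 : (t * t') ^ 2 * (t * t') = 1 := by rw [← pow_succ, hcube]
        rw [mul_eq_one_iff_eq_inv] at h3
        rw [h3, mul_inv_rev]
        rw [inv_eq_of_mul_eq_one_left hsq, inv_eq_of_mul_eq_one_left hsq']
      rw [ac_mul (hN hdL) (hN haL), hdac, h1, mul_assoc, hsq, mul_one]

end loc

end H55.ZN
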