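import Cfsg.Agent.Lib.H55.ZN4

set_option autoImplicit false
set_option linter.unusedSimpArgs false
set_option linter.unusedSectionVars false

/-! Consequences of `PZ`, generation of local subgroups, uniqueness. -/

namespace H55.ZN

open Subgroup

variable {G : Type*} [Group G]

theorem PZ.cases {C X V : Subgroup G} {z : G} (h : PZ C X V z) {v : G} (hv : v ∈ V) (hv1 : v ≠ 1) (hvz : v ≠ z)
    {w : G} (hw : w ∈ V) : w = 1 ∨ w = z ∨ w = v ∨ w = z * v := by
  obtain ⟨v₀, h0, h1, h2, h3⟩ := h.three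
  have hzz := h.V2 z h.zV
  have a1 : ∀ w : G, z * (z * w) = w := fun w => by rw [← mul_assoc, hzz, one_mul]
  rcases h3 v hv with e | e | e | e
  · exact absurd e hv1
  · exact absurd e hvz
  · rw [e]; exact h3 w hw
  · rw [e, a1]
    rcases h3 w hw with e' | e' | e' | e'
    · left; exact e'
    · right; left; exact e'
    · right; right; right; exact e'
    · right; right; left; exact e'

theorem PZ.zuniq [Finite G] {C X V : Subgroup G} {z : G} (h : PZ C X V z) {u : G} (hu : u ∈ V) (huZ : u ∈ ZJ C) :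
    u = 1 ∨ u = z := by
  obtain ⟨j, hj, -, hm⟩ := h.mv
  by_contra hcon
  push Not at hcon
  have h1 := hm u hu hcon.1 hcon.2
  have h2 := ZJ_comm huZ hj
  rw [← h2] at h1
  apply h.z1
  have h3 : u * j * j⁻¹ = u := by group
  rw [h3] at h1
  exact (mul_eq_left.1 h1.symm)

/-- generation -/
theorem PZ.gen {C X V : Subgroup G} {z : G} (h : PZ C X V z) {Y : Subgroup G} (hCY : C ≤ Y) {y : G} (hy : y ∈ Y)
    (hyX : y ∈ X) (hyz : y * z ≠ z * y) : X ≤ Y := by
  obtain ⟨j, hj, -, hm⟩ := h.mv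
  have hjC : j ∈ C := JJ_le C hj
  set v := y * z * y⁻¹ with hv
  have hvV : v ∈ V := conj_mem_of_norm (h.XV hyX) h.zV
  have hv1 : v ≠ 1 := by
    intro h1
    apply h.z1
    rw [hv] at h1
    have := conj_eq_one_iff.1 h1
    exact this
  have hvz : v ≠ z := by
    intro h1
    apply hyz
    rw [hv] at h1
    exact mul_inv_eq_iff_eq_mul.1 h1
  have hjv : j * v * j⁻¹ = v * z := hm v hvV hv1 hvz
  have hzv : z * v = v * z := h.V2.comm h.zV hvV
  intro x hx
  have hw : x * z * x⁻¹ ∈ V := conj_mem_of_norm (h.XV hx) h.zV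
  have key : ∃ y' ∈ Y, y' ∈ X ∧ x * z * x⁻¹ = y' * z * y'⁻¹ := by
    rcases h.cases hvV hv1 hvz hw with e | e | e | e
    · exfalso; exact h.z1 (conj_eq_one_iff.1 e)
    · exact ⟨1, one_mem _, one_mem _, by rw [e]; group⟩
    · exact ⟨y, hy, hyX, e⟩
    · refine ⟨j * y, Y.mul_mem (hCY hjC) hy, X.mul_mem (h.CX hjC) hyX, ?_⟩
      have : j * y * z * (j * y)⁻¹ = j * v * j⁻¹ := by rw [hv]; group
      rw [this, hjv, e, hzv]
  obtain ⟨y', hy', hy'X, e⟩ := key
  have h1 : y'⁻¹ * x ∈ C := by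
    apply h.st _ (X.mul_mem (X.inv_mem hy'X) hx)
    have e2 : y'⁻¹ * (x * z * x⁻¹) * y' = z := by rw [e]; group
    calc y'⁻¹ * x * z = (y'⁻¹ * (x * z * x⁻¹) * y') * (y'⁻¹ * x) := by group
      _ = z * (y'⁻¹ * x) := by rw [e2]
  have := Y.mul_mem hy' (hCY h1)
  rwa [mul_inv_cancel_left] at this

/-- centralizing generators -/
theorem PZ.cen_gen {C X V : Subgroup G} {z : G} (h : PZ C X V z) {u : G} (hu : ∀ c ∈ C, c * u = u * c) {y : G}
    (hyX : y ∈ X) (hyz : y * z ≠ z * y) (hyu : y * u = u * y) : ∀ x ∈ X, x * u = u * x := by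
  have h1 : X ≤ centralizer ({u} : Set G) := by
    apply h.gen (y := y) ?_ ?_ hyX hyz
    · intro c hc
      rw [mem_centralizer_iff]
      rintro _ rfl
      exact (hu c hc).symm
    · rw [mem_centralizer_iff]
      rintro _ rfl
      exact hyu.symm
  intro x hx
  exact (mem_centralizer_iff.1 (h1 hx) u rfl).symm

theorem cj_comm {g x y : G} (h : x * y = y * x) : (g * x * g⁻¹) * (g * y * g⁻¹) = (g * y * g⁻¹) * (g * x * g⁻¹) := by
  calc (g * x * g⁻¹) * (g * y * g⁻¹) = g * (x * y) * g⁻¹ := by group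
    _ = g * (y * x) * g⁻¹ := by rw [h]
    _ = _ := by group

theorem PZ.cj {C X V : Subgroup G} {z : G} (h : PZ C X V z) (g : G) :
    PZ (cj g C) (cj g X) (cj g V) (g * z * g⁻¹) := by
  have key : ∀ x y : G, g⁻¹ * (x * y * x⁻¹) * g = (g⁻¹ * x * g) * (g⁻¹ * y * g) * (g⁻¹ * x * g)⁻¹ := by
    intro x y; group
  have kz : g⁻¹ * (g * z * g⁻¹) * g = z := by group
  refine ⟨cj_mono h.CX, cj_mono h.VC, h.V2.cj g, ?_, conj_mem_cj h.zV, ?_, ?_, ?_, ?_, ?_, ?_, ?_, ?_⟩
  · rw [← cj_normalizer]; exact cj_mono h.XV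
  · intro e; exact h.z1 (conj_eq_one_iff.1 e)
  · rw [ZJ_cj]; exact conj_mem_cj h.zZ
  · intro x hx u hu
    rw [ZJ_cj] at hu
    rw [mem_cj] at *
    have := h.ZV _ hx _ hu
    have e : g⁻¹ * (x * u * x⁻¹ * u⁻¹) * g = (g⁻¹ * x * g) * (g⁻¹ * u * g) * (g⁻¹ * x * g)⁻¹ * (g⁻¹ * u * g)⁻¹ := by
      group
    rw [e]; exact this
  · intro x hx hc
    rw [mem_cj] at *
    apply h.st _ hx
    calc g⁻¹ * x * g * z = g⁻¹ * (x * (g * z * g⁻¹)) * g := by group
      _ = g⁻¹ * ((g * z * g⁻¹) * x) * g := by rw [hc]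
      _ = z * (g⁻¹ * x * g) := by group
  · intro v hv hv1
    rw [mem_cj] at hv
    obtain ⟨x, hx, e⟩ := h.tr _ hv (by
      intro e; apply hv1
      have : v = g * (g⁻¹ * v * g) * g⁻¹ := by group
      rw [this, e]; group)
    refine ⟨g * x * g⁻¹, conj_mem_cj hx, ?_⟩
    calc g * x * g⁻¹ * (g * z * g⁻¹) * (g * x * g⁻¹)⁻¹ = g * (x * z * x⁻¹) * g⁻¹ := by group
      _ = v := by rw [e]; group
  · intro c hc v hv
    rw [mem_cj] at hc hv
    rcases h.cv _ hc _ hv with e | e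
    · left
      calc c * v * c⁻¹ = g * ((g⁻¹ * c * g) * (g⁻¹ * v * g) * (g⁻¹ * c * g)⁻¹) * g⁻¹ := by group
        _ = v := by rw [e]; group
    · right
      calc c * v * c⁻¹ = g * ((g⁻¹ * c * g) * (g⁻¹ * v * g) * (g⁻¹ * c * g)⁻¹) * g⁻¹ := by group
        _ = v * (g * z * g⁻¹) := by rw [e]; group
  · obtain ⟨v, hv, hv1, hvz, hw⟩ := h.three
    refine ⟨g * v * g⁻¹, conj_mem_cj hv, fun e => hv1 (conj_eq_one_iff.1 e), fun e => hvz ?_, ?_⟩
    · have this : g⁻¹ * (g * v * g⁻¹) * g = g⁻¹ * (g * z * g⁻¹) * g := by rw [e]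
      have e1 : g⁻¹ * (g * v * g⁻¹) * g = v := by group
      rw [e1, kz] at this; exact this
    · intro w hw'
      rw [mem_cj] at hw'
      have e0 : w = g * (g⁻¹ * w * g) * g⁻¹ := by group
      rcases hw _ hw' with e | e | e | e
      · left; rw [e0, e]; group
      · right; left; rw [e0, e]
      · right; right; left; rw [e0, e]
      · right; right; right; rw [e0, e]; group
  · obtain ⟨j, hj, hj2, hm⟩ := h.mv
    refine ⟨g * j * g⁻¹, ?_, ?_, ?_⟩
    · rw [JJ_cj]; exact conj_mem_cj hj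
    · calc g * j * g⁻¹ * (g * j * g⁻¹) = g * (j * j) * g⁻¹ := by group
        _ = 1 := by rw [hj2]; group
    · intro v hv hv1 hvz
      rw [mem_cj] at hv
      have e := hm _ hv (by
        intro e; apply hv1
        have : v = g * (g⁻¹ * v * g) * g⁻¹ := by group
        rw [this, e]; group) (by
        intro e; apply hvz
        have : v = g * (g⁻¹ * v * g) * g⁻¹ := by group
        rw [this, e])
      calc g * j * g⁻¹ * v * (g * j * g⁻¹)⁻¹ = g * (j * (g⁻¹ * v * g) * j⁻¹) * g⁻¹ := by group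
        _ = v * (g * z * g⁻¹) := by rw [e]; group

theorem PZ.adj {C X V : Subgroup G} {z : G} (h : PZ C X V z) {x : G} (hx : x ∈ X) :
    PZ (ZN.cj x C) X V (x * z * x⁻¹) := by
  have h1 := h.cj x
  rwa [cj_self hx, cj_eq_iff.2 (h.XV hx)] at h1

/-- index two -/
theorem PZ.idx [Finite G] {C X V : Subgroup G} {z : G} (h : PZ C X V z) (hB : BB C = C) {u : G} (hu : u ∈ ZJ C) :
    (∀ x ∈ X, x * u = u * x) ∨ (∀ x ∈ X, x * (u * z) = (u * z) * x) := by
  obtain ⟨v, hvV, hv1, hvz, -⟩ := h.three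
  obtain ⟨r, hr, hrv⟩ := h.tr v hvV hv1
  have h' := h.adj hr
  rw [hrv] at h'
  obtain ⟨y, hy, hyy, hm⟩ := h'.mv
  have hyX : y ∈ X := h'.CX (JJ_le _ hy)
  have hyz : y * z * y⁻¹ = z * v := hm z h.zV h.z1 (fun e => hvz e.symm)
  have hyv : y * v * y⁻¹ = v := by
    have := ZJ_comm h'.zZ hy
    rw [← this]; group
  have hyz' : y * z ≠ z * y := by
    intro e
    rw [e] at hyz
    apply hv1
    have : z * y * y⁻¹ = z := by group
    rw [this] at hyz
    exact mul_eq_left.1 hyz.symm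
  have huC : u ∈ C := (ZJ_le_JJ C).trans (JJ_le C) hu
  have hCu : ∀ u ∈ ZJ C, ∀ c ∈ C, c * u = u * c := by
    intro u hu c hc
    rw [← hB] at hc
    exact ((mem_BB.1 hc).2 u hu).symm
  have hwV := h.ZV y hyX u hu
  set w := y * u * y⁻¹ * u⁻¹ with hw
  have hyu : y * u * y⁻¹ = w * u := by rw [hw]; group
  have hyw : y * w * y⁻¹ = w := by
    have e1 : u = y * (y * u * y⁻¹) * y⁻¹ := by
      calc u = (y * y) * u * (y * y)⁻¹ := by rw [hyy]; group
        _ = _ := by group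
    rw [hyu] at e1
    have e2 : u = (y * w * y⁻¹) * (w * u) := by
      rw [← hyu]
      calc u = y * (w * u) * y⁻¹ := e1
        _ = _ := by group
    have e3 : (y * w * y⁻¹) * w = 1 := by
      have : (y * w * y⁻¹) * w * u = 1 * u := by rw [one_mul, mul_assoc]; exact e2.symm
      exact mul_right_cancel this
    have e4 := h.V2 w hwV
    have e5 : w⁻¹ = w := inv_eq_of_mul_eq_one_left e4
    rw [mul_eq_one_iff_eq_inv, e5] at e3
    exact e3
  have hw' : w = 1 ∨ w = v := by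
    rcases h.cases hvV hv1 hvz hwV with e | e | e | e
    · left; exact e
    · exfalso
      rw [e, hyz] at hyw
      exact hv1 (mul_eq_left.1 hyw)
    · right; exact e
    · exfalso
      rw [e] at hyw
      have : y * (z * v) * y⁻¹ = (y * z * y⁻¹) * (y * v * y⁻¹) := by group
      rw [this, hyz, hyv, mul_assoc, h.V2 v hvV, mul_one] at hyw
      exact hv1 (mul_eq_left.1 hyw.symm)
  rcases hw' with e | e
  · left
    apply h.cen_gen (hCu u hu) hyX hyz'
    rw [e, one_mul, mul_inv_eq_iff_eq_mul] at hyu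
    exact hyu
  · right
    apply h.cen_gen (hCu _ (mul_mem hu h.zZ)) hyX hyz'
    have huv : v * u = u * v := by
      have hvC : v ∈ C := h.VC hvV
      exact hCu u hu v hvC
    have : y * (u * z) * y⁻¹ = u * z := by
      calc y * (u * z) * y⁻¹ = (y * u * y⁻¹) * (y * z * y⁻¹) := by group
        _ = v * u * (z * v) := by rw [hyu, hyz, e]
        _ = u * z * (v * v) := by
          rw [huv, h.V2.comm h.zV hvV]
          calc u * v * (v * z) = u * (v * v) * z := by group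
            _ = u * z * (v * v) := by rw [h.V2 v hvV]; group
        _ = u * z := by rw [h.V2 v hvV, mul_one]
    exact mul_inv_eq_iff_eq_mul.1 this

section loc

variable [Finite G] {L Q S : Subgroup G} (h : Loc L Q S)

include h

theorem Loc.isA_norm {A : Subgroup G} (hA : IsA S A) {k : G} (hk : k ∈ normalizer (JJ S : Set G)) :
    IsA S (cj k A) := by
  apply hA.of_card ?_ (hA.2.1.cj k) (card_cj k A).ge
  have h1 : cj k A ≤ cj k (JJ S) := cj_mono hA.le_JJ
  rw [cj_eq_iff.2 hk] at h1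
  exact h1.trans (JJ_le S)

/-- the set of transvections coming from `S`, up to `F` -/
def Om (L S : Subgroup G) (F : Subgroup (MulAut (VV L S))) (s : MulAut (VV L S)) : Prop :=
  ∃ A, IsA S A ∧ ∃ a ∈ A, (∃ c, FF.Tv (ac (VV L S) a) c) ∧ ∃ f ∈ F, s = f * ac (VV L S) a * f⁻¹

theorem Loc.om_conj {F : Subgroup (MulAut (VV L S))} (hF : FF.FX (XX L S) F) {l : G} (hl : l ∈ L)
    {s : MulAut (VV L S)} (hs : Om L S F s) : Om L S F (ac (VV L S) l * s * (ac (VV L S) l)⁻¹) := by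
  have hN := VV_norm (L := L) (S := S)
  have hV := hV' h.V2
  obtain ⟨n, hn, k, hk, hkJ, rfl⟩ := h.frattini hl
  -- the normalizer part
  have h1 : ∀ s, Om L S F s → Om L S F (ac (VV L S) k * s * (ac (VV L S) k)⁻¹) := by
    rintro s ⟨A, hA, a, ha, ⟨c, hc⟩, f, hf, rfl⟩
    have haL := h.syl.1 (hA.1 ha)
    have e : ac (VV L S) (k * a * k⁻¹) = ac (VV L S) k * ac (VV L S) a * (ac (VV L S) k)⁻¹ := by
      rw [ac_mul (hN (L.mul_mem hk haL)) (hN (L.inv_mem hk)), ac_mul (hN hk) (hN haL), ac_inv (hN hk)]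
    refine ⟨_, h.isA_norm hA hkJ, k * a * k⁻¹, conj_mem_cj ha, ⟨_, by rw [e]; exact hc.conj _⟩,
      _, hF.nor _ (ac_mem hk) f hf, ?_⟩
    rw [e]; group
  -- the transvection part
  have h2 : ∀ b ∈ XX L S, ∀ d, FF.Tv b d → ∀ s, Om L S F s → Om L S F (b * s * b⁻¹) := by
    rintro b hb d hd s ⟨A, hA, a, ha, ⟨c, hc⟩, f, hf, rfl⟩
    obtain ⟨g, hg, e⟩ := hF.cls hV hd hb hc (ac_mem (h.syl.1 (hA.1 ha))) hf
    exact ⟨A, hA, a, ha, ⟨c, hc⟩, g, hg, e⟩
  have h3 : n ∈ L ∧ ∀ s, Om L S F s → Om L S F (ac (VV L S) n * s * (ac (VV L S) n)⁻¹) := by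
    refine h.NJ_ind (P := fun n => n ∈ L ∧ ∀ s, Om L S F s → Om L S F (ac (VV L S) n * s * (ac (VV L S) n)⁻¹))
      ?_ ?_ ?_ ?_ hn
    · intro l hl A hA a ha
      have haL := h.syl.1 (hA.1 ha)
      refine ⟨L.mul_mem (L.mul_mem hl haL) (L.inv_mem hl), ?_⟩
      have e : ac (VV L S) (l * a * l⁻¹) = ac (VV L S) l * ac (VV L S) a * (ac (VV L S) l)⁻¹ := by
        rw [ac_mul (hN (L.mul_mem hl haL)) (hN (L.inv_mem hl)), ac_mul (hN hl) (hN haL), ac_inv (hN hl)]
      rw [e]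
      have h4 := (h.offender hA).1 a ha
      generalize ac (VV L S) a = t at h4
      have h5 : (ac (VV L S) l * t * (ac (VV L S) l)⁻¹ ∈ XX L S) ∧ ∀ s, Om L S F s →
          Om L S F (ac (VV L S) l * t * (ac (VV L S) l)⁻¹ * s * (ac (VV L S) l * t * (ac (VV L S) l)⁻¹)⁻¹) := by
        have hlX := ac_mem (L := L) (S := S) hl
        induction h4 using closure_induction with
        | mem t ht =>
          obtain ⟨⟨b, hb, rfl⟩, c, hc⟩ := ht
          have hbX := ac_mem (L := L) (S := S) (h.syl.1 (hA.1 hb))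
          have hm := (XX L S).mul_mem ((XX L S).mul_mem hlX hbX) ((XX L S).inv_mem hlX)
          exact ⟨hm, fun s hs => h2 _ hm _ (hc.conj _) s hs⟩
        | one =>
          refine ⟨by simp [one_mem], fun s hs => ?_⟩
          have e1 : ac (VV L S) l * 1 * (ac (VV L S) l)⁻¹ = 1 := by group
          rw [e1]; simpa using hs
        | mul x y _ _ hx hy =>
          have e1 : ac (VV L S) l * (x * y) * (ac (VV L S) l)⁻¹ =
              (ac (VV L S) l * x * (ac (VV L S) l)⁻¹) * (ac (VV L S) l * y * (ac (VV L S) l)⁻¹) := by group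
          rw [e1]
          refine ⟨mul_mem hx.1 hy.1, fun s hs => ?_⟩
          have h6 := hx.2 _ (hy.2 s hs)
          have e2 : ∀ p q : MulAut (VV L S), p * q * s * (p * q)⁻¹ = p * (q * s * q⁻¹) * p⁻¹ := by
            intro p q; group
          rw [e2]; exact h6
        | inv x _ hx =>
          have e1 : ac (VV L S) l * x⁻¹ * (ac (VV L S) l)⁻¹ = (ac (VV L S) l * x * (ac (VV L S) l)⁻¹)⁻¹ := by group
          rw [e1]
          refine ⟨inv_mem hx.1, fun s hs => ?_⟩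
          -- finite order argument
          obtain ⟨p, hp⟩ : ∃ p, p = ac (VV L S) l * x * (ac (VV L S) l)⁻¹ := ⟨_, rfl⟩
          rw [← hp] at hx ⊢
          have hpow : ∀ n : ℕ, ∀ s, Om L S F s → Om L S F (p ^ n * s * (p ^ n)⁻¹) := by
            intro n
            induction n with
            | zero => intro s hs; simpa using hs
            | succ n ih =>
              intro s hs
              have := hx.2 _ (ih s hs)
              have e2 : p ^ (n + 1) * s * (p ^ (n + 1))⁻¹ = p * (p ^ n * s * (p ^ n)⁻¹) * p⁻¹ := by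
                rw [pow_succ']; group
              rw [e2]; exact this
          have h7 : p⁻¹ = p ^ (orderOf p - 1) := by
            have := pow_orderOf_eq_one p
            have h8 : 0 < orderOf p := orderOf_pos p
            rw [inv_eq_iff_mul_eq_one, ← pow_succ']
            rw [Nat.sub_add_cancel h8]; exact this
          rw [h7]; exact hpow _ s hs
      exact h5.2
    · refine ⟨one_mem _, fun s hs => ?_⟩
      rw [ac_one]; simpa using hs
    · rintro x y hx hy ⟨-, h4⟩ ⟨-, h5⟩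
      refine ⟨L.mul_mem hx hy, fun s hs => ?_⟩
      rw [ac_mul (hN hx) (hN hy)]
      have e2 : ∀ p q : MulAut (VV L S), p * q * s * (p * q)⁻¹ = p * (q * s * q⁻¹) * p⁻¹ := by
        intro p q; group
      rw [e2]; exact h4 _ (h5 s hs)
    · rintro x hx ⟨-, h4⟩
      refine ⟨L.inv_mem hx, fun s hs => ?_⟩
      rw [ac_inv (hN hx)]
      obtain ⟨p, hp⟩ : ∃ p, p = ac (VV L S) x := ⟨_, rfl⟩
      rw [← hp] at h4 ⊢
      have hpow : ∀ n : ℕ, ∀ s, Om L S F s → Om L S F (p ^ n * s * (p ^ n)⁻¹) := by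
        intro n
        induction n with
        | zero => intro s hs; simpa using hs
        | succ n ih =>
          intro s hs
          have := h4 _ (ih s hs)
          have e2 : p ^ (n + 1) * s * (p ^ (n + 1))⁻¹ = p * (p ^ n * s * (p ^ n)⁻¹) * p⁻¹ := by
            rw [pow_succ']; group
          rw [e2]; exact this
      have h7 : p⁻¹ = p ^ (orderOf p - 1) := by
        have := pow_orderOf_eq_one p
        have h8 : 0 < orderOf p := orderOf_pos p
        rw [inv_eq_iff_mul_eq_one, ← pow_succ']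
        rw [Nat.sub_add_cancel h8]; exact this
      rw [h7]; exact hpow _ s hs
  have e3 : ac (VV L S) (n * k) * s * (ac (VV L S) (n * k))⁻¹ =
      ac (VV L S) n * (ac (VV L S) k * s * (ac (VV L S) k)⁻¹) * (ac (VV L S) n)⁻¹ := by
    rw [ac_mul (hN h3.1) (hN hk)]; group
  rw [e3]
  exact h3.2 _ (h1 s hs)

/-- generation of `L` -/
theorem Loc.gen {R : Subgroup G} (hR1 : ∀ k ∈ L, k ∈ normalizer (JJ S : Set G) → k ∈ R)
    (hR2 : ∀ X V₀ z, PZ (BB S) X V₀ z → X ≤ L → X ≤ R) : L ≤ R := by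
  obtain ⟨F, hF⟩ := h.exists_F
  have hN := VV_norm (L := L) (S := S)
  have hV := hV' h.V2
  -- kernel
  have hker : ∀ x ∈ L, ac (VV L S) x = 1 → x ∈ R := by
    intro x hx e
    apply hR1 x hx
    apply norm_JJ
    exact h.zz x hx (fun z hz => (ac_eq_one (hN hx)).1 e z (om_le_VV hz))
  have hOmR : ∀ s, Om L S F s → ∃ r ∈ R, r ∈ L ∧ ac (VV L S) r = s := by
    rintro s ⟨A, hA, a, ha, ⟨c, hc⟩, f, hf, rfl⟩
    have haL := h.syl.1 (hA.1 ha)
    by_cases hne : f * ac (VV L S) a * f⁻¹ = ac (VV L S) a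
    · exact ⟨a, hR1 a haL (le_normalizer (hA.le_JJ ha)), haL, hne.symm⟩
    · obtain ⟨X, V₀, hpz, hXL, x, hx, e⟩ := h.exists_PZ hF hA ha hc hf hne
      exact ⟨x, hR2 X V₀ _ hpz hXL hx, hXL hx, e⟩
  intro l hl
  obtain ⟨n, hn, k, hk, hkJ, rfl⟩ := h.frattini hl
  refine R.mul_mem ?_ (hR1 k hk hkJ)
  have key : n ∈ L ∧ ∃ r ∈ R, r ∈ L ∧ ac (VV L S) r = ac (VV L S) n := by
    refine h.NJ_ind (P := fun n => n ∈ L ∧ ∃ r ∈ R, r ∈ L ∧ ac (VV L S) r = ac (VV L S) n) ?_ ?_ ?_ ?_ hn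
    · intro l hl A hA a ha
      have haL := h.syl.1 (hA.1 ha)
      refine ⟨L.mul_mem (L.mul_mem hl haL) (L.inv_mem hl), ?_⟩
      have e : ac (VV L S) (l * a * l⁻¹) = ac (VV L S) l * ac (VV L S) a * (ac (VV L S) l)⁻¹ := by
        rw [ac_mul (hN (L.mul_mem hl haL)) (hN (L.inv_mem hl)), ac_mul (hN hl) (hN haL), ac_inv (hN hl)]
      rw [e]
      have h4 := (h.offender hA).1 a ha
      generalize ac (VV L S) a = t at h4
      induction h4 using closure_induction with
      | mem t ht =>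
        obtain ⟨⟨b, hb, rfl⟩, c, hc⟩ := ht
        have hom : Om L S F (ac (VV L S) b) := ⟨A, hA, b, hb, ⟨c, hc⟩, 1, one_mem _, by simp⟩
        exact hOmR _ (h.om_conj hF hl hom)
      | one => exact ⟨1, one_mem _, one_mem _, by rw [ac_one]; group⟩
      | mul x y _ _ hx hy =>
        obtain ⟨r, hr, hrL, er⟩ := hx
        obtain ⟨q, hq, hqL, eq⟩ := hy
        exact ⟨r * q, mul_mem hr hq, mul_mem hrL hqL, by rw [ac_mul (hN hrL) (hN hqL), er, eq]; group⟩
      | inv x _ hx =>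
        obtain ⟨r, hr, hrL, er⟩ := hx
        exact ⟨r⁻¹, inv_mem hr, inv_mem hrL, by rw [ac_inv (hN hrL), er]; group⟩
    · exact ⟨one_mem _, 1, one_mem _, one_mem _, rfl⟩
    · rintro x y hx hy ⟨-, r, hr, hrL, er⟩ ⟨-, q, hq, hqL, eq⟩
      exact ⟨mul_mem hx hy, r * q, mul_mem hr hq, mul_mem hrL hqL,
        by rw [ac_mul (hN hrL) (hN hqL), ac_mul (hN hx) (hN hy), er, eq]⟩
    · rintro x hx ⟨-, r, hr, hrL, er⟩
      exact ⟨inv_mem hx, r⁻¹, inv_mem hr, inv_mem hrL, by rw [ac_inv (hN hrL), ac_inv (hN hx), er]⟩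
  obtain ⟨hnL, r, hr, hrL, er⟩ := key
  have h1 : ac (VV L S) (r⁻¹ * n) = 1 := by
    rw [ac_mul (hN (L.inv_mem hrL)) (hN hnL), ac_inv (hN hrL), er, inv_mul_cancel]
  have h2 := R.mul_mem hr (hker _ (L.mul_mem (L.inv_mem hrL) hnL) h1)
  rwa [mul_inv_cancel_left] at h2

end loc

end H55.ZN
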