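import Cfsg.Agent.Lib.H55.ZN5

set_option autoImplicit false
set_option linter.unusedSimpArgs false
set_option linter.unusedSectionVars false

/-! Uniqueness of the four-groups inside a local subgroup. -/

namespace H55.ZN

open Subgroup

variable {G : Type*} [Group G]

section loc

variable [Finite G] {L Q S : Subgroup G} (h : Loc L Q S)

include h

theorem Loc.PZ_le {X V₀ : Subgroup G} {z : G} (hp : PZ (BB S) X V₀ z) (hX : X ≤ L) : V₀ ≤ VV L S := by
  obtain ⟨v₀, hv₀, hv1, hvz, -⟩ := hp.three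
  obtain ⟨x, hx, hxv⟩ := hp.tr v₀ hv₀ hv1
  obtain ⟨j, hj, -, hm⟩ := hp.mv
  rw [JJ_BB] at hj
  have hzZ := hp.zZ
  rw [ZJ_BB] at hzZ
  have hxL := hX hx
  have h1 : x⁻¹ * j * x ∈ NJ L S := Subgroup.subset_closure ⟨x⁻¹, L.inv_mem hxL, j, hj, by group⟩
  have h2 := h.NJ_comm h1 hzZ
  have h3 := conj_mem_of_norm (VV_norm (S := S) hxL) h2
  have e : x * (x⁻¹ * j * x * z * (x⁻¹ * j * x)⁻¹ * z⁻¹) * x⁻¹ = z := by
    calc x * (x⁻¹ * j * x * z * (x⁻¹ * j * x)⁻¹ * z⁻¹) * x⁻¹ = (j * (x * z * x⁻¹) * j⁻¹) * (x * z * x⁻¹)⁻¹ := by group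
      _ = z := by
        rw [hxv, hm v₀ hv₀ hv1 hvz, hp.V2.comm hv₀ hp.zV]; group
  rw [e] at h3
  intro v hv
  by_cases hv' : v = 1
  · rw [hv']; exact one_mem _
  · obtain ⟨y, hy, rfl⟩ := hp.tr v hv hv'
    exact conj_mem_of_norm (VV_norm (hX hy)) h3

theorem Loc.PZ_orb {F : Subgroup (MulAut (VV L S))} (hF : FF.FX (XX L S) F) {X V₀ : Subgroup G} {z : G}
    (hp : PZ (BB S) X V₀ z) (hX : X ≤ L) : ∃ A, IsA S A ∧ ∃ a ∈ A, ∃ c : VV L S, FF.Tv (ac (VV L S) a) c ∧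
      (c : G) = z ∧ (∀ v : VV L S, (v : G) ∈ V₀ ↔ v = 1 ∨ FF.Orb F c v) ∧
      ∃ x ∈ X, (x * a * x⁻¹) * z ≠ z * (x * a * x⁻¹) := by
  have hN := VV_norm (L := L) (S := S)
  have hV := hV' h.V2
  have hle := h.PZ_le hp hX
  obtain ⟨v₀, hv₀, hv1, hvz, hcase⟩ := hp.three
  obtain ⟨x, hx, hxv⟩ := hp.tr v₀ hv₀ hv1
  obtain ⟨j, hj, -, hm⟩ := hp.mv
  rw [JJ_BB] at hj
  have hzZ := hp.zZ
  rw [ZJ_BB] at hzZ
  have hxL := hX hx
  -- an element of some A moving v₀
  have h1 : ∃ A, IsA S A ∧ ∃ a ∈ A, v₀ * a ≠ a * v₀ := by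
    by_contra hcon
    push Not at hcon
    have := comm_JJ hcon hj
    have h2 := hm v₀ hv₀ hv1 hvz
    rw [← this] at h2
    apply hp.z1
    have h3 : v₀ * j * j⁻¹ = v₀ := by group
    rw [h3] at h2
    exact mul_eq_left.1 h2.symm
  obtain ⟨A, hA, a₀, ha₀, hav⟩ := h1
  set v' : VV L S := ⟨v₀, hle hv₀⟩ with hv'
  have h2 : ∃ b ∈ A, (∃ c, FF.Tv (ac (VV L S) b) c) ∧ ac (VV L S) b v' ≠ v' := by
    by_contra hcon
    push Not at hcon
    have h3 := (h.offender hA).1 a₀ ha₀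
    have h4 : ac (VV L S) a₀ v' = v' := by
      generalize ac (VV L S) a₀ = t at h3
      induction h3 using closure_induction with
      | mem t ht => obtain ⟨⟨b, hb, rfl⟩, hc⟩ := ht; exact hcon b hb hc
      | one => rfl
      | mul x y _ _ h3 h4 => rw [MulAut.mul_apply, h4, h3]
      | inv x _ h3 =>
        conv_lhs => rw [← h3]
        exact MulAut.inv_apply_self _ x v'
    have h5 := ac_apply (hN (h.syl.1 (hA.1 ha₀))) v'
    rw [h4, eq_mul_inv_iff_mul_eq] at h5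
    exact hav h5
  obtain ⟨b, hb, ⟨c, hc⟩, hbv⟩ := h2
  have hbS := hA.1 hb
  have hbL := h.syl.1 hbS
  have hbC : b ∈ BB S := JJ_le_BB S (hA.le_JJ hb)
  have hbv' := FF.not_fix_iff hV hc hbv
  have hbv0 : b * v₀ * b⁻¹ = v₀ * c := by
    have := ac_apply (hN hbL) v'
    rw [hbv'] at this
    exact this.symm
  have hcz : (c : G) = z := by
    rcases hp.cv b hbC v₀ hv₀ with e | e
    · exfalso
      rw [hbv0] at e
      exact hc.c1 (Subtype.ext (mul_eq_left.1 e))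
    · rw [hbv0] at e
      exact mul_left_cancel e
  have hzv : z * v₀ = v₀ * z := hp.V2.comm hp.zV hv₀
  have hbz : b * z * b⁻¹ = z := by
    have := (mem_BB.1 hbC).2 z hzZ
    rw [← this]; group
  have hbw : ∀ w ∈ V₀, w ≠ 1 → w ≠ z → b * w * b⁻¹ = w * z := by
    intro w hw hw1 hwz
    rcases hcase w hw with e | e | e | e
    · exact absurd e hw1
    · exact absurd e hwz
    · rw [e, hbv0, hcz]
    · have e0 : b * (z * v₀) * b⁻¹ = (b * z * b⁻¹) * (b * v₀ * b⁻¹) := by group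
      rw [e, e0, hbz, hbv0, hcz, mul_assoc]
  -- x b x⁻¹ moves z
  have hmove : (x * b * x⁻¹) * z ≠ z * (x * b * x⁻¹) := by
    intro e
    have hw : x⁻¹ * z * x ∈ V₀ := by
      have := conj_mem_of_norm (hp.XV (X.inv_mem hx)) hp.zV
      rwa [inv_inv] at this
    have hw1 : x⁻¹ * z * x ≠ 1 := by
      intro e1
      apply hp.z1
      have : z = x * (x⁻¹ * z * x) * x⁻¹ := by group
      rw [this, e1]; group
    have hwz : x⁻¹ * z * x ≠ z := by
      intro e1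
      apply hvz
      have : z = x * (x⁻¹ * z * x) * x⁻¹ := by group
      rw [e1, hxv] at this
      exact this.symm
    have h3 := hbw _ hw hw1 hwz
    apply hp.z1
    have h4 : b * (x⁻¹ * z * x) * b⁻¹ = x⁻¹ * z * x := by
      calc b * (x⁻¹ * z * x) * b⁻¹ = x⁻¹ * ((x * b * x⁻¹) * z) * (x * b * x⁻¹)⁻¹ * x := by group
        _ = x⁻¹ * z * x := by rw [e]; group
    rw [h4] at h3
    exact mul_eq_left.1 h3.symm
  -- the transvection s
  have htX := ac_mem (L := L) (S := S) hbL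
  have hxX := ac_mem (L := L) (S := S) hxL
  have hs := hc.conj (ac (VV L S) x)
  have hsX := (XX L S).mul_mem ((XX L S).mul_mem hxX htX) ((XX L S).inv_mem hxX)
  have hxc : ac (VV L S) x c = v' := by
    apply Subtype.ext
    rw [ac_apply (hN hxL), hcz, hxv]
  have hsc : (ac (VV L S) x * ac (VV L S) b * (ac (VV L S) x)⁻¹) c ≠ c := by
    intro e
    apply hmove
    have e1 : ac (VV L S) (x * b * x⁻¹) = ac (VV L S) x * ac (VV L S) b * (ac (VV L S) x)⁻¹ := by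
      rw [ac_mul (hN (L.mul_mem hxL hbL)) (hN (L.inv_mem hxL)), ac_mul (hN hxL) (hN hbL), ac_inv (hN hxL)]
    have h3 := ac_apply (hN (L.mul_mem (L.mul_mem hxL hbL) (L.inv_mem hxL))) c
    rw [e1, e, hcz, eq_mul_inv_iff_mul_eq] at h3
    exact h3.symm
  obtain ⟨f, hf, hfe⟩ := hF.noncomm hV hs hsX hc htX hsc
  have hfc : f c = v' := by
    rw [hfe] at hs
    rw [← hxc]
    exact (hc.conj f).center_unique hs
  have hfne : f * ac (VV L S) b * f⁻¹ ≠ ac (VV L S) b := by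
    intro e
    have h3 := hc.conj f
    rw [e] at h3
    have h4 := hc.center_unique h3
    rw [hfc] at h4
    apply hvz
    rw [← hcz, h4]
  refine ⟨A, hA, b, hb, c, hc, hcz, ?_, x, hx, hmove⟩
  intro v
  constructor
  · intro hv
    rcases hcase v hv with e | e | e | e
    · left; exact Subtype.ext e
    · right
      have : v = c := Subtype.ext (by rw [e, hcz])
      rw [this]; exact FF.Orb.refl c
    · right
      have : v = f c := by rw [hfc]; exact Subtype.ext e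
      exact ⟨f, hf, this⟩
    · right
      have : v = c * f c := by
        rw [hfc]; apply Subtype.ext
        rw [e]
        change z * v₀ = (c : G) * v₀
        rw [hcz]
      rw [this]; exact hF.orb_third hV hc htX hf hfne
  · intro hv
    rcases hv with rfl | hv
    · exact one_mem _
    · rcases hF.orb_cases hV hc htX hf hfne hv with e | e | e
      · rw [e, hcz]; exact hp.zV
      · rw [e, hfc]; exact hv₀
      · rw [e, hfc]
        change (c : G) * v₀ ∈ V₀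
        rw [hcz]; exact mul_mem hp.zV hv₀

theorem Loc.PZ_norm {X V₀ X' V₀' : Subgroup G} {z z' : G} (hp : PZ (BB S) X V₀ z) (hX : X ≤ L)
    (hp' : PZ (BB S) X' V₀' z') (hX' : X' ≤ L) : X ≤ normalizer (V₀' : Set G) := by
  obtain ⟨F, hF⟩ := h.exists_F
  have hN := VV_norm (L := L) (S := S)
  have hV := hV' h.V2
  obtain ⟨A, hA, a, ha, c, hc, hcz, -, x, hx, hmove⟩ := h.PZ_orb hF hp hX
  obtain ⟨A', hA', a', ha', c', hc', hcz', horb', -⟩ := h.PZ_orb hF hp' hX'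
  have hle' := h.PZ_le hp' hX'
  have haL := h.syl.1 (hA.1 ha)
  have ha'L := h.syl.1 (hA'.1 ha')
  have haX : a ∈ X := hp.CX (JJ_le_BB S (hA.le_JJ ha))
  have hxL := hX hx
  apply hp.gen (y := x * a * x⁻¹) (hp'.CX.trans hp'.XV) ?_ (X.mul_mem (X.mul_mem hx haX) (X.inv_mem hx)) hmove
  have hyL : x * a * x⁻¹ ∈ L := L.mul_mem (L.mul_mem hxL haL) (L.inv_mem hxL)
  have e1 : ac (VV L S) (x * a * x⁻¹) = ac (VV L S) x * ac (VV L S) a * (ac (VV L S) x)⁻¹ := by
    rw [ac_mul (hN (L.mul_mem hxL haL)) (hN (L.inv_mem hxL)), ac_mul (hN hxL) (hN haL), ac_inv (hN hxL)]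
  have hTv := hc.conj (ac (VV L S) x)
  rw [← e1] at hTv
  apply mem_normalizer_of_le
  intro w hw
  have h1 : ((ac (VV L S) (x * a * x⁻¹) ⟨w, hle' hw⟩ : VV L S) : G) ∈ V₀' := by
    rw [horb']
    rcases (horb' ⟨w, hle' hw⟩).1 hw with e | e
    · left; rw [e, map_one]
    · right
      exact hF.orb_tv' hV hTv (ac_mem hyL) hc' (ac_mem ha'L) e
  rwa [ac_apply (hN hyL)] at h1

theorem Loc.PZ_comm {X V₀ X' V₀' : Subgroup G} {z z' : G} (hp : PZ (BB S) X V₀ z) (hX : X ≤ L)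
    (hp' : PZ (BB S) X' V₀' z') (hX' : X' ≤ L) {v v' : G} (hv : v ∈ V₀) (hv' : v' ∈ V₀') : v * v' = v' * v :=
  h.V2.comm (h.PZ_le hp hX hv) (h.PZ_le hp' hX' hv')

theorem Loc.PZ_eq {X V₀ X' V₀' : Subgroup G} {z z' : G} (hp : PZ (BB S) X V₀ z) (hX : X ≤ L)
    (hp' : PZ (BB S) X' V₀' z') (hX' : X' ≤ L) {v : G} (hv : v ∈ V₀) (hv' : v ∈ V₀') (hv1 : v ≠ 1) : V₀ = V₀' := by
  obtain ⟨F, hF⟩ := h.exists_F
  obtain ⟨A, hA, a, ha, c, hc, hcz, horb, -⟩ := h.PZ_orb hF hp hX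
  obtain ⟨A', hA', a', ha', c', hc', hcz', horb', -⟩ := h.PZ_orb hF hp' hX'
  have hle := h.PZ_le hp hX
  have hle' := h.PZ_le hp' hX'
  have hv1' : (⟨v, hle hv⟩ : VV L S) ≠ 1 := fun e => hv1 (congrArg Subtype.val e)
  have o1 := ((horb ⟨v, hle hv⟩).1 hv).resolve_left hv1'
  have o2 := ((horb' ⟨v, hle hv⟩).1 hv').resolve_left hv1'
  ext w
  constructor
  · intro hw
    rcases (horb ⟨w, hle hw⟩).1 hw with e | e
    · have : w = 1 := congrArg Subtype.val e
      rw [this]; exact one_mem _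
    · exact (horb' ⟨w, hle hw⟩).2 (Or.inr (o2.trans (o1.symm.trans e)))
  · intro hw
    rcases (horb' ⟨w, hle' hw⟩).1 hw with e | e
    · have : w = 1 := congrArg Subtype.val e
      rw [this]; exact one_mem _
    · exact (horb ⟨w, hle' hw⟩).2 (Or.inr (o1.trans (o2.symm.trans e)))

end loc

end H55.ZN
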