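import Cfsg.Agent.Lib.H55.ZN6

set_option autoImplicit false
set_option linter.unusedSimpArgs false
set_option linter.unusedSectionVars false

/-! Global geometry: chambers and minimal parabolics. -/

namespace H55.ZN

open Subgroup

variable {G : Type*} [Group G]

structure Geo (Ch : Subgroup G → Prop) (Pr : Subgroup G → Subgroup G → Subgroup G → G → Prop) : Prop where
  chC : ∀ (g : G) {C : Subgroup G}, Ch C → Ch (cj g C)
  ch2 : ∀ {C : Subgroup G}, Ch C → IsPGroup 2 C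
  chB : ∀ {C : Subgroup G}, Ch C → BB C = C
  chN : ∀ {C : Subgroup G}, Ch C → C ≠ ⊥
  prC : ∀ (g : G) {C X V : Subgroup G} {z : G}, Pr C X V z → Pr (cj g C) (cj g X) (cj g V) (g * z * g⁻¹)
  pz : ∀ {C X V : Subgroup G} {z : G}, Pr C X V z → PZ C X V z
  ch : ∀ {C X V : Subgroup G} {z : G}, Pr C X V z → Ch C
  res : ∀ {C X V : Subgroup G} {z : G} {X' V' : Subgroup G} {z' : G} {U : Subgroup G}, Pr C X V z → Pr C X' V' z' →
    U ≠ ⊥ → IsPGroup 2 U → X ≤ normalizer (U : Set G) → X' ≤ normalizer (U : Set G) →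
    X' ≤ normalizer (V : Set G) ∧ (∀ v ∈ V, ∀ v' ∈ V', v * v' = v' * v) ∧ (∀ v ∈ V, v ∈ V' → v ≠ 1 → V = V')
  cent : ∀ {C X V : Subgroup G} {z x : G}, Pr C X V z → x * x = 1 → (∀ u ∈ ZJ C, x * u = u * x) →
    (∀ v ∈ V, x * v = v * x) → x ∈ C
  gen : ∀ {C U : Subgroup G}, Ch C → U ≠ ⊥ → IsPGroup 2 U → normalizer (C : Set G) ≤ normalizer (U : Set G) →
    ¬ (∀ X V z, Pr C X V z → X ≤ normalizer (U : Set G))

variable [Finite G] {Ch : Subgroup G → Prop} {Pr : Subgroup G → Subgroup G → Subgroup G → G → Prop}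

theorem Geo.exists (h : Geo Ch Pr) {C : Subgroup G} (hC : Ch C) : ∃ X V z, Pr C X V z := by
  by_contra hcon
  push Not at hcon
  exact h.gen hC (h.chN hC) (h.ch2 hC) le_rfl (fun X V z hp => absurd hp (hcon X V z))

theorem Geo.zj_comm (h : Geo Ch Pr) {C : Subgroup G} (hC : Ch C) {c u : G} (hc : c ∈ C) (hu : u ∈ ZJ C) :
    c * u = u * c := by
  rw [← h.chB hC] at hc
  exact ((mem_BB.1 hc).2 u hu).symm

theorem Geo.adjP (h : Geo Ch Pr) {C X V : Subgroup G} {z : G} (hp : Pr C X V z) {x : G} (hx : x ∈ X) :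
    Pr (cj x C) X V (x * z * x⁻¹) := by
  have h1 := h.prC x hp
  rwa [cj_self hx, cj_eq_iff.2 ((h.pz hp).XV hx)] at h1

/-- parity -/
theorem PZ.idx2 {C X V : Subgroup G} {z : G} (h : PZ C X V z) (hB : BB C = C) {u u' : G} (hu : u ∈ ZJ C)
    (hu' : u' ∈ ZJ C) (he : (∀ x ∈ X, x * u = u * x) ↔ (∀ x ∈ X, x * u' = u' * x)) :
    ∀ x ∈ X, x * (u * u') = (u * u') * x := by
  have hmul : ∀ a b : G, (∀ x ∈ X, x * a = a * x) → (∀ x ∈ X, x * b = b * x) → ∀ x ∈ X, x * (a * b) = (a * b) * x := by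
    intro a b ha hb x hx
    rw [← mul_assoc, ha x hx, mul_assoc, hb x hx, mul_assoc]
  by_cases h1 : ∀ x ∈ X, x * u = u * x
  · exact hmul _ _ h1 (he.1 h1)
  · have h2 : ¬ ∀ x ∈ X, x * u' = u' * x := fun h3 => h1 (he.2 h3)
    have h3 := (h.idx hB hu).resolve_left h1
    have h4 := (h.idx hB hu').resolve_left h2
    have h5 := hmul _ _ h3 h4
    have e : u * z * (u' * z) = u * u' := by
      have hz := (ZJ_ex2 C).comm hu' h.zZ
      calc u * z * (u' * z) = u * z * (z * u') := by rw [hz]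
        _ = u * (z * z) * u' := by group
        _ = u * u' := by rw [ZJ_ex2 C z h.zZ, mul_one]
    rwa [e] at h5

/-- four-groups of a chamber -/
def Vs (Pr : Subgroup G → Subgroup G → Subgroup G → G → Prop) (C V : Subgroup G) : Prop := ∃ X z, Pr C X V z

def WW (Pr : Subgroup G → Subgroup G → Subgroup G → G → Prop) (C : Subgroup G) : Subgroup G :=
  closure {v | ∃ V, Vs Pr C V ∧ v ∈ V}

theorem Geo.vs_cj (h : Geo Ch Pr) {C V : Subgroup G} (hv : Vs Pr C V) (g : G) : Vs Pr (cj g C) (cj g V) := by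
  obtain ⟨X, z, hp⟩ := hv
  exact ⟨_, _, h.prC g hp⟩

theorem Geo.WW_cj (h : Geo Ch Pr) (C : Subgroup G) (g : G) : WW Pr (cj g C) = cj g (WW Pr C) := by
  have key : ∀ (C : Subgroup G) (g : G), cj g (WW Pr C) ≤ WW Pr (cj g C) := by
    intro C g x hx
    rw [mem_cj] at hx
    have h1 : ∀ y ∈ WW Pr C, g * y * g⁻¹ ∈ WW Pr (cj g C) := by
      intro y hy
      rw [WW] at hy
      induction hy using closure_induction with
      | mem y hy => obtain ⟨V, hV, hy⟩ := hy; exact Subgroup.subset_closure ⟨_, h.vs_cj hV g, conj_mem_cj hy⟩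
      | one => simp
      | mul a b _ _ ha hb =>
        have : g * (a * b) * g⁻¹ = (g * a * g⁻¹) * (g * b * g⁻¹) := by group
        rw [this]; exact mul_mem ha hb
      | inv a _ ha =>
        have : g * a⁻¹ * g⁻¹ = (g * a * g⁻¹)⁻¹ := by group
        rw [this]; exact inv_mem ha
    have h2 := h1 _ hx
    have e : g * (g⁻¹ * x * g) * g⁻¹ = x := by group
    rwa [e] at h2
  apply le_antisymm ?_ (key C g)
  have h1 := key (cj g C) g⁻¹
  rw [cj_inv_cj] at h1
  have h2 := cj_mono (g := g) h1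
  rwa [cj_cj_inv] at h2

theorem Geo.WW_norm (h : Geo Ch Pr) {C : Subgroup G} : normalizer (C : Set G) ≤ normalizer (WW Pr C : Set G) := by
  intro n hn
  rw [← cj_eq_iff] at *
  rw [← h.WW_cj, hn]

theorem Geo.WW_le (h : Geo Ch Pr) {C : Subgroup G} : WW Pr C ≤ C := by
  rw [WW, closure_le]
  rintro v ⟨V, ⟨X, z, hp⟩, hv⟩
  exact (h.pz hp).VC hv

theorem le_WW {C V : Subgroup G} (hV : Vs Pr C V) : V ≤ WW Pr C := fun v hv => Subgroup.subset_closure ⟨V, hV, hv⟩

theorem Geo.WW_ne (h : Geo Ch Pr) {C : Subgroup G} (hC : Ch C) : WW Pr C ≠ ⊥ := by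
  obtain ⟨X, V, z, hp⟩ := h.exists hC
  intro e
  have h1 : z ∈ WW Pr C := le_WW ⟨X, z, hp⟩ (h.pz hp).zV
  rw [e, mem_bot] at h1
  exact (h.pz hp).z1 h1

/-- two minimal parabolics not normalizing each other's four-groups -/
theorem Geo.exists_pair (h : Geo Ch Pr) {C : Subgroup G} (hC : Ch C) :
    ∃ X V z X' V' z', Pr C X V z ∧ Pr C X' V' z' ∧ ¬ X' ≤ normalizer (V : Set G) := by
  by_contra hcon
  push Not at hcon
  apply h.gen hC (h.WW_ne hC) ((h.ch2 hC).to_le h.WW_le) h.WW_norm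
  intro X' V' z' hp' x hx
  apply mem_normalizer_of_le
  intro y hy
  rw [WW] at hy
  induction hy using closure_induction with
  | mem y hy =>
    obtain ⟨V, ⟨X, z, hp⟩, hy⟩ := hy
    exact le_WW ⟨X, z, hp⟩ (conj_mem_of_norm (hcon X V z X' V' z' hp hp' hx) hy)
  | one => simp
  | mul a b _ _ ha hb =>
    have : x * (a * b) * x⁻¹ = (x * a * x⁻¹) * (x * b * x⁻¹) := by group
    rw [this]; exact mul_mem ha hb
  | inv a _ ha =>
    have : x * a⁻¹ * x⁻¹ = (x * a * x⁻¹)⁻¹ := by group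
    rw [this]; exact inv_mem ha

omit [Finite G] in
theorem le_norm_zpowers {X : Subgroup G} {u : G} (h : ∀ x ∈ X, x * u = u * x) :
    X ≤ normalizer ((zpowers u : Subgroup G) : Set G) := by
  have h1 : X ≤ centralizer ((zpowers u : Subgroup G) : Set G) := by
    intro x hx
    rw [mem_centralizer_iff]
    intro y hy
    obtain ⟨k, rfl⟩ := mem_zpowers_iff.1 hy
    have : Commute x u := h x hx
    exact (this.zpow_right k).symm
  exact h1.trans (centralizer_le_normalizer _)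

theorem Geo.res_cent (h : Geo Ch Pr) {C X V : Subgroup G} {z : G} {X' V' : Subgroup G} {z' : G} (hp : Pr C X V z)
    (hp' : Pr C X' V' z') {u : G} (hu : u ∈ ZJ C) (hu1 : u ≠ 1) (hX : ∀ x ∈ X, x * u = u * x)
    (hX' : ∀ x ∈ X', x * u = u * x) :
    X' ≤ normalizer (V : Set G) ∧ (∀ v ∈ V, ∀ v' ∈ V', v * v' = v' * v) ∧ (∀ v ∈ V, v ∈ V' → v ≠ 1 → V = V') := by
  apply h.res hp hp' (U := zpowers u) ?_ ?_ (le_norm_zpowers hX) (le_norm_zpowers hX')
  · intro e
    exact hu1 (zpowers_eq_bot.1 e)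
  · exact (ex2_zpowers (ZJ_ex2 C u hu)).isPGroup

theorem Geo.card_ZJ (h : Geo Ch Pr) {C : Subgroup G} (hC : Ch C) : Nat.card (ZJ C) ≤ 4 := by
  classical
  obtain ⟨X, V, z, X', V', z', hp, hp', hn⟩ := h.exists_pair hC
  have hB := h.chB hC
  let φ : ZJ C → Prop × Prop := fun u => (∀ x ∈ X, x * u.1 = u.1 * x, ∀ x ∈ X', x * u.1 = u.1 * x)
  have hφ : Function.Injective φ := by
    intro u u' e
    have e1 : (∀ x ∈ X, x * u.1 = u.1 * x) ↔ (∀ x ∈ X, x * u'.1 = u'.1 * x) := by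
      have := congrArg Prod.fst e
      exact iff_of_eq this
    have e2 : (∀ x ∈ X', x * u.1 = u.1 * x) ↔ (∀ x ∈ X', x * u'.1 = u'.1 * x) := by
      have := congrArg Prod.snd e
      exact iff_of_eq this
    have h1 := (h.pz hp).idx2 hB u.2 u'.2 e1
    have h2 := (h.pz hp').idx2 hB u.2 u'.2 e2
    by_contra hne
    have h3 : u.1 * u'.1 ≠ 1 := by
      intro e3
      apply hne
      apply Subtype.ext
      have h4 := ZJ_ex2 C u'.1 u'.2
      rw [mul_eq_one_iff_eq_inv, inv_eq_of_mul_eq_one_left h4] at e3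
      exact e3
    exact hn (h.res_cent hp hp' (mul_mem u.2 u'.2) h3 h1 h2).1
  have h1 := Nat.card_le_card_of_injective φ hφ
  have h2 : Nat.card (Prop × Prop) = 4 := by
    rw [Nat.card_prod]
    simp
  rwa [h2] at h1

/-- if `|ZJ| ≤ 4`, `C_{ZJ}(X)` has order at most two -/
theorem Geo.fix_unique (h : Geo Ch Pr) {C X V : Subgroup G} {z : G} (hp : Pr C X V z) {u u' : G} (hu : u ∈ ZJ C)
    (hu1 : u ≠ 1) (hXu : ∀ x ∈ X, x * u = u * x) (hu' : u' ∈ ZJ C) (hu1' : u' ≠ 1)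
    (hXu' : ∀ x ∈ X, x * u' = u' * x) : u = u' := by
  classical
  by_contra hne
  have hZ := h.card_ZJ (h.ch hp)
  have hpz := h.pz hp
  obtain ⟨v, hvV, hv1, hvz, -⟩ := hpz.three
  obtain ⟨r, hr, hrv⟩ := hpz.tr v hvV hv1
  have hmul : ∀ a b : G, (∀ x ∈ X, x * a = a * x) → (∀ x ∈ X, x * b = b * x) → ∀ x ∈ X, x * (a * b) = (a * b) * x := by
    intro a b ha hb x hx
    rw [← mul_assoc, ha x hx, mul_assoc, hb x hx, mul_assoc]
  have hzn : ¬ ∀ x ∈ X, x * z = z * x := by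
    intro e
    apply hvz
    rw [← hrv, e r hr]; group
  -- five distinct elements 1, u, u', u u', z
  have huu : u * u' ≠ 1 := by
    intro e
    apply hne
    rw [mul_eq_one_iff_eq_inv, inv_eq_of_mul_eq_one_left (ZJ_ex2 C u' hu')] at e
    exact e
  have hinj : Function.Injective (![⟨1, one_mem _⟩, ⟨u, hu⟩, ⟨u', hu'⟩, ⟨u * u', mul_mem hu hu'⟩, ⟨z, hpz.zZ⟩] :
      Fin 5 → ZJ C) := by
    have hz1 := hpz.z1
    have n1 : z ≠ u := fun e => hzn (e ▸ hXu)
    have n2 : z ≠ u' := fun e => hzn (e ▸ hXu')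
    have n3 : z ≠ u * u' := fun e => hzn (e ▸ hmul u u' hXu hXu')
    have n4 : u ≠ u * u' := fun e => hu1' (mul_eq_left.1 e.symm)
    have n5 : u' ≠ u * u' := fun e => hu1 (mul_eq_right.1 e.symm)
    intro i j hij
    fin_cases i <;> fin_cases j <;> simp [Subtype.ext_iff] at hij ⊢ <;> first
      | exact absurd hij hu1 | exact absurd hij.symm hu1 | exact absurd hij hu1' | exact absurd hij.symm hu1'
      | exact absurd hij huu | exact absurd hij.symm huu | exact absurd hij hz1 | exact absurd hij.symm hz1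
      | exact absurd hij hne | exact absurd hij.symm hne | exact absurd hij n1 | exact absurd hij.symm n1
      | exact absurd hij n2 | exact absurd hij.symm n2 | exact absurd hij n3 | exact absurd hij.symm n3
      | exact absurd hij n4 | exact absurd hij.symm n4 | exact absurd hij n5 | exact absurd hij.symm n5
  have h1 := Nat.card_le_card_of_injective _ hinj
  rw [Nat.card_fin] at h1
  omega

end H55.ZN
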