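import Cfsg.Agent.Lib.H55.ZN7

set_option autoImplicit false
set_option linter.unusedSimpArgs false
set_option linter.unusedSectionVars false

/-! Chains of chambers. -/

namespace H55.ZN

open Subgroup

variable {G : Type*} [Group G] [Finite G] {Ch : Subgroup G → Prop}
  {Pr : Subgroup G → Subgroup G → Subgroup G → G → Prop}

def Com (V V' : Subgroup G) : Prop := ∀ v ∈ V, ∀ v' ∈ V', v * v' = v' * v

theorem Com.symm {V V' : Subgroup G} (h : Com V V') : Com V' V := fun v hv v' hv' => (h v' hv' v hv).symm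

def Adj (Pr : Subgroup G → Subgroup G → Subgroup G → G → Prop) (C C' : Subgroup G) : Prop :=
  ∃ X V z, Pr C X V z ∧ ∃ x ∈ X, C' = cj x C

def Dist (Pr : Subgroup G → Subgroup G → Subgroup G → G → Prop) : ℕ → Subgroup G → Subgroup G → Prop
  | 0, C, C' => C = C'
  | n + 1, C, C'' => ∃ C', Dist Pr n C C' ∧ Adj Pr C' C''

theorem Geo.adj_symm (h : Geo Ch Pr) {C C' : Subgroup G} (ha : Adj Pr C C') : Adj Pr C' C := by
  obtain ⟨X, V, z, hp, x, hx, rfl⟩ := ha
  exact ⟨X, V, _, h.adjP hp hx, x⁻¹, X.inv_mem hx, by rw [cj_inv_cj]⟩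

theorem Geo.adj_cj (h : Geo Ch Pr) {C C' : Subgroup G} (ha : Adj Pr C C') (g : G) : Adj Pr (cj g C) (cj g C') := by
  obtain ⟨X, V, z, hp, x, hx, rfl⟩ := ha
  refine ⟨_, _, _, h.prC g hp, g * x * g⁻¹, conj_mem_cj hx, ?_⟩
  rw [← cj_mul, ← cj_mul]
  congr 1
  group

theorem Geo.dist_cj (h : Geo Ch Pr) {n : ℕ} : ∀ {C C' : Subgroup G}, Dist Pr n C C' → ∀ g : G,
    Dist Pr n (cj g C) (cj g C') := by
  induction n with
  | zero => intro C C' hd g; exact congrArg (cj g) hd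
  | succ n ih =>
    rintro C C'' ⟨C', hd, ha⟩ g
    exact ⟨_, ih hd g, h.adj_cj ha g⟩

theorem dist_left {n : ℕ} : ∀ {C C' C'' : Subgroup G}, Adj Pr C C' → Dist Pr n C' C'' → Dist Pr (n + 1) C C'' := by
  induction n with
  | zero => rintro C C' C'' ha hd; exact ⟨C, rfl, hd ▸ ha⟩
  | succ n ih =>
    rintro C C' C'' ha ⟨D, hd, hb⟩
    exact ⟨D, ih ha hd, hb⟩

theorem Geo.dist_symm (h : Geo Ch Pr) {n : ℕ} : ∀ {C C' : Subgroup G}, Dist Pr n C C' → Dist Pr n C' C := by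
  induction n with
  | zero => intro C C' hd; exact hd.symm
  | succ n ih =>
    rintro C C'' ⟨C', hd, ha⟩
    exact dist_left (h.adj_symm ha) (ih hd)

theorem dist_trans {n k : ℕ} : ∀ {C C' C'' : Subgroup G}, Dist Pr n C C' → Dist Pr k C' C'' →
    Dist Pr (n + k) C C'' := by
  induction k with
  | zero => rintro C C' C'' h1 h2; rw [← (h2 : C' = C'')]; exact h1
  | succ k ih =>
    rintro C C' C'' h1 ⟨D, h2, ha⟩
    exact ⟨D, ih h1 h2, ha⟩

/-- all four-groups commuting along all chains is impossible -/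
theorem Geo.exists_bad (h : Geo Ch Pr) {C : Subgroup G} (hC : Ch C) :
    ∃ n C C' V V', Dist Pr n C C' ∧ Vs Pr C V ∧ Vs Pr C' V' ∧ ¬ Com V V' := by
  by_contra hcon
  push Not at hcon
  set U := closure {v | ∃ n C' V, Dist Pr n C C' ∧ Vs Pr C' V ∧ v ∈ V} with hU
  have hex : Ex2 U := by
    apply ex2_closure
    · rintro v ⟨n, C', V, hd, ⟨X, z, hp⟩, hv⟩
      exact (h.pz hp).V2 v hv
    · rintro v ⟨n, C', V, hd, hV, hv⟩ v' ⟨n', C'', V', hd', hV', hv'⟩
      exact hcon (n + n') C' C'' V V' (dist_trans (h.dist_symm hd) hd') hV hV' v hv v' hv'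
  have hne : U ≠ ⊥ := by
    obtain ⟨X, V, z, hp⟩ := h.exists hC
    intro e
    have h1 : z ∈ U := Subgroup.subset_closure ⟨0, C, V, rfl, ⟨X, z, hp⟩, (h.pz hp).zV⟩
    rw [e, mem_bot] at h1
    exact (h.pz hp).z1 h1
  have hnorm : ∀ g : G, (∀ n C', Dist Pr n C C' → ∃ k, Dist Pr k C (cj g C')) → g ∈ normalizer (U : Set G) := by
    intro g hg
    apply mem_normalizer_of_le
    intro y hy
    rw [hU] at hy
    induction hy using closure_induction with
    | mem y hy =>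
      obtain ⟨n, C', V, hd, hV, hy⟩ := hy
      obtain ⟨k, hk⟩ := hg n C' hd
      exact Subgroup.subset_closure ⟨k, _, _, hk, h.vs_cj hV g, conj_mem_cj hy⟩
    | one => simp
    | mul a b _ _ ha hb =>
      have : g * (a * b) * g⁻¹ = (g * a * g⁻¹) * (g * b * g⁻¹) := by group
      rw [this]; exact mul_mem ha hb
    | inv a _ ha =>
      have : g * a⁻¹ * g⁻¹ = (g * a * g⁻¹)⁻¹ := by group
      rw [this]; exact inv_mem ha
  apply h.gen hC hne hex.isPGroup
  · intro g hg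
    apply hnorm
    intro n C' hd
    have := h.dist_cj hd g
    rw [cj_eq_iff.2 hg] at this
    exact ⟨n, this⟩
  · intro X V z hp x hx
    apply hnorm
    intro n C' hd
    exact ⟨n + 1, dist_left ⟨X, V, z, hp, x, hx, rfl⟩ (h.dist_cj hd x)⟩

/-- minimality of `m` -/
def Min (Pr : Subgroup G → Subgroup G → Subgroup G → G → Prop) (m : ℕ) : Prop :=
  ∀ n < m, ∀ C C' V V', Dist Pr n C C' → Vs Pr C V → Vs Pr C' V' → Com V V'

theorem Geo.L1 (h : Geo Ch Pr) {m : ℕ} (hm : Min Pr m) {n : ℕ} (hn : n ≤ m) : ∀ {C C' V : Subgroup G}, Dist Pr n C C' →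
    Vs Pr C V → ∀ v ∈ V, ∀ u ∈ ZJ C', v * u = u * v := by
  induction n with
  | zero =>
    rintro C C' V hd ⟨X, z, hp⟩ v hv u hu
    rw [← (hd : C = C')] at hu
    exact h.zj_comm (h.ch hp) ((h.pz hp).VC hv) hu
  | succ n ih =>
    rintro C C'' V ⟨C', hd, X', V', z', hp', x, hx, rfl⟩ hV v hv u hu
    rw [ZJ_cj, mem_cj] at hu
    have h1 := (h.pz hp').ZV x hx _ hu
    have h2 := hm n (by omega) C C' V V' hd hV ⟨X', z', hp'⟩ v hv _ h1
    have h3 := ih (by omega) hd hV v hv _ hu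
    have e : u = (x * (x⁻¹ * u * x) * x⁻¹ * (x⁻¹ * u * x)⁻¹) * (x⁻¹ * u * x) := by group
    rw [e, ← mul_assoc, h2, mul_assoc, h3, ← mul_assoc]

theorem Geo.L2 (h : Geo Ch Pr) {m : ℕ} (hm : Min Pr m) {C C' V : Subgroup G} (hd : Dist Pr m C C')
    (hV : Vs Pr C V) : V ≤ C' := by
  obtain ⟨X, z, hp⟩ := hV
  cases m with
  | zero => rw [← (hd : C = C')]; exact (h.pz hp).VC
  | succ k =>
    have h1 := h.L1 hm le_rfl hd ⟨X, z, hp⟩
    obtain ⟨D, hd', X', V', z', hp', x, hx, rfl⟩ := hd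
    intro v hv
    apply h.cent (h.adjP hp' hx) ((h.pz hp).V2 v hv) (h1 v hv)
    intro v' hv'
    exact hm k (by omega) C D V V' hd' ⟨X, z, hp⟩ ⟨X', z', hp'⟩ v hv v' hv'

theorem Geo.L2z (h : Geo Ch Pr) {C C' X X' V V' : Subgroup G} {z z' : G} (hp : Pr C X V z) (hp' : Pr C' X' V' z')
    (h1 : V ≤ C') (h2 : V' ≤ C) (hn : ¬ Com V V') : z = z' := by
  have hq := h.pz hp
  have hq' := h.pz hp'
  unfold Com at hn
  push Not at hn
  obtain ⟨v, hv, v', hv', hne⟩ := hn
  have e1 : v * v' * v⁻¹ = v' * z' := by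
    rcases hq'.cv v (h1 hv) v' hv' with e | e
    · exact absurd (mul_inv_eq_iff_eq_mul.1 e) hne
    · exact e
  have e2 : v' * v * v'⁻¹ = v * z := by
    rcases hq.cv v' (h2 hv') v hv with e | e
    · exact absurd (mul_inv_eq_iff_eq_mul.1 e).symm hne
    · exact e
  have i1 : v⁻¹ = v := inv_eq_of_mul_eq_one_left (hq.V2 v hv)
  have i2 : v'⁻¹ = v' := inv_eq_of_mul_eq_one_left (hq'.V2 v' hv')
  have e3 : v' * v * v' = v * z := by rw [← e2, i2]
  have e4 : v * v' * v = v' * z' := by rw [← e1, i1]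
  -- z = v v' v v', z' = v' v v' v
  have hz : z = v * v' * v * v' := by
    have : v * z = v * (v * v' * v * v') := by
      rw [← e3]
      calc v' * v * v' = (v * v) * v' * v * v' := by rw [hq.V2 v hv]; group
        _ = v * (v * v' * v * v') := by group
    exact mul_left_cancel this
  have hz' : z' = v' * v * v' * v := by
    have : v' * z' = v' * (v' * v * v' * v) := by
      rw [← e4]
      calc v * v' * v = (v' * v') * v * v' * v := by rw [hq'.V2 v' hv']; group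
        _ = v' * (v' * v * v' * v) := by group
    exact mul_left_cancel this
  have : z⁻¹ = z' := by
    rw [hz, hz', mul_inv_rev, mul_inv_rev, mul_inv_rev, i1, i2]; group
  rw [← this]
  exact (inv_eq_of_mul_eq_one_left (hq.V2 z hq.zV)).symm

end H55.ZN
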