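import Cfsg.Agent.Lib.H55.ZN8

set_option autoImplicit false
set_option linter.unusedSimpArgs false
set_option linter.unusedSectionVars false

/-! The alternatives at the end of a chain; reduction to chains of length one. -/

namespace H55.ZN

open Subgroup

variable {G : Type*} [Group G] [Finite G] {Ch : Subgroup G → Prop}
  {Pr : Subgroup G → Subgroup G → Subgroup G → G → Prop}

omit [Finite G] in
theorem PZ.moves {C X V : Subgroup G} {z : G} (h : PZ C X V z) {c : G} (hc : c ∈ C) {v₀ : G} (hv₀ : v₀ ∈ V)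
    (hne : c * v₀ ≠ v₀ * c) (hcz : c * z = z * c) {v : G} (hv : v ∈ V) (hv1 : v ≠ 1) (hvz : v ≠ z) :
    c * v * c⁻¹ = v * z := by
  rcases h.cv c hc v hv with e | e
  · exfalso
    apply hne
    have e1 : c * v = v * c := mul_inv_eq_iff_eq_mul.1 e
    rcases h.cases hv hv1 hvz hv₀ with e2 | e2 | e2 | e2
    · rw [e2]; group
    · rw [e2, hcz]
    · rw [e2, e1]
    · rw [e2, ← mul_assoc, hcz, mul_assoc, e1, mul_assoc]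
  · exact e

theorem Geo.moves (h : Geo Ch Pr) {C X V : Subgroup G} {z : G} (hp : Pr C X V z) {c : G} (hc : c ∈ C) {v₀ : G}
    (hv₀ : v₀ ∈ V) (hne : c * v₀ ≠ v₀ * c) {v : G} (hv : v ∈ V) (hv1 : v ≠ 1) (hvz : v ≠ z) :
    c * v * c⁻¹ = v * z :=
  (h.pz hp).moves hc hv₀ hne (h.zj_comm (h.ch hp) hc (h.pz hp).zZ) hv hv1 hvz

/-- `u` central in two chambers of `X` -/
theorem Geo.cen_two (h : Geo Ch Pr) {C X V : Subgroup G} {z : G} (hp : Pr C X V z) {r : G} (hr : r ∈ X)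
    (hrz : r * z ≠ z * r) {u : G} (hu : u ∈ ZJ C) (hu' : u ∈ ZJ (cj r C)) : ∀ x ∈ X, x * u = u * x := by
  have hp' := h.adjP hp hr
  have hpz := h.pz hp
  obtain ⟨y, hy, -, hm⟩ := (h.pz hp').mv
  have hyC := JJ_le _ hy
  have hne : z ≠ r * z * r⁻¹ := by
    intro e
    apply hrz
    exact (mul_inv_eq_iff_eq_mul.1 e.symm)
  have h1 := hm z hpz.zV hpz.z1 hne
  apply hpz.cen_gen (fun c hc => h.zj_comm (h.ch hp) hc hu) ((h.pz hp').CX hyC) ?_ (h.zj_comm (h.ch hp') hyC hu')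
  intro e
  rw [e] at h1
  have h2 : z * y * y⁻¹ = z := by group
  rw [h2] at h1
  exact (h.pz hp').z1 (mul_eq_left.1 h1.symm)

/-- configuration: a bad pair for a chain of length `k+1` -/
structure Cfg (Pr : Subgroup G → Subgroup G → Subgroup G → G → Prop) (k : ℕ) (C₀ C' Xm Vm : Subgroup G) (zm d : G)
    (Xa Va : Subgroup G) (za : G) (Xb Vb : Subgroup G) (zb : G) : Prop where
  hd : Dist Pr k C₀ C'
  pm : Pr C' Xm Vm zm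
  dm : d ∈ Xm
  pa : Pr C₀ Xa Va za
  pb : Pr (cj d C') Xb Vb zb
  nc : ¬ Com Va Vb

variable {k : ℕ} {C₀ C' Xm Vm : Subgroup G} {zm d : G} {Xa Va : Subgroup G} {za : G} {Xb Vb : Subgroup G} {zb : G}

theorem Cfg.dist (c : Cfg Pr k C₀ C' Xm Vm zm d Xa Va za Xb Vb zb) : Dist Pr (k + 1) C₀ (cj d C') :=
  ⟨C', c.hd, Xm, Vm, zm, c.pm, d, c.dm, rfl⟩

theorem Cfg.ab (c : Cfg Pr k C₀ C' Xm Vm zm d Xa Va za Xb Vb zb) (h : Geo Ch Pr) (hm : Min Pr (k + 1)) :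
    Va ≤ cj d C' ∧ Vb ≤ C₀ ∧ za = zb := by
  have h1 := h.L2 hm c.dist ⟨Xa, za, c.pa⟩
  have h2 := h.L2 hm (h.dist_symm c.dist) ⟨Xb, zb, c.pb⟩
  exact ⟨h1, h2, h.L2z c.pa c.pb h1 h2 c.nc⟩

/-- an element of `Vb` moving `Va` -/
theorem Cfg.mover (c : Cfg Pr k C₀ C' Xm Vm zm d Xa Va za Xb Vb zb) (h : Geo Ch Pr) (hm : Min Pr (k + 1)) :
    ∃ w ∈ Vb, w ∈ C₀ ∧ (∀ v ∈ Va, v ≠ 1 → v ≠ za → w * v * w⁻¹ = v * za) := by
  obtain ⟨-, h2, -⟩ := c.ab h hm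
  have hn := c.nc
  unfold Com at hn
  push Not at hn
  obtain ⟨v, hv, v', hv', hne⟩ := hn
  exact ⟨v', hv', h2 hv', fun w hw hw1 hwz => h.moves c.pa (h2 hv') hv (fun e => hne e.symm) hw hw1 hwz⟩

theorem Cfg.comm_bm (c : Cfg Pr k C₀ C' Xm Vm zm d Xa Va za Xb Vb zb) (h : Geo Ch Pr) (hm : Min Pr (k + 1)) :
    Com Vb Vm := by
  exact hm 0 (by omega) _ _ Vb Vm rfl ⟨Xb, zb, c.pb⟩ ⟨Xm, _, h.adjP c.pm c.dm⟩

theorem move_ne {w v z : G} (h : w * v * w⁻¹ = v * z) (hz : z ≠ 1) : w * v ≠ v * w := by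
  intro e
  rw [e] at h
  have : v * w * w⁻¹ = v := by group
  rw [this] at h
  exact hz (mul_eq_left.1 h.symm)

/-- alternative (i) -/
theorem Cfg.alt_i (c : Cfg Pr k C₀ C' Xm Vm zm d Xa Va za Xb Vb zb) (h : Geo Ch Pr) (hm : Min Pr (k + 1)) {r : G}
    (hr : r ∈ Xa) (hrz : r * za ≠ za * r) {X₁ V₁ : Subgroup G} {z₁ : G} (hp : Pr (cj r C₀) X₁ V₁ z₁)
    (hnc : ¬ Com V₁ Vm) : z₁ = zm ∧ ∀ x ∈ Xa, x * zm = zm * x := by
  have hd : Dist Pr (k + 1) (cj r C₀) C' := by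
    apply dist_left (C' := C₀) _ c.hd
    exact h.adj_symm ⟨Xa, Va, za, c.pa, r, hr, rfl⟩
  have h1 := h.L2 hm hd ⟨X₁, z₁, hp⟩
  have h2 := h.L2 hm (h.dist_symm hd) ⟨Xm, zm, c.pm⟩
  have h3 := h.L2z hp c.pm h1 h2 hnc
  refine ⟨h3, ?_⟩
  obtain ⟨w, hw, hwC, hmv⟩ := c.mover h hm
  have hpa := h.pz c.pa
  have hp' := h.adjP c.pa hr
  have hvV : r * za * r⁻¹ ∈ Va := conj_mem_of_norm (hpa.XV hr) hpa.zV
  have hv1 : r * za * r⁻¹ ≠ 1 := fun e => hpa.z1 (conj_eq_one_iff.1 e)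
  have hvz : r * za * r⁻¹ ≠ za := fun e => hrz (mul_inv_eq_iff_eq_mul.1 e)
  apply (h.pz hp').cen_gen (y := w) ?_ (hpa.CX hwC) (move_ne (hmv _ hvV hv1 hvz) hpa.z1) ?_
  · intro x hx
    rw [← h3]
    exact h.zj_comm (h.ch hp') hx (h.pz hp).zZ
  · exact c.comm_bm h hm w hw zm (h.pz c.pm).zV

/-- alternative (ii) -/
theorem Cfg.alt_ii (c : Cfg Pr k C₀ C' Xm Vm zm d Xa Va za Xb Vb zb) (h : Geo Ch Pr) (hm : Min Pr (k + 1)) {r : G}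
    (hr : r ∈ Xa) (hrz : r * za ≠ za * r) (hcom : ∀ V₁, Vs Pr (cj r C₀) V₁ → Com V₁ Vm) :
    Xa ≤ normalizer (WW Pr C₀ : Set G) ∧ WW Pr (cj r C₀) = WW Pr C₀ ∧
      (∀ w ∈ WW Pr C₀, ∀ v ∈ Vb, v * w * v⁻¹ * w⁻¹ ∈ Va) := by
  have hd : Dist Pr (k + 1) (cj r C₀) C' := by
    apply dist_left (C' := C₀) _ c.hd
    exact h.adj_symm ⟨Xa, Va, za, c.pa, r, hr, rfl⟩
  have hpa := h.pz c.pa
  have hpb := h.pz c.pb
  have hp' := h.adjP c.pa hr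
  obtain ⟨-, hbC, hab⟩ := c.ab h hm
  -- four-groups of cj r C₀ are in Cm
  have h1 : ∀ V₁, Vs Pr (cj r C₀) V₁ → V₁ ≤ cj d C' := by
    intro V₁ hV₁ v hv
    have hV₁' := hV₁
    obtain ⟨X₁, z₁, hp₁⟩ := hV₁'
    apply h.cent (h.adjP c.pm c.dm) ((h.pz hp₁).V2 v hv) ?_ (hcom V₁ hV₁ v hv)
    intro u hu
    rw [ZJ_cj, mem_cj] at hu
    have e1 := (h.pz c.pm).ZV d c.dm _ hu
    have e2 := hcom V₁ hV₁ v hv _ e1
    have e3 := h.L1 hm le_rfl hd hV₁ v hv _ hu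
    have e : u = (d * (d⁻¹ * u * d) * d⁻¹ * (d⁻¹ * u * d)⁻¹) * (d⁻¹ * u * d) := by group
    rw [e, ← mul_assoc, e2, mul_assoc, e3, ← mul_assoc]
  have h2 : WW Pr (cj r C₀) ≤ cj d C' := by
    rw [WW, closure_le]
    rintro v ⟨V₁, hV₁, hv⟩
    exact h1 V₁ hV₁ hv
  have hVaW : Va ≤ WW Pr (cj r C₀) := le_WW ⟨Xa, _, hp'⟩
  have h3 : ∀ w ∈ WW Pr (cj r C₀), ∀ v ∈ Vb, v * w * v⁻¹ * w⁻¹ ∈ Va := by
    intro w hw v hv
    have hv2 := hpb.V2 v hv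
    have hvi : v⁻¹ = v := inv_eq_of_mul_eq_one_left hv2
    rcases hpb.cv w (h2 hw) v hv with e | e
    · have e1 : w * v = v * w := mul_inv_eq_iff_eq_mul.1 e
      have : v * w * v⁻¹ * w⁻¹ = 1 := by rw [← e1]; group
      rw [this]; exact one_mem _
    · have e1 : w * v = v * zb * w := mul_inv_eq_iff_eq_mul.1 e
      have : v * w * v⁻¹ * w⁻¹ = za := by
        rw [hvi, mul_assoc v w v, e1, hab]
        calc v * (v * zb * w) * w⁻¹ = (v * v) * zb := by group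
          _ = zb := by rw [hv2, one_mul]
      rw [this]; exact hpa.zV
  obtain ⟨w, hw, hwC, hmv⟩ := c.mover h hm
  have hvV : r * za * r⁻¹ ∈ Va := conj_mem_of_norm (hpa.XV hr) hpa.zV
  have hv1 : r * za * r⁻¹ ≠ 1 := fun e => hpa.z1 (conj_eq_one_iff.1 e)
  have hvz : r * za * r⁻¹ ≠ za := fun e => hrz (mul_inv_eq_iff_eq_mul.1 e)
  have h4 : Xa ≤ normalizer (WW Pr (cj r C₀) : Set G) := by
    apply (h.pz hp').gen (y := w) (le_normalizer.trans h.WW_norm) ?_ (hpa.CX hwC)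
      (move_ne (hmv _ hvV hv1 hvz) hpa.z1)
    apply mem_normalizer_of_le
    intro y hy
    have e : w * y * w⁻¹ = (w * y * w⁻¹ * y⁻¹) * y := by group
    rw [e]
    exact mul_mem (hVaW (h3 y hy w hw)) hy
  have h5 : WW Pr (cj r C₀) = WW Pr C₀ := by
    have e1 := h4 (Xa.inv_mem hr)
    rw [← cj_eq_iff, ← h.WW_cj, cj_inv_cj] at e1
    exact e1.symm
  rw [h5] at h4 h3
  exact ⟨h4, h5, h3⟩

/-- case C1: no bad pair of length at least two -/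
theorem Geo.no_long1 (h : Geo Ch Pr) (hA : ∀ {C X V : Subgroup G} {z : G} {U : Subgroup G}, Pr C X V z → U ≠ ⊥ →
    IsPGroup 2 U → normalizer (C : Set G) ≤ normalizer (U : Set G) → ¬ X ≤ normalizer (U : Set G))
    (hm : Min Pr (k + 2)) (c : Cfg Pr (k + 1) C₀ C' Xm Vm zm d Xa Va za Xb Vb zb) : False := by
  have hpa := h.pz c.pa
  obtain ⟨r, hr, hrz⟩ : ∃ r ∈ Xa, r * za ≠ za * r := by
    obtain ⟨v, hv, hv1, hvz, -⟩ := hpa.three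
    obtain ⟨r, hr, e⟩ := hpa.tr v hv hv1
    refine ⟨r, hr, fun e2 => hvz ?_⟩
    rw [← e, e2]; group
  have step : ∀ {k : ℕ} {C₀ C' Xm Vm : Subgroup G} {zm d : G} {Xa Va : Subgroup G} {za : G} {Xb Vb : Subgroup G}
      {zb : G}, Min Pr (k + 1) → Cfg Pr k C₀ C' Xm Vm zm d Xa Va za Xb Vb zb → ∀ r ∈ Xa, r * za ≠ za * r →
      ∃ X₁ V₁ z₁, Pr (cj r C₀) X₁ V₁ z₁ ∧ ¬ Com V₁ Vm := by
    intro k C₀ C' Xm Vm zm d Xa Va za Xb Vb zb hm c r hr hrz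
    by_contra hcon
    push Not at hcon
    have h1 := c.alt_ii h hm hr hrz (fun V₁ hV₁ => by
      obtain ⟨X₁, z₁, hp₁⟩ := hV₁
      exact hcon X₁ V₁ z₁ hp₁)
    exact hA c.pa (h.WW_ne (h.ch c.pa)) ((h.ch2 (h.ch c.pa)).to_le h.WW_le) h.WW_norm h1.1
  obtain ⟨X₁, V₁, z₁, hp₁, hnc₁⟩ := step hm c r hr hrz
  obtain ⟨hz₁, hXa⟩ := c.alt_i h hm hr hrz hp₁ hnc₁
  obtain ⟨C'', hd'', X₂, V₂, z₂, hp₂, x₂, hx₂, rfl⟩ := c.hd
  have hp₁z := h.pz hp₁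
  -- second configuration
  have c2 : Cfg Pr (k + 1) (cj r C₀) C'' X₂ V₂ z₂ x₂ X₁ V₁ z₁ Xm Vm zm :=
    ⟨dist_left (h.adj_symm ⟨Xa, Va, za, c.pa, r, hr, rfl⟩) hd'', hp₂, hx₂, hp₁, c.pm, hnc₁⟩
  obtain ⟨r₁, hr₁, hrz₁⟩ : ∃ r ∈ X₁, r * z₁ ≠ z₁ * r := by
    obtain ⟨v, hv, hv1, hvz, -⟩ := hp₁z.three
    obtain ⟨r, hr, e⟩ := hp₁z.tr v hv hv1
    refine ⟨r, hr, fun e2 => hvz ?_⟩
    rw [← e, e2]; group
  obtain ⟨X₃, V₃, z₃, hp₃, hnc₃⟩ := step hm c2 r₁ hr₁ hrz₁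
  obtain ⟨hz₃, hX₁⟩ := c2.alt_i h hm hr₁ hrz₁ hp₃ hnc₃
  have hz₂Z : z₂ ∈ ZJ (cj r C₀) := by
    have e1 := (h.pz hp₃).zZ
    rw [hz₃, ZJ_cj r₁, mem_cj] at e1
    have e2 : r₁⁻¹ * z₂ * r₁ = z₂ := by
      rw [mul_assoc, ← hX₁ r₁ hr₁]; group
    rwa [e2] at e1
  have hzmZ : zm ∈ ZJ (cj r C₀) := by rw [← hz₁]; exact hp₁z.zZ
  have hzm1 : zm ≠ 1 := (h.pz c.pm).z1
  have hz₂1 : z₂ ≠ 1 := (h.pz hp₂).z1
  have hp' := h.adjP c.pa hr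
  obtain ⟨w, hw, hwC, hmv⟩ := c.mover h hm
  have hvV : r * za * r⁻¹ ∈ Va := conj_mem_of_norm (hpa.XV hr) hpa.zV
  have hv1 : r * za * r⁻¹ ≠ 1 := fun e => hpa.z1 (conj_eq_one_iff.1 e)
  have hvz : r * za * r⁻¹ ≠ za := fun e => hrz (mul_inv_eq_iff_eq_mul.1 e)
  have hwv := move_ne (hmv _ hvV hv1 hvz) hpa.z1
  have hwm : w * zm = zm * w := c.comm_bm h hm w hw zm (h.pz c.pm).zV
  have hw2 : w * z₂ = z₂ * w := by
    have := hm 1 (by omega) (cj x₂ C'') (cj d (cj x₂ C'')) V₂ Vb ⟨_, rfl, Xm, Vm, zm, c.pm, d, c.dm, rfl⟩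
      ⟨X₂, _, h.adjP hp₂ hx₂⟩ ⟨Xb, zb, c.pb⟩
    exact (this z₂ (h.pz hp₂).zV w hw).symm
  rcases (h.pz hp').idx (h.chB (h.ch hp')) hz₂Z with e | e
  · have e1 := h.fix_unique hp' hz₂Z hz₂1 e hzmZ hzm1 hXa
    apply hrz₁
    rw [hz₁, ← e1]; exact hX₁ r₁ hr₁
  · -- z₂ * v is centralized by Xa
    have hvZ := (h.pz hp').zZ
    apply hwv
    by_cases e1 : z₂ * (r * za * r⁻¹) = 1
    · have e2 : r * za * r⁻¹ = z₂⁻¹ := eq_inv_of_mul_eq_one_right e1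
      rw [e2]
      have : Commute w z₂ := hw2
      exact this.inv_right
    · have e2 := h.fix_unique hp' (mul_mem hz₂Z hvZ) e1 e hzmZ hzm1 hXa
      have e3 : r * za * r⁻¹ = z₂⁻¹ * zm := by rw [← e2]; group
      rw [e3]
      have c1 : Commute w z₂ := hw2
      have c2 : Commute w zm := hwm
      exact c1.inv_right.mul_right c2

/-- case C2 -/
theorem Geo.no_long2 (h : Geo Ch Pr) (hA : ∀ {C C' : Subgroup G} {c : G}, Ch C → Ch C' → Nat.card (ZJ C) ≤ 4 →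
    c ∈ ZJ C → c ∈ ZJ C' → c ≠ 1 → C' = C ∨ Adj Pr C C')
    (hm : Min Pr (k + 2)) (c : Cfg Pr (k + 1) C₀ C' Xm Vm zm d Xa Va za Xb Vb zb) : False := by
  obtain ⟨-, -, hz⟩ := c.ab h hm
  have h1 := (h.pz c.pa).zZ
  have h2 := (h.pz c.pb).zZ
  rw [← hz] at h2
  rcases hA (h.ch c.pa) (h.ch c.pb) (h.card_ZJ (h.ch c.pa)) h1 h2 (h.pz c.pa).z1 with e | e
  · exact c.nc (hm 0 (by omega) _ _ _ _ e.symm ⟨_, _, c.pa⟩ ⟨_, _, c.pb⟩)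
  · exact c.nc (hm 1 (by omega) _ _ _ _ ⟨_, rfl, e⟩ ⟨_, _, c.pa⟩ ⟨_, _, c.pb⟩)

end H55.ZN
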